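import Cfsg.Agent.H92.RootInvIsolated
import Cfsg.Agent.H28.BaerSuzuki
import Cfsg.Agent.H19.Cores
import Cfsg.Agent.H60.Dihedral

/-! A connected class of root involutions: product partners and odd partners. -/

set_option autoImplicit false

namespace Cfsg.Agent.H92.RI

open Cfsg

variable {G : Type*} [Group G] {D : Set G}

section four

variable (hD : IsRootInvolutionSet D)
include hD

lemma comm_of_ne {a b : G} (ha : a ∈ D) (hb : b ∈ D) (h4 : orderOf (a * b) ≠ 4)
    (ho : ¬ OddAdj D a b) : a * b = b * a := by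
  rcases hD.pair a ha b hb with h | h | h
  · exact h
  · by_cases e : a = b
    · rw [e]
    · exact absurd ⟨ha, hb, e, h⟩ ho
  · exact absurd h.1 h4

lemma four_of_ne {a b : G} (ha : a ∈ D) (hb : b ∈ D) (hc : a * b ≠ b * a)
    (ho : ¬ OddAdj D a b) : orderOf (a * b) = 4 := by
  by_contra h
  exact hc (comm_of_ne hD ha hb h ho)

lemma not_comm_of_four {a b : G} (ha : a ∈ D) (hb : b ∈ D) (h4 : orderOf (a * b) = 4) :
    a * b ≠ b * a := by
  intro h
  have := orderOf_dvd_of_pow_eq_one (sq_eq_one_of_comm hD ha hb h)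
  rw [h4] at this; norm_num at this

lemma four_symm {a b : G} (ha : a ∈ D) (hb : b ∈ D) (h4 : orderOf (a * b) = 4) :
    orderOf (b * a) = 4 := by rw [orderOf_mul_symm hD ha hb, h4]

lemma sq_symm {a b : G} (ha : a ∈ D) (hb : b ∈ D) (h4 : orderOf (a * b) = 4) :
    (b * a) ^ 2 = (a * b) ^ 2 := by
  rw [← mul_inv_eq hD ha hb, inv_pow, inv_self hD (four_facts hD ha hb h4).1]

lemma four_partner {a b : G} (ha : a ∈ D) (hb : b ∈ D) (h4 : orderOf (a * b) = 4) :
    (a * b) ^ 2 ∈ productPartners D a := by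
  obtain ⟨hcD, hca, hcb, hc1⟩ := four_facts hD ha hb h4
  refine ⟨⟨hcD, hca, ?_⟩, ?_⟩
  · intro hh
    exact not_comm_of_four hD ha hb h4 (by rw [hh] at hcb; exact hcb)
  · rw [hca, ← hc1]
    simpa [inv_self hD hb] using hD.conj_mem a ha b

lemma four_partner' {a b : G} (ha : a ∈ D) (hb : b ∈ D) (h4 : orderOf (a * b) = 4) :
    (a * b) ^ 2 ∈ productPartners D b := by
  rw [← sq_symm hD ha hb h4]
  exact four_partner hD hb ha (four_symm hD ha hb h4)

lemma partner_symm {a b : G} (ha : a ∈ D) (hb : b ∈ productPartners D a) :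
    a ∈ productPartners D b := by
  obtain ⟨hbD, hba, hne, hfD⟩ := partner_facts hD hb
  exact ⟨⟨ha, hba.symm, hne.symm⟩, by rw [← hba]; exact hfD⟩

lemma four_step {b x w : G} (hw : w ∈ productPartners D b) (hx : OddAdj D b x)
    (h4 : orderOf (x * w) = 4) :
    (x * w) ^ 2 ∈ productPartners D x ∧ orderOf (b * (x * w) ^ 2) = 4 := by
  obtain ⟨hwD, hwb, hne, -⟩ := partner_facts hD hw
  have hr := four_partner hD hx.2.1 hwD h4
  obtain ⟨hrD, hrx, hrw, -⟩ := four_facts hD hx.2.1 hwD h4
  refine ⟨hr, four_of_ne hD hx.1 hrD ?_ ?_⟩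
  · exact (not_comm_partner hD hr (oddAdj_symm hD hx)).symm
  · intro ho
    exact not_comm_partner hD hw ho hrw.symm

/-- the map `w ↦ (x w)²` on partners of `b` is injective when `b x` has odd order -/
lemma four_injective {a x b₁ b₂ : G} (h₁ : b₁ ∈ productPartners D a)
    (h₂ : b₂ ∈ productPartners D a) (hx : OddAdj D a x) (e₁ : orderOf (x * b₁) = 4)
    (e₂ : orderOf (x * b₂) = 4) (he : (x * b₁) ^ 2 = (x * b₂) ^ 2) : b₁ = b₂ := by
  obtain ⟨hb1, h1a, -, hf1⟩ := partner_facts hD h₁
  obtain ⟨hb2, h2a, -, hf2⟩ := partner_facts hD h₂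
  have hxD := hx.2.1
  have haa := sq_one hD hx.1
  have h11 := sq_one hD hb1
  have h22 := sq_one hD hb2
  have hxx := sq_one hD hxD
  set k := b₁ * b₂ with hk
  obtain ⟨hwD, hwx, hw1, -⟩ := four_facts hD hxD hb1 e₁
  have hw2 : (x * b₁) ^ 2 * b₂ = b₂ * (x * b₁) ^ 2 := by
    rw [he]; exact (four_facts hD hxD hb2 e₂).2.2.1
  have x1 : x * b₁ * x = b₁ * (x * b₁) ^ 2 := by
    rw [← sq_symm hD hxD hb1 e₁]
    exact (four_facts hD hb1 hxD (four_symm hD hxD hb1 e₁)).2.2.2
  have x2 : x * b₂ * x = b₂ * (x * b₁) ^ 2 := by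
    rw [he, ← sq_symm hD hxD hb2 e₂]
    exact (four_facts hD hb2 hxD (four_symm hD hxD hb2 e₂)).2.2.2
  have hxk : x * k * x = k := by
    calc x * k * x = x * b₁ * (x * x) * b₂ * x := by rw [hxx, hk]; group
      _ = (x * b₁ * x) * (x * b₂ * x) := by group
      _ = b₁ * ((x * b₁) ^ 2 * b₂) * (x * b₁) ^ 2 := by rw [x1, x2]; group
      _ = b₁ * b₂ * ((x * b₁) ^ 2 * (x * b₁) ^ 2) := by rw [hw2]; group
      _ = k := by rw [sq_one hD hwD, mul_one]
  have hkinv : k⁻¹ = b₂ * b₁ := by rw [hk, mul_inv_eq hD hb1 hb2]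
  have hfk : b₁ * a * k * (b₁ * a) = k⁻¹ := by
    rw [hkinv, hk]
    calc b₁ * a * (b₁ * b₂) * (b₁ * a) = b₁ * (a * b₁) * b₂ * b₁ * a := by group
      _ = b₁ * (b₁ * a) * b₂ * b₁ * a := by rw [h1a]
      _ = (b₁ * b₁) * (a * b₂) * b₁ * a := by group
      _ = (b₁ * b₁) * (b₂ * a) * b₁ * a := by rw [h2a]
      _ = b₂ * (a * b₁) * a := by rw [h11]; group
      _ = b₂ * (b₁ * a) * a := by rw [h1a]
      _ = b₂ * b₁ * (a * a) := by group
      _ = b₂ * b₁ := by rw [haa, mul_one]
  have ho1 : OddAdj D x (b₁ * a) :=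
    (odd_or_odd hD h₁ hx).resolve_left fun h => not_four_of_odd hD h.2.2.2 e₁
  set u := x * (b₁ * a) with hu
  have huk : u * k * u⁻¹ = k⁻¹ := by
    rw [hu, mul_inv_rev, inv_self hD hf1, inv_self hD hxD]
    calc x * (b₁ * a) * k * (b₁ * a * x) = x * (b₁ * a * k * (b₁ * a)) * x := by group
      _ = x * k⁻¹ * x⁻¹ := by rw [hfk, inv_self hD hxD]
      _ = (x * k * x⁻¹)⁻¹ := by group
      _ = k⁻¹ := by rw [inv_self hD hxD, hxk]
  have huk2 : Commute (u ^ 2) k := by
    show u ^ 2 * k = k * u ^ 2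
    rw [← mul_inv_eq_iff_eq_mul, pow_two]
    calc u * u * k * (u * u)⁻¹ = u * (u * k * u⁻¹) * u⁻¹ := by group
      _ = u * k⁻¹ * u⁻¹ := by rw [huk]
      _ = (u * k * u⁻¹)⁻¹ := by group
      _ = k := by rw [huk, inv_inv]
  obtain ⟨m, hm⟩ := ho1.2.2.2
  have hu2 : u = (u ^ 2) ^ (m + 1) := by
    rw [← pow_mul, show 2 * (m + 1) = (2 * m + 1) + 1 by ring, ← hm, pow_succ,
      pow_orderOf_eq_one, one_mul]
  have hcu : Commute u k := by rw [hu2]; exact huk2.pow_left _
  have hkk : k * k = 1 := by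
    have : k = k⁻¹ := by rw [← huk, hcu.eq]; group
    nth_rewrite 2 [this]
    exact mul_inv_cancel k
  have h12 : b₁ * b₂ = b₂ * b₁ := by
    rw [← hkinv, ← hk]; exact eq_inv_of_mul_eq_one_left hkk
  have hxf2 : x * (b₂ * a) = u * k := by
    rw [hu, hk]
    calc x * (b₂ * a) = x * (a * b₂) := by rw [h2a]
      _ = x * (a * (b₁ * b₁) * b₂) := by rw [h11, mul_one]
      _ = x * ((a * b₁) * (b₁ * b₂)) := by group
      _ = x * (b₁ * a) * (b₁ * b₂) := by rw [← h1a]; group
  have ho2 : OddAdj D x (b₂ * a) :=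
    (odd_or_odd hD h₂ hx).resolve_left fun h => not_four_of_odd hD h.2.2.2 e₂
  have hodd := ho2.2.2.2
  rw [hxf2] at hodd
  set n := orderOf (u * k) with hn
  have h1 : (u * k) ^ n = 1 := pow_orderOf_eq_one _
  rw [hcu.mul_pow] at h1
  obtain ⟨j, hj⟩ := hodd
  have hkn : k ^ n = k := by rw [hj, pow_succ, pow_mul, pow_two, hkk, one_pow, one_mul]
  rw [hkn] at h1
  have h2 : k ^ (2 * m + 1) = 1 := by
    have e : k = (u ^ n)⁻¹ := eq_inv_of_mul_eq_one_right h1
    rw [e, inv_pow, ← pow_mul, Nat.mul_comm, pow_mul, ← hm, pow_orderOf_eq_one, one_pow, inv_one]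
  have h3 : k = 1 := by
    rw [pow_succ, pow_mul, pow_two, hkk, one_pow, one_mul] at h2
    exact h2
  rw [eq_inv_of_mul_eq_one_left h3, inv_self hD hb2]

lemma exists_four_preimage [Finite G] {b x w : G} (hw : w ∈ productPartners D b)
    (hx : OddAdj D b x) (h4 : orderOf (x * w) = 4) :
    ∃ r ∈ productPartners D x, orderOf (b * r) = 4 ∧ (b * r) ^ 2 = w := by
  let S := {w // w ∈ productPartners D b ∧ orderOf (x * w) = 4}
  let R := {r // r ∈ productPartners D x ∧ orderOf (b * r) = 4}
  let φ : S → R := fun s => ⟨(x * s.1) ^ 2, four_step hD s.2.1 hx s.2.2⟩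
  let ψ : R → S := fun r => ⟨(b * r.1) ^ 2, four_step hD r.2.1 (oddAdj_symm hD hx) r.2.2⟩
  have hi : Function.Injective (ψ ∘ φ) := by
    intro s t h
    have h1 : (φ s) = φ t := Subtype.ext
      (four_injective hD (φ s).2.1 (φ t).2.1 (oddAdj_symm hD hx) (φ s).2.2 (φ t).2.2
        (congrArg Subtype.val h))
    exact Subtype.ext (four_injective hD s.2.1 t.2.1 hx s.2.2 t.2.2 (congrArg Subtype.val h1))
  obtain ⟨s, hs⟩ := (Finite.injective_iff_surjective.mp hi) ⟨w, hw, h4⟩
  exact ⟨(φ s).1, (φ s).2.1, (φ s).2.2, congrArg Subtype.val hs⟩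

/-- two members acting on a four-group `⟨b, w⟩` like `SL₂(2)` have product of order three -/
lemma order_three {a w r b : G} (ha : a ∈ D) (hw : w ∈ D) (hr : r ∈ D) (hbD : b ∈ D)
    (h4 : orderOf (a * w) = 4) (hb : (a * w) ^ 2 = b) (h4' : orderOf (b * r) = 4)
    (hw' : (b * r) ^ 2 = w) : OddAdj D a r ∧ orderOf (a * r) = 3 := by
  have hpart : b ∈ productPartners D a := hb ▸ four_partner hD ha hw h4
  obtain ⟨-, fa, fw, -⟩ := four_facts hD ha hw h4
  rw [hb] at fa fw
  obtain ⟨-, -, gr, g1⟩ := four_facts hD hbD hr h4'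
  rw [hw'] at gr g1
  have awa : a * w * a = w * b := by
    have := (four_facts hD hw ha (four_symm hD ha hw h4)).2.2.2
    rwa [sq_symm hD ha hw h4, hb] at this
  have haa := sq_one hD ha
  have hrr := sq_one hD hr
  have hbb := sq_one hD hbD
  have hrw : r * w * r = w := by rw [← gr, mul_assoc, hrr, mul_one]
  set t := a * r with ht
  have tinv : t⁻¹ = r * a := by rw [ht, mul_inv_eq hD ha hr]
  have t1 : t * b * t⁻¹ = w := by
    rw [tinv, ht]
    calc a * r * b * (r * a) = a * (r * b * r) * a := by group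
      _ = a * b * (w * a) := by rw [g1]; group
      _ = b * a * (w * a) := by rw [← fa]
      _ = b * (a * w * a) := by group
      _ = b * (w * b) := by rw [awa]
      _ = b * (b * w) := by rw [fw]
      _ = w := by rw [← mul_assoc, hbb, one_mul]
  have t2 : t * w * t⁻¹ = w * b := by
    rw [tinv, ht]
    calc a * r * w * (r * a) = a * (r * w * r) * a := by group
      _ = w * b := by rw [hrw, awa]
  have t3 : t * (w * b) * t⁻¹ = b := by
    calc t * (w * b) * t⁻¹ = (t * w * t⁻¹) * (t * b * t⁻¹) := by group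
      _ = w * (b * w) := by rw [t1, t2]; group
      _ = w * (w * b) := by rw [fw]
      _ = b := by rw [← mul_assoc, sq_one hD hw, one_mul]
  have hwb : w ≠ b := fun h => not_comm_of_four hD ha hw h4 (by rw [h, fa])
  have s1 : t ^ 2 * b * (t ^ 2)⁻¹ = w * b := by
    rw [pow_two]
    calc t * t * b * (t * t)⁻¹ = t * (t * b * t⁻¹) * t⁻¹ := by group
      _ = w * b := by rw [t1, t2]
  have s3 : t ^ 3 * b * (t ^ 3)⁻¹ = b := by
    rw [pow_succ' t 2]
    calc t * t ^ 2 * b * (t * t ^ 2)⁻¹ = t * (t ^ 2 * b * (t ^ 2)⁻¹) * t⁻¹ := by group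
      _ = b := by rw [s1, t3]
  have hne : a ≠ r := by
    intro h
    exact not_comm_of_four hD hbD hr h4' (by rw [← h, fa])
  have hncomm : a * r ≠ r * a := by
    intro h
    rw [sq_eq_one_of_comm hD ha hr h, one_mul, inv_one, mul_one] at s1
    exact ne_one hD hw (mul_eq_right.mp s1.symm)
  have hn4 : orderOf (a * r) ≠ 4 := by
    intro h
    have e : t ^ 4 * b * (t ^ 4)⁻¹ = w := by
      rw [pow_succ' t 3]
      calc t * t ^ 3 * b * (t * t ^ 3)⁻¹ = t * (t ^ 3 * b * (t ^ 3)⁻¹) * t⁻¹ := by group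
        _ = w := by rw [s3, t1]
    rw [ht, ← h, pow_orderOf_eq_one, one_mul, inv_one, mul_one] at e
    exact hwb e.symm
  have hodd : OddAdj D a r := by
    by_contra h
    exact hncomm (comm_of_ne hD ha hr hn4 h)
  refine ⟨hodd, ?_⟩
  have ht3 : t ^ 3 = 1 := by
    by_contra h
    have hD' : t ^ 3 * a ∈ D := by
      have e : t ^ 3 * a = (a * r * a) * r * (a * r * a)⁻¹ := by
        rw [show (a * r * a)⁻¹ = a * r * a by
          rw [mul_inv_rev, mul_inv_rev, inv_self hD ha, inv_self hD hr, mul_assoc]]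
        rw [ht, pow_succ, pow_succ, pow_one]
        calc a * r * (a * r) * (a * r) * a = a * r * a * r * (a * r * a) := by group
          _ = _ := rfl
      rw [e]; exact hD.conj_mem r hr _
    have hadj : OddAdj D a (t ^ 3 * a) := by
      refine ⟨ha, hD', fun e => h ?_, ?_⟩
      · exact mul_eq_right.mp e.symm
      · have e : a * (t ^ 3 * a) = a * t ^ 3 * a⁻¹ := by rw [inv_self hD ha, mul_assoc]
        rw [e]
        have : orderOf (a * t ^ 3 * a⁻¹) = orderOf (t ^ 3) :=
          orderOf_injective (MulAut.conj a).toMonoidHom (MulAut.conj a).injective (t ^ 3)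
        rw [this]
        exact hodd.2.2.2.of_dvd_nat (orderOf_pow_dvd 3)
    refine not_comm_partner hD hpart hadj ?_
    calc b * (t ^ 3 * a) = (t ^ 3 * b * (t ^ 3)⁻¹) * (t ^ 3 * a) := by rw [s3]
      _ = t ^ 3 * (b * a) := by group
      _ = t ^ 3 * a * b := by rw [fa]; group
  rcases (Nat.dvd_prime Nat.prime_three).mp (orderOf_dvd_of_pow_eq_one ht3) with h | h
  · rw [orderOf_eq_one_iff] at h
    exact absurd (by rw [eq_inv_of_mul_eq_one_left h, inv_self hD hr]) hne
  · exact h

end four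

section conn

variable (hD : IsRootInvolutionSet D) (hc : IsConnectedSet (OddAdj D) D)
include hD

lemma exists_conj_of_oddAdj {a b : G} (h : OddAdj D a b) : ∃ g : G, g * a * g⁻¹ = b := by
  obtain ⟨k, hk⟩ :=
    Cfsg.Agent.H60.conj_of_odd_prod (sq_one hD h.1) (sq_one hD h.2.1) h.2.2.2
  exact ⟨_, hk⟩

lemma exists_conj_of_reach {a b : G} (h : Relation.ReflTransGen (OddAdj D) a b) :
    ∃ g : G, g * a * g⁻¹ = b := by
  induction h with
  | refl => exact ⟨1, by simp⟩
  | tail _ h ih =>
    obtain ⟨g, rfl⟩ := ih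
    obtain ⟨k, hk⟩ := exists_conj_of_oddAdj hD h
    exact ⟨k * g, by rw [← hk]; group⟩

omit hD in
lemma mem_oddPartners {a x : G} (ha : a ∈ D) : x ∈ oddPartners D a ↔ OddAdj D a x :=
  ⟨fun h => ⟨ha, h.1, h.2.1.symm, h.2.2⟩, fun h => ⟨h.2.1, h.2.2.1.symm, h.2.2.2⟩⟩

lemma oddPartners_conj {a : G} (ha : a ∈ D) (g : G) :
    oddPartners D (g * a * g⁻¹) = (fun x => g * x * g⁻¹) '' oddPartners D a := by
  ext x
  constructor
  · intro h
    refine ⟨g⁻¹ * x * g, ?_, by group⟩
    have := oddAdj_conj hD ((mem_oddPartners (hD.conj_mem a ha g)).mp h) g⁻¹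
    rw [mem_oddPartners ha]
    simpa [mul_assoc] using this
  · rintro ⟨y, hy, rfl⟩
    exact (mem_oddPartners (hD.conj_mem a ha g)).mpr (oddAdj_conj hD ((mem_oddPartners ha).mp hy) g)

include hc
variable [Finite G]

lemma oddPartners_eq_of_subset {a b : G} (ha : a ∈ D) (hb : b ∈ D)
    (h : oddPartners D a ⊆ oddPartners D b) : oddPartners D a = oddPartners D b := by
  refine Set.eq_of_subset_of_ncard_le h ?_ (Set.toFinite _)
  obtain ⟨g, rfl⟩ := exists_conj_of_reach hD (hc a ha b hb)
  rw [oddPartners_conj hD ha g,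
    Set.ncard_image_of_injective _ (fun x y e => by simpa using e)]

lemma oddPartners_eq_of_partner {a e : G} (ha : a ∈ D) (he : e ∈ productPartners D a)
    (h : oddPartners D e = oddPartners D (e * a)) : oddPartners D a = oddPartners D e := by
  obtain ⟨heD, -, -, hfD⟩ := partner_facts hD he
  refine oddPartners_eq_of_subset hD hc ha heD fun x hx => ?_
  rcases odd_or_odd hD he ((mem_oddPartners ha).mp hx) with h' | h'
  · exact (mem_oddPartners heD).mpr (oddAdj_symm hD h')
  · rw [h]; exact (mem_oddPartners hfD).mpr (oddAdj_symm hD h')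

/-- members with product of order four do not both share the odd partners of their square -/
lemma no_equal_four {a w : G} (ha : a ∈ D) (hw : w ∈ D) (h4 : orderOf (a * w) = 4)
    (hAw : oddPartners D w = oddPartners D a) : False := by
  classical
  set T : Set G := {t | t ∈ D ∧ oddPartners D t = oddPartners D a} with hT
  have haT : a ∈ T := ⟨ha, rfl⟩
  have hwT : w ∈ T := ⟨hw, hAw⟩
  have hTconj : ∀ t ∈ T, ∀ s ∈ T, s * t * s⁻¹ ∈ T := by
    intro t ht s hs
    refine ⟨hD.conj_mem t ht.1 s, ?_⟩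
    rw [oddPartners_conj hD ht.1 s, ht.2, ← hs.2, ← oddPartners_conj hD hs.1 s]
    simp
  have hTsq : ∀ t ∈ T, ∀ s ∈ T, orderOf (t * s) = 4 → (t * s) ^ 2 ∈ T := by
    intro t ht s hs h
    have hp := four_partner hD ht.1 hs.1 h
    obtain ⟨hcD, hct, -, h1⟩ := four_facts hD ht.1 hs.1 h
    refine ⟨hcD, ?_⟩
    have hp' := partner_symm hD ht.1 hp
    have e : t * (t * s) ^ 2 = s * t * s⁻¹ := by rw [inv_self hD hs.1, h1]
    rw [oddPartners_eq_of_partner hD hc hcD hp' (by
      rw [e, ht.2]; exact (hTconj t ht s hs).2.symm), ht.2]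
  set W := Subgroup.closure T with hW
  have hWT : ∀ g ∈ W, ∀ t ∈ T, g * t * g⁻¹ ∈ T ∧ g⁻¹ * t * g ∈ T := by
    intro g hg
    induction hg using Subgroup.closure_induction with
    | mem s hs =>
      intro t ht
      have := hTconj t ht s hs
      refine ⟨this, ?_⟩
      have e := inv_self hD hs.1
      rw [e] at this ⊢; exact this
    | one => intro t ht; simpa using ht
    | mul x y _ _ ihx ihy =>
      intro t ht
      refine ⟨?_, ?_⟩
      · have := (ihx _ (ihy t ht).1).1
        simpa [mul_assoc] using this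
      · have := (ihy _ (ihx t ht).2).2
        simpa [mul_assoc] using this
    | inv x _ ihx => intro t ht; exact ⟨by simpa using (ihx t ht).2, by simpa using (ihx t ht).1⟩
  have hpair : ∀ t ∈ T, ∀ s ∈ T, (t * s) ^ (2 ^ 2) = 1 := by
    intro t ht s hs
    rcases hD.pair t ht.1 s hs.1 with h | h | h
    · rw [show (2 : ℕ) ^ 2 = 2 * 2 from rfl, pow_mul, sq_eq_one_of_comm hD ht.1 hs.1 h, one_pow]
    · by_cases e : t = s
      · rw [e, sq_one hD hs.1, one_pow]
      · have : s ∈ oddPartners D s := by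
          rw [hs.2, ← ht.2]
          exact (mem_oddPartners ht.1).mpr ⟨ht.1, hs.1, e, h⟩
        exact absurd rfl this.2.1
    · rw [show (2 : ℕ) ^ 2 = 4 from rfl, ← h.1, pow_orderOf_eq_one]
  haveI : Fact (Nat.Prime 2) := ⟨Nat.prime_two⟩
  have hWp : IsPGroup 2 W := by
    let U : Subgroup W := Cfsg.pCore 2 W
    have hU : W ≤ U.map W.subtype := by
      refine (Subgroup.closure_le _).mpr ?_
      intro t ht
      refine ⟨⟨t, Subgroup.subset_closure ht⟩, ?_, rfl⟩
      obtain ⟨N, hN, hN2, htN⟩ : ∃ N : Subgroup W, N.Normal ∧ IsPGroup 2 N ∧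
          (⟨t, Subgroup.subset_closure ht⟩ : W) ∈ N := by
        refine Cfsg.Agent.H28.baer_suzuki_element _ fun g => ?_
        have h2 : ∀ s : W, (s : G) ∈ T → orderOf s = 2 := fun s hs => by
          rw [← Subgroup.orderOf_coe]; exact hD.orderOf_eq _ hs.1
        refine Cfsg.Agent.H28.isPGroup_closure_pair (a := 2) (h2 _ ht) (h2 _ ?_) ?_
        · simpa using (hWT _ g.2 t ht).1
        · rw [← Subgroup.orderOf_coe]
          exact orderOf_dvd_of_pow_eq_one (hpair t ht _ (by simpa using (hWT _ g.2 t ht).1))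
      exact (le_sSup (a := N) ⟨hN, hN2⟩ : N ≤ Cfsg.pCore 2 W) htN
    exact ((Cfsg.Agent.H19.pCore_isPGroup (G := W) 2).map W.subtype).to_le hU
  haveI : Group.IsNilpotent W := hWp.isNilpotent
  have hex : ∃ k, ∃ t : W, (t : G) ∈ T ∧ t ∈ Subgroup.upperCentralSeries W k := by
    obtain ⟨n, hn⟩ := Group.IsNilpotent.nilpotent W
    exact ⟨n, ⟨a, Subgroup.subset_closure haT⟩, haT, by rw [hn]; trivial⟩
  obtain ⟨z, hzT, hzk⟩ := Nat.find_spec hex
  obtain ⟨j, hj⟩ : ∃ j, Nat.find hex = j + 1 := by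
    refine Nat.exists_eq_succ_of_ne_zero fun h => ne_one hD hzT.1 ?_
    rw [h, Subgroup.upperCentralSeries_zero, Subgroup.mem_bot] at hzk
    rw [hzk]; rfl
  have hzc : ∀ s ∈ T, (z : G) * s = s * z := by
    intro s hs
    refine comm_of_ne hD hzT.1 hs.1 (fun h => ?_) (fun h => ?_)
    · set s' : W := ⟨s, Subgroup.subset_closure hs⟩ with hs'
      refine Nat.find_min hex (m := j) (by omega) ⟨z * s' * z⁻¹ * s'⁻¹, ?_, ?_⟩
      · have := hTsq _ hzT s hs h
        push_cast
        rw [inv_self hD hzT.1, inv_self hD hs.1]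
        simpa [pow_two, mul_assoc] using this
      · rw [hj, Subgroup.mem_upperCentralSeries_succ_iff] at hzk
        exact hzk _
    · have : s ∈ oddPartners D s := by
        rw [hs.2, ← hzT.2]; exact (mem_oddPartners hzT.1).mpr h
      exact this.2.1 rfl
  obtain ⟨g, hg⟩ := exists_conj_of_reach hD (hc _ hzT.1 a ha)
  have hgA : oddPartners D a = (fun x => g * x * g⁻¹) '' oddPartners D a := by
    conv_lhs => rw [← hg, oddPartners_conj hD hzT.1 g, hzT.2]
  have hgw : g⁻¹ * w * g ∈ T := by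
    refine ⟨conj_mem' hD hw g, ?_⟩
    have e := oddPartners_conj hD (conj_mem' hD hw g) g
    rw [show g * (g⁻¹ * w * g) * g⁻¹ = w by group, hAw] at e
    exact (Set.image_injective.mpr (fun x y h => by simpa using h)) (e.symm.trans hgA)
  have h := hzc _ hgw
  refine not_comm_of_four hD ha hw h4 ?_
  rw [← hg]
  calc g * z * g⁻¹ * w = g * ((z : G) * (g⁻¹ * w * g)) * g⁻¹ := by group
    _ = g * (g⁻¹ * w * g * z) * g⁻¹ := by rw [h]
    _ = w * (g * z * g⁻¹) := by group

/-- members with product of order four and their square do not share the odd partners -/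
lemma oddPartners_ne_of_four {a w : G} (ha : a ∈ D) (hw : w ∈ D) (h4 : orderOf (a * w) = 4) :
    oddPartners D ((a * w) ^ 2) ≠ oddPartners D a := by
  intro he
  obtain ⟨hbD, -, hbw, -⟩ := four_facts hD ha hw h4
  set b := (a * w) ^ 2 with hb
  by_cases hsub : oddPartners D b ⊆ oddPartners D w
  · exact no_equal_four hD hc ha hw h4
      ((oddPartners_eq_of_subset hD hc hbD hw hsub).symm.trans he)
  · obtain ⟨x, hxb, hxw⟩ := Set.not_subset.mp hsub
    have hx := (mem_oddPartners hbD).mp hxb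
    have hwp : w ∈ productPartners D b := partner_symm hD hw (four_partner' hD ha hw h4)
    have h4x : orderOf (x * w) = 4 := by
      refine four_of_ne hD hx.2.1 hw ?_ ?_
      · exact (not_comm_partner hD hwp hx).symm
      · exact fun h => hxw ((mem_oddPartners hw).mpr (oddAdj_symm hD h))
    obtain ⟨r, hr, hbr, hrw⟩ := exists_four_preimage hD hwp hx h4x
    have hrD := (partner_facts hD hr).1
    have := (order_three hD ha hw hrD hbD h4 hb.symm hbr hrw).1
    rw [← mem_oddPartners ha, ← he, mem_oddPartners hbD] at this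
    exact not_four_of_odd hD this.2.2.2 hbr

/-- members have the same odd partners iff they have the same commuting members -/
lemma oddPartners_eq_iff {d e : G} (hd : d ∈ D) (he : e ∈ D) :
    oddPartners D d = oddPartners D e ↔ commutingMembers D d = commutingMembers D e := by
  constructor
  · have key : ∀ p ∈ D, ∀ q ∈ D, oddPartners D p = oddPartners D q →
        commutingMembers D p ⊆ commutingMembers D q := by
      intro p hp q hq hpq y hy
      obtain ⟨hyD, hyp⟩ := hy
      refine ⟨hyD, ?_⟩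
      by_contra hne
      have h4 : orderOf (q * y) = 4 := by
        refine four_of_ne hD hq hyD (Ne.symm hne) fun h => ?_
        rw [← mem_oddPartners hq, ← hpq, mem_oddPartners hp] at h
        exact not_comm_of_oddAdj hD h hyp.symm
      obtain ⟨hcD, hcq, -, h1⟩ := four_facts hD hq hyD h4
      refine oddPartners_ne_of_four hD hc hq hyD h4 ?_
      have hqc := partner_symm hD hq (four_partner hD hq hyD h4)
      refine oddPartners_eq_of_partner hD hc hcD hqc ?_
      have e2 : q * (q * y) ^ 2 = y * q * y⁻¹ := by rw [inv_self hD hyD, h1]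
      rw [e2, oddPartners_conj hD hq y, ← hpq, ← oddPartners_conj hD hp y,
        inv_self hD hyD, hyp, mul_assoc, sq_one hD hyD, mul_one]
    intro h
    exact Set.Subset.antisymm (key d hd e he h) (key e he d hd h.symm)
  · have key : ∀ p ∈ D, ∀ q ∈ D, commutingMembers D p = commutingMembers D q →
        oddPartners D p ⊆ oddPartners D q := by
      intro p hp q hq hpq x hx
      have hx' := (mem_oddPartners hp).mp hx
      rw [mem_oddPartners hq]
      by_contra hno
      have hxD := hx'.2.1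
      have hncomm : q * x ≠ x * q := by
        intro h
        have : x ∈ commutingMembers D q := ⟨hxD, h.symm⟩
        rw [← hpq] at this
        exact not_comm_of_oddAdj hD hx' this.2.symm
      have h4 := four_of_ne hD hq hxD hncomm hno
      obtain ⟨hcD, hcq, -, h1⟩ := four_facts hD hq hxD h4
      have hcp : (q * x) ^ 2 * p = p * (q * x) ^ 2 := by
        have : (q * x) ^ 2 ∈ commutingMembers D q := ⟨hcD, hcq⟩
        rw [← hpq] at this; exact this.2
      have hqp : q * p = p * q := by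
        have : q ∈ commutingMembers D q := ⟨hq, rfl⟩
        rw [← hpq] at this; exact this.2
      -- the conjugate of `p` by `x` commutes with `q`, hence with `p`
      have h2 : x * p * x ∈ commutingMembers D q := by
        refine ⟨by simpa [inv_self hD hxD] using hD.conj_mem p hp x, ?_⟩
        have hc0 : Commute p (q * (q * x) ^ 2) := Commute.mul_right hqp.symm hcp.symm
        have hxx := sq_one hD hxD
        calc x * p * x * q = x * p * (x * q * x) * (x : G) := by
              simp only [mul_assoc, hxx, mul_one]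
          _ = x * (p * (q * (q * x) ^ 2)) * x := by rw [h1]; group
          _ = x * (q * (q * x) ^ 2 * p) * x := by rw [hc0.eq]
          _ = x * (x * q * x * p) * x := by rw [h1]
          _ = x * x * (q * (x * p * x)) := by group
          _ = q * (x * p * x) := by rw [hxx, one_mul]
      rw [← hpq] at h2
      have h4' : (p * x) ^ 4 = 1 := by
        have := sq_eq_one_of_comm hD h2.1 hp h2.2
        rw [pow_two] at this
        rw [show (4 : ℕ) = 2 + 2 from rfl, pow_add, pow_two]
        calc p * x * (p * x) * (p * x * (p * x))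
            = p * ((x * p * x) * p * ((x * p * x) * p)) * p⁻¹ := by group
          _ = 1 := by rw [this]; group
      have h5 : orderOf (p * x) ∣ 1 :=
        Nat.Coprime.dvd_of_dvd_mul_right
          (Nat.Coprime.pow_right 2 ((Nat.coprime_two_right).mpr hx'.2.2.2))
          (by simpa using orderOf_dvd_of_pow_eq_one h4')
      have := orderOf_eq_one_iff.mp (Nat.dvd_one.mp h5)
      exact hx'.2.2.1 (by rw [eq_inv_of_mul_eq_one_left this, inv_self hD hxD])
    intro h
    exact Set.Subset.antisymm (key d hd e he h) (key e he d hd h.symm)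

omit hc [Finite G] in
lemma union_compl {d : G} (hd : d ∈ D) :
    commutingMembers D d ∪ fourPartners D d = D \ oddPartners D d := by
  ext x
  constructor
  · rintro (⟨hx, h⟩ | ⟨hx, h⟩)
    · exact ⟨hx, fun ho => not_comm_of_oddAdj hD ((mem_oddPartners hd).mp ho) h.symm⟩
    · exact ⟨hx, fun ho => not_four_of_odd hD ho.2.2 h⟩
  · rintro ⟨hx, ho⟩
    by_cases h : orderOf (d * x) = 4
    · exact Or.inr ⟨hx, h⟩
    · exact Or.inl ⟨hx, (comm_of_ne hD hd hx h fun h' => ho ((mem_oddPartners hd).mpr h')).symm⟩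

lemma exists_three_partner {a b : G} (ha : a ∈ D) (hb : b ∈ productPartners D a)
    (hbE : commutingMembers D a ≠ commutingMembers D b) :
    ∃ x ∈ D, orderOf (b * x) = 4 ∧ orderOf (a * x) = 3 := by
  obtain ⟨hbD, hba, hne, -⟩ := partner_facts hD hb
  have hA : ¬ oddPartners D a ⊆ oddPartners D b := fun h =>
    hbE ((oddPartners_eq_iff hD hc ha hbD).mp (oddPartners_eq_of_subset hD hc ha hbD h))
  obtain ⟨x, hxa, hxb⟩ := Set.not_subset.mp hA
  have hx := (mem_oddPartners ha).mp hxa
  have h4 : orderOf (x * b) = 4 := four_of_ne hD hx.2.1 hbD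
    (not_comm_partner hD hb hx).symm
    (fun h => hxb ((mem_oddPartners hbD).mpr (oddAdj_symm hD h)))
  obtain ⟨w, hw, haw, hwb⟩ := exists_four_preimage hD hb hx h4
  have hwD : w ∈ D := (partner_facts hD hw).1
  have hwp : w ∈ productPartners D b := hwb ▸ partner_symm hD hwD (four_partner' hD ha hwD haw)
  have hAw : ¬ oddPartners D b ⊆ oddPartners D w := by
    intro h
    have he := (oddPartners_eq_iff hD hc hbD hwD).mp (oddPartners_eq_of_subset hD hc hbD hwD h)
    have : a ∈ commutingMembers D w := he ▸ ⟨ha, hba.symm⟩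
    exact not_comm_of_four hD ha hwD haw this.2
  obtain ⟨z, hzb, hzw⟩ := Set.not_subset.mp hAw
  have hz := (mem_oddPartners hbD).mp hzb
  have h4z : orderOf (z * w) = 4 := four_of_ne hD hz.2.1 hwD
    (not_comm_partner hD hwp hz).symm
    (fun h => hzw ((mem_oddPartners hwD).mpr (oddAdj_symm hD h)))
  obtain ⟨r, hr, hbr, hrw⟩ := exists_four_preimage hD hwp hz h4z
  have hrD := (partner_facts hD hr).1
  exact ⟨r, hrD, hbr, (order_three hD ha hwD hrD hbD haw hwb hbr hrw).2⟩

end conn

end Cfsg.Agent.H92.RI
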