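import Cfsg.Agent.H92.RankOne

/-! Normal subgroups of rank one groups. -/

set_option autoImplicit false

namespace Cfsg.Agent.H92

open Cfsg

variable {X : Type*} [Group X] {A B : Subgroup X}

/-- A subgroup with normal closure the whole group which supplements a term of the upper central
series is the whole group. -/
lemma eq_top_of_sup_upperCentralSeries (hA : Subgroup.normalClosure (A : Set X) = ⊤) :
    ∀ n, A ⊔ Subgroup.upperCentralSeries X n = ⊤ → A = ⊤
  | 0, h => by simpa using h
  | n + 1, h => by
    apply eq_top_of_sup_upperCentralSeries hA n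
    have hn : Subgroup.normalizer ((A ⊔ Subgroup.upperCentralSeries X n : Subgroup X) : Set X) = ⊤ := by
      rw [eq_top_iff, ← h, sup_le_iff]
      refine ⟨le_sup_left.trans Subgroup.le_normalizer, fun z hz => ?_⟩
      have hz' := Subgroup.mem_upperCentralSeries_succ_iff.1 hz
      rw [mem_normalizer_iff_conjBy]
      have hle : ∀ z, (∀ y, z * y * z⁻¹ * y⁻¹ ∈ Subgroup.upperCentralSeries X n) →
          conjBy (A ⊔ Subgroup.upperCentralSeries X n) z ≤ A ⊔ Subgroup.upperCentralSeries X n := by
        intro z hz w hw
        have hw' := mem_conjBy.1 hw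
        have := mul_mem (Subgroup.mem_sup_right (S := A) (hz (z⁻¹ * w * z))) hw'
        simpa [mul_assoc] using this
      refine le_antisymm (hle z hz') fun w hw => ?_
      have hinv := Subgroup.mem_upperCentralSeries_succ_iff.1 (inv_mem hz)
      exact mem_conjBy.2 (hle z⁻¹ hinv (by simpa using conj_mem_conjBy hw z⁻¹))
    have hN : (A ⊔ Subgroup.upperCentralSeries X n).Normal := Subgroup.normalizer_eq_top_iff.1 hn
    rw [eq_top_iff, ← hA]
    exact Subgroup.normalClosure_le_normal (SetLike.coe_subset_coe.2 le_sup_left)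

/-- The normal closure of `A` in a rank one group. -/
lemma rankOne_normalClosure (h : IsRankOneGroup X A B) :
    Subgroup.normalClosure (A : Set X) = ⊤ := by
  rw [eq_top_iff, ← h.1, sup_le_iff]
  refine ⟨Subgroup.le_normalClosure, ?_⟩
  obtain ⟨g, -, e⟩ := right_mem_unipotent h.2
  rw [e]
  intro x hx
  have := (Subgroup.normalClosure_normal (s := (A : Set X))).conj_mem _
    (Subgroup.le_normalClosure (mem_conjBy.1 hx)) g
  simpa [mul_assoc] using this

/-- In a rank one group `A` is proper. -/
lemma rankOne_left_ne_top (h : IsRankOnePair A B) : A ≠ ⊤ := by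
  intro e
  apply rankOne_right_ne_bot h
  have := rankOne_inf_normalizer' h
  rwa [e, Subgroup.normalizer_eq_top, inf_top_eq] at this

/-- `A` and a term of the upper central series never generate a rank one group. -/
lemma rankOne_sup_upperCentralSeries (h : IsRankOneGroup X A B) (n : ℕ) :
    A ⊔ Subgroup.upperCentralSeries X n ≠ ⊤ :=
  fun e => rankOne_left_ne_top h.2 (eq_top_of_sup_upperCentralSeries (rankOne_normalClosure h) n e)

/-- The normal subgroup dichotomy for rank one groups. -/
lemma rankOne_normal (h : IsRankOneGroup X A B) (N : Subgroup X) (hN : N.Normal) :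
    N ⊔ A = ⊤ ∨ N ≤ Subgroup.center X := by
  have hnorm : ∀ P : Subgroup X, P ≤ Subgroup.normalizer (N : Set X) := fun P => by
    simp [Subgroup.normalizer_eq_top]
  by_cases hmove : ∀ n ∈ N, ∀ C ∈ unipotentSubgroups A B, conjBy C n = C
  · right
    refine (rankOne_kernel_central h.2 (hnorm A) (hnorm B)
      (fun n hn => mem_normalizer_iff_conjBy.2 (hmove n hn A (left_mem_unipotent A B)))
      (fun n hn => mem_normalizer_iff_conjBy.2 (hmove n hn B (right_mem_unipotent h.2)))).trans ?_
    rw [h.1, Subgroup.coe_top, Subgroup.centralizer_univ]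
  · left
    push Not at hmove
    obtain ⟨n, hn, C, hC, hne⟩ := hmove
    obtain ⟨x, hx, rfl⟩ := hC
    rw [conjBy_conjBy] at hne
    set m := x⁻¹ * n * x with hm
    have hmN : m ∈ N := by simpa using hN.conj_mem n hn x⁻¹
    have hmA : conjBy A m ≠ A := by
      intro e
      apply hne
      rw [show n * x = x * m by simp [hm, mul_assoc], ← conjBy_conjBy, e]
    have hD : conjBy A m ∈ unipotentSubgroups A B :=
      conjBy_mem_unipotent (left_mem_unipotent A B) (h.1 ▸ Subgroup.mem_top m)
    obtain ⟨a, ⟨ha, e⟩, -⟩ := unipotent_regular h.2 hD (right_mem_unipotent h.2) hmA h.2.ne.symm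
    rw [eq_top_iff, ← h.1, sup_le_iff]
    refine ⟨le_sup_right, ?_⟩
    rw [← e, conjBy_conjBy]
    exact conjBy_le le_sup_right (mul_mem (Subgroup.mem_sup_right ha) (Subgroup.mem_sup_left hmN))

end Cfsg.Agent.H92
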