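import Cfsg.Agent.H92.RootBasic

/-! Passing rank one pairs and commutator cases into a subgroup containing them. -/

set_option autoImplicit false

namespace Cfsg.Agent.H92

open Cfsg
open scoped commutatorElement

variable {G : Type*} [Group G] {H A B C : Subgroup G}

lemma subgroupOf_map_subtype_of_le (hA : A ≤ H) : (A.subgroupOf H).map H.subtype = A :=
  Subgroup.map_subgroupOf_eq_of_le hA

lemma subgroupOf_inj_of_le (hA : A ≤ H) (hB : B ≤ H) (e : A.subgroupOf H = B.subgroupOf H) : A = B := by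
  rw [← subgroupOf_map_subtype_of_le hA, e, subgroupOf_map_subtype_of_le hB]

lemma conjBy_subgroupOf (g : H) : conjBy (A.subgroupOf H) g = (conjBy A (g : G)).subgroupOf H := by
  ext x
  rw [mem_conjBy, Subgroup.mem_subgroupOf, Subgroup.mem_subgroupOf, mem_conjBy]
  simp

lemma commutator_subgroupOf (hA : A ≤ H) (hB : B ≤ H) :
    ⁅A.subgroupOf H, B.subgroupOf H⁆ = ⁅A, B⁆.subgroupOf H := by
  apply Subgroup.map_injective H.subtype_injective
  rw [Subgroup.map_commutator, subgroupOf_map_subtype_of_le hA, subgroupOf_map_subtype_of_le hB,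
    subgroupOf_map_subtype_of_le]
  exact (Subgroup.commutator_mono hA hB).trans (Subgroup.commutator_le_self H)

lemma subgroupOf_commutative (hA : ∀ x ∈ A, ∀ y ∈ A, x * y = y * x) : IsMulCommutative ↥(A.subgroupOf H) :=
  ⟨⟨fun a b => Subtype.ext (Subtype.ext (hA _ a.2 _ b.2))⟩⟩

lemma rankOnePair_subgroupOf (hA : A ≤ H) (hB : B ≤ H) (hAc : ∀ x ∈ A, ∀ y ∈ A, x * y = y * x)
    (hBc : ∀ x ∈ B, ∀ y ∈ B, x * y = y * x) (h : IsRankOnePair A B) :
    IsRankOnePair (A.subgroupOf H) (B.subgroupOf H) := by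
  have cond : ∀ {A B : Subgroup G}, B ≤ H → RankOneCondition A B →
      RankOneCondition (A.subgroupOf H) (B.subgroupOf H) := by
    intro A B hB h a ha ha1
    obtain ⟨b, hb, hb1, e⟩ := h a.1 ha (fun e => ha1 (Subtype.ext e))
    exact ⟨⟨b, hB hb⟩, hb, fun e => hb1 (congrArg Subtype.val e), by
      rw [conjBy_subgroupOf, conjBy_subgroupOf, Subgroup.coe_inv, Subgroup.coe_inv, e]⟩
  refine ⟨fun e => h.ne (subgroupOf_inj_of_le hA hB e), ?_, ?_, cond hB h.cond_left, cond hA h.cond_right⟩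
  · refine ⟨1, ?_⟩
    rw [Subgroup.upperCentralSeries_one, eq_top_iff]
    intro x _
    rw [Subgroup.mem_center_iff]
    exact fun y => Subtype.ext (Subtype.ext (hAc _ y.2 _ x.2))
  · refine ⟨1, ?_⟩
    rw [Subgroup.upperCentralSeries_one, eq_top_iff]
    intro x _
    rw [Subgroup.mem_center_iff]
    exact fun y => Subtype.ext (Subtype.ext (hBc _ y.2 _ x.2))

lemma commutatorCase_subgroupOf {S : Set (Subgroup G)} (hA : A ≤ H) (hB : B ≤ H)
    (h : RootCommutatorCase S A B) :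
    RootCommutatorCase ((fun A : Subgroup G => A.subgroupOf H) '' S) (A.subgroupOf H) (B.subgroupOf H) := by
  obtain ⟨h1, h2, h3, h4⟩ := h
  have hAB : ⁅A, B⁆ ≤ H := (Subgroup.commutator_mono hA hB).trans (Subgroup.commutator_le_self H)
  refine ⟨⟨_, h1, (commutator_subgroupOf hA hB).symm⟩, ?_, fun a ha ha1 => ?_, fun b hb hb1 => ?_⟩
  · rw [commutator_subgroupOf hA hB, ← Subgroup.subgroupOf_sup hA hB]
    intro c hc x hx
    exact Subtype.ext (h2 _ hc _ hx)
  · apply Subgroup.map_injective H.subtype_injective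
    rw [MonoidHom.map_closure, commutator_subgroupOf hA hB, subgroupOf_map_subtype_of_le hAB,
      ← h3 a.1 ha (fun e => ha1 (Subtype.ext e)), Set.image_image]
    congr 1
    ext y
    constructor
    · rintro ⟨x, hx, rfl⟩; exact ⟨x.1, hx, rfl⟩
    · rintro ⟨x, hx, rfl⟩; exact ⟨⟨x, hB hx⟩, hx, rfl⟩
  · apply Subgroup.map_injective H.subtype_injective
    rw [MonoidHom.map_closure, commutator_subgroupOf hA hB, subgroupOf_map_subtype_of_le hAB,
      ← h4 b.1 hb (fun e => hb1 (Subtype.ext e)), Set.image_image]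
    congr 1
    ext y
    constructor
    · rintro ⟨x, hx, rfl⟩; exact ⟨x.1, hx, rfl⟩
    · rintro ⟨x, hx, rfl⟩; exact ⟨⟨x, hA hx⟩, hx, rfl⟩

/-- A set of subgroups with the pair trichotomy is a set of root subgroups of the group it generates. -/
lemma rootSet_subgroupOf {S : Set (Subgroup G)} (hcomm : ∀ A ∈ S, ∀ x ∈ A, ∀ y ∈ A, x * y = y * x)
    (hne : ∀ A ∈ S, A ≠ ⊥) (hconj : ∀ A ∈ S, ∀ g ∈ (⨆ B ∈ S, B : Subgroup G), conjBy A g ∈ S)
    (hpair : ∀ A ∈ S, ∀ B ∈ S, ⁅A, B⁆ = ⊥ ∨ IsRankOnePair A B ∨ RootCommutatorCase S A B) :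
    IsRootSubgroupSet ((fun A : Subgroup G => A.subgroupOf (⨆ B ∈ S, B)) '' S) := by
  set H := ⨆ B ∈ S, B with hH
  have hle : ∀ A ∈ S, A ≤ H := fun A hA => le_iSup₂ (f := fun A (_ : A ∈ S) => A) A hA
  refine ⟨?_, ?_, ?_, ?_, ?_⟩
  · rintro _ ⟨A, hA, rfl⟩; exact subgroupOf_commutative (hcomm A hA)
  · rintro _ ⟨A, hA, rfl⟩ e
    apply hne A hA
    rw [← subgroupOf_map_subtype_of_le (hle A hA)]
    simp only at e
    rw [e, Subgroup.map_bot]
  · apply Subgroup.map_injective H.subtype_injective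
    rw [← MonoidHom.range_eq_map, Subgroup.range_subtype, Subgroup.map_iSup]
    simp only [Subgroup.map_iSup]
    refine le_antisymm ?_ ?_
    · refine iSup₂_le ?_
      rintro _ ⟨A, hA, rfl⟩
      rw [subgroupOf_map_subtype_of_le (hle A hA)]; exact hle A hA
    · refine iSup₂_le fun A hA => ?_
      exact le_iSup₂_of_le _ ⟨A, hA, rfl⟩ (subgroupOf_map_subtype_of_le (hle A hA)).ge
  · rintro _ ⟨A, hA, rfl⟩ g
    exact ⟨_, hconj A hA g.1 g.2, (conjBy_subgroupOf g).symm⟩
  · rintro _ ⟨A, hA, rfl⟩ _ ⟨B, hB, rfl⟩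
    rcases hpair A hA B hB with h | h | h
    · exact Or.inl (by rw [commutator_subgroupOf (hle A hA) (hle B hB), h, Subgroup.bot_subgroupOf])
    · exact Or.inr (Or.inl (rankOnePair_subgroupOf (hle A hA) (hle B hB) (hcomm A hA) (hcomm B hB) h))
    · exact Or.inr (Or.inr (commutatorCase_subgroupOf (hle A hA) (hle B hB) h))

end Cfsg.Agent.H92
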