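import Cfsg.Agent.H92.RankOne

/-! Quadratic modules for rank one pairs. -/

set_option autoImplicit false

namespace Cfsg.Agent.H92

open Cfsg

variable {X : Type*} [Group X] {N : Type*} [AddCommGroup N] [DistribMulAction X N] {A B : Subgroup X}

/-- `P` acts quadratically on `N`. -/
def QuadActs (P : Subgroup X) (N : Type*) [AddCommGroup N] [DistribMulAction X N] : Prop :=
  ∀ a ∈ P, ∀ a' ∈ P, ∀ n : N, a' • (a • n - n) = a • n - n

/-- `n` is fixed by `P`. -/
def FixedBy' (P : Subgroup X) (n : N) : Prop := ∀ g ∈ P, g • n = n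

lemma quadActs_conj (hq : QuadActs A N) (g : X) : QuadActs (conjBy A g) N := by
  intro a ha a' ha' n
  have h := hq _ (mem_conjBy.1 ha) _ (mem_conjBy.1 ha') (g⁻¹ • n)
  have h2 := congrArg (g • ·) h
  simpa [smul_sub, mul_smul] using h2

lemma quad_fixed (hq : QuadActs A N) {a : X} (ha : a ∈ A) (n : N) : FixedBy' A (a • n - n) :=
  fun a' ha' => hq a ha a' ha' n

lemma quad_mul (hq : QuadActs A N) {a a' : X} (ha : a ∈ A) (ha' : a' ∈ A) (n : N) :
    (a * a') • n - n = (a • n - n) + (a' • n - n) := by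
  have h := hq a' ha' a ha n
  rw [smul_sub, sub_eq_iff_eq_add] at h
  rw [mul_smul, h]; abel

lemma quad_pow (hq : QuadActs A N) {a : X} (ha : a ∈ A) (n : N) (k : ℕ) :
    (a ^ k) • n - n = k • (a • n - n) := by
  induction k with
  | zero => simp
  | succ k ih => rw [pow_succ, quad_mul hq (pow_mem ha k) ha, ih, succ_nsmul]

lemma quad_inv (hq : QuadActs A N) {a : X} (ha : a ∈ A) (n : N) :
    a⁻¹ • n - n = -(a • n - n) := by
  have h := quad_mul hq (inv_mem ha) ha n
  rw [inv_mul_cancel, one_smul, sub_self] at h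
  exact eq_neg_of_add_eq_zero_left h.symm

lemma fixedBy_sub {P : Subgroup X} {m n : N} (hm : FixedBy' P m) (hn : FixedBy' P n) :
    FixedBy' P (m - n) := fun g hg => by rw [smul_sub, hm g hg, hn g hg]

lemma fixedBy_add {P : Subgroup X} {m n : N} (hm : FixedBy' P m) (hn : FixedBy' P n) :
    FixedBy' P (m + n) := fun g hg => by rw [smul_add, hm g hg, hn g hg]

lemma fixedBy_neg {P : Subgroup X} {m : N} (hm : FixedBy' P m) :
    FixedBy' P (-m) := fun g hg => by rw [smul_neg, hm g hg]

lemma fixedBy_nsmul {P : Subgroup X} {m : N} (hm : FixedBy' P m) (k : ℕ) :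
    FixedBy' P (k • m) := fun g hg => by rw [smul_comm, hm g hg]

/-- The first key identity: modulo common fixed points, `[w, b, a] ≡ w`. -/
lemma quad_key (h : IsRankOnePair A B) (hA : QuadActs A N) (hB : QuadActs B N)
    {a b : X} (ha : a ∈ A) (hb : b ∈ B) (e : conjBy A b⁻¹ = conjBy B a⁻¹) {w : N}
    (hw : FixedBy' A w) :
    FixedBy' (A ⊔ B) (w - (a • (b • w - w) - (b • w - w))) := by
  have h1 : FixedBy' A (w - (a • (b • w - w) - (b • w - w))) :=
    fixedBy_sub hw (quad_fixed hA ha _)
  have h2 : FixedBy' B (a • (b⁻¹ • w)) := by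
    intro c hc
    have := conj_mem_conjBy hc a⁻¹
    rw [← e, mem_conjBy] at this
    have h3 := hw _ this
    have h4 := congrArg (fun n => a • (b⁻¹ • n)) h3
    simpa [mul_smul] using h4
  have h5 : FixedBy' B (b • w - w) := quad_fixed hB hb w
  have h6 : w - (a • (b • w - w) - (b • w - w)) = a • (b⁻¹ • w) + (b • w - w) := by
    have h7 : b⁻¹ • w = w - (b • w - w) := by
      rw [sub_eq_add_neg w, ← quad_inv hB hb w]; abel
    rw [h7]; generalize b • w - w = β; rw [smul_sub, hw a ha]; abel
  have h8 : FixedBy' B (w - (a • (b • w - w) - (b • w - w))) := h6 ▸ fixedBy_add h2 h5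
  intro g hg
  have : A ⊔ B ≤ MulAction.stabilizer X (w - (a • (b • w - w) - (b • w - w))) :=
    sup_le (fun x hx => h1 x hx) (fun x hx => h8 x hx)
  exact this hg

/-- Two subgroups moving everything into common fixed points generate a quadratically acting group. -/
lemma quad_generated (hA : ∀ g ∈ A, ∀ n : N, FixedBy' (A ⊔ B) (g • n - n))
    (hB : ∀ g ∈ B, ∀ n : N, FixedBy' (A ⊔ B) (g • n - n)) :
    ∀ g ∈ A ⊔ B, ∀ n : N, FixedBy' (A ⊔ B) (g • n - n) := by
  intro g hg
  rw [← Subgroup.closure_eq A, ← Subgroup.closure_eq B, ← Subgroup.closure_union] at hg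
  induction hg using Subgroup.closure_induction with
  | mem g hg => exact hg.elim (hA g) (hB g)
  | one => intro n g _; simp
  | mul g g' _ _ ih ih' =>
    intro n
    have : (g * g') • n - n = (g • (g' • n) - g' • n) + (g' • n - n) := by rw [mul_smul]; abel
    rw [this]; exact fixedBy_add (ih _) (ih' _)
  | inv g _ ih =>
    intro n
    have : g⁻¹ • n - n = -(g • (g⁻¹ • n) - g⁻¹ • n) := by simp
    rw [this]; exact fixedBy_neg (ih _)

/-- Degeneration: if some non-identity element of `B` moves fixed points of `A` only into common fixed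
points, the whole group acts quadratically. -/
lemma quad_degenerate (h : IsRankOnePair A B) (hA : QuadActs A N) (hB : QuadActs B N)
    {b : X} (hb : b ∈ B) (hb1 : b ≠ 1)
    (hfix : ∀ w : N, FixedBy' A w → FixedBy' (A ⊔ B) (b • w - w)) :
    ∀ g ∈ A ⊔ B, ∀ n : N, FixedBy' (A ⊔ B) (g • n - n) := by
  obtain ⟨a, ha, -, e⟩ := h.cond_right b hb hb1
  have zero : ∀ n : N, FixedBy' (A ⊔ B) n → a • n - n = 0 := fun n hn => by
    rw [hn a (Subgroup.mem_sup_left ha), sub_self]
  have hCA : ∀ w : N, FixedBy' A w → FixedBy' (A ⊔ B) w := by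
    intro w hw
    have := quad_key h hA hB ha hb e.symm hw
    rwa [zero _ (hfix w hw), sub_zero] at this
  have hCB : ∀ u : N, FixedBy' B u → FixedBy' (A ⊔ B) u := by
    intro u hu
    have := quad_key (RankOnePair_symm h) hB hA hb ha e hu
    rw [sup_comm] at this
    rwa [hCA _ (quad_fixed hA ha u) b (Subgroup.mem_sup_right hb), sub_self, sub_zero] at this
  exact quad_generated (fun g hg n => hCA _ (quad_fixed hA hg n))
    (fun g hg n => hCB _ (quad_fixed hB hg n))

end Cfsg.Agent.H92
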