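import Cfsg.Agent.H92.RankOneNormal

/-! A quasisimplicity criterion. -/

set_option autoImplicit false

namespace Cfsg.Agent.H92

open Cfsg

/-- A perfect group with proper centre in which every proper normal subgroup is central is quasisimple,
also when written as the subgroup `commutator G`. -/
lemma quasisimple_commutator {G : Type*} [Group G] (hp : commutator G = ⊤)
    (hZ : Subgroup.center G ≠ ⊤) (hN : ∀ N : Subgroup G, N.Normal → N = ⊤ ∨ N ≤ Subgroup.center G) :
    IsQuasisimple ↥(commutator G) := by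
  have hp' : Group.IsPerfect G := Group.isPerfect_def.2 hp
  rw [hp]
  haveI : Group.IsPerfect G := hp'
  refine ⟨inferInstance, ?_⟩
  haveI : Nontrivial ((⊤ : Subgroup G) ⧸ Subgroup.center (⊤ : Subgroup G)) := by
    refine QuotientGroup.nontrivial_iff.2 fun e => hZ ?_
    rw [eq_top_iff]
    intro x _
    rw [Subgroup.mem_center_iff]
    intro y
    have := Subgroup.mem_center_iff.1 (e ▸ Subgroup.mem_top (⟨x, Subgroup.mem_top x⟩ : (⊤ : Subgroup G)))
      ⟨y, Subgroup.mem_top y⟩
    exact congrArg Subtype.val this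
  refine IsSimpleGroup.mk fun K hK => ?_
  set π := QuotientGroup.mk' (Subgroup.center (⊤ : Subgroup G)) with hπ
  have hcn : ((K.comap π).map (⊤ : Subgroup G).subtype).Normal := by
    refine ⟨fun x hx g => ?_⟩
    obtain ⟨y, hy, rfl⟩ := hx
    exact ⟨⟨g, Subgroup.mem_top g⟩ * y * ⟨g, Subgroup.mem_top g⟩⁻¹, (hK.comap π).conj_mem y hy _, rfl⟩
  rcases hN _ hcn with h | h
  · right
    rw [eq_top_iff]
    intro q _
    obtain ⟨y, rfl⟩ := QuotientGroup.mk'_surjective _ q
    have hy : (y : G) ∈ (K.comap π).map (⊤ : Subgroup G).subtype := by rw [h]; exact Subgroup.mem_top _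
    obtain ⟨y', hy', e⟩ := hy
    rw [← Subtype.ext e]
    exact hy'
  · left
    rw [Subgroup.eq_bot_iff_forall]
    intro q hq
    obtain ⟨y, rfl⟩ := QuotientGroup.mk'_surjective _ q
    refine (QuotientGroup.eq_one_iff _).2 ?_
    rw [Subgroup.mem_center_iff]
    intro z
    exact Subtype.ext (Subgroup.mem_center_iff.1 (h ⟨y, hq, rfl⟩) z)

end Cfsg.Agent.H92
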