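import Cfsg.Agent.H92.RootLines

/-! Non-degenerate classes of abstract root subgroups: generation and connectivity. -/

set_option autoImplicit false

namespace Cfsg.Agent.H92

open Cfsg
open scoped commutatorElement

variable {G : Type*} [Group G] {S : Set (Subgroup G)} {A B C D E F W X Y Z : Subgroup G}

lemma class_noIso (hS : IsRootSubgroupClass S) (hnd : IsNondegenerateRootSet S) :
    ∀ Q ∈ S, ¬ IsIsolatedIn (FAdj S) S Q := by
  intro Q hQ h
  obtain ⟨P, hP⟩ := class_partner hS hnd hQ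
  exact (h.2 P).1 ⟨hQ, hP.1, hP.2⟩

/-- On a line `YZ` some `W ∈ Λ_Y` has `⁅Z, W⁆ = Y`. -/
lemma exists_line_noncommuting (hS : IsRootSubgroupSet S)
    (hF : ∀ Q ∈ S, ¬ IsIsolatedIn (FAdj S) S Q) (hY : Y ∈ S) (hZ : Z ∈ linePartners S Y) :
    ∃ W ∈ linePartners S Y, RootCommutatorCase S Z W ∧ ⁅Z, W⁆ = Y := by
  have hZS := hZ.1.1
  obtain ⟨E, hE⟩ := exists_partner_of_not_isolated hZS (hF Z hZS)
  have hYl := linePartners_symm hY hZ
  obtain ⟨T, hT, hTZ, hcc, -⟩ := line_center_move hS hF hZS hYl hE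
  obtain ⟨x, -, xZ, xT⟩ := line_stab_transitive hS hF hZS hYl Z ⟨hZS, le_sup_left⟩ T hT Y
    ⟨hY, le_sup_right⟩ hTZ hZ.1.2.1.symm
  have hE' := rankOne_partner_conj hS hE x
  rw [xZ] at hE'
  have hcc' : RootCommutatorCase S (conjBy E x) Y := by
    refine rootCommutatorCase_of_mem hS hE'.1 hY ?_
    rw [← xT, ← conjBy_commutator]
    exact hS.conj_mem _ hcc.1 x
  obtain ⟨Q, hQ⟩ := exists_partner_of_not_isolated hY (hF Y hY)
  have L := lineData_of_linePartner hS hZS hE' hYl hQ hcc'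
  refine ⟨⁅conjBy E x, Y⁆, linePartners_symm L.hC ?_, L.h2, L.eA⟩
  have := rcc_linePartner hS hY hQ L.h1
  rwa [L.eC] at this

/-- In the commutator case some member of `Λ_B` is opposite to `A`. -/
lemma rcc_opp (hS : IsRootSubgroupSet S) (hF : ∀ Q ∈ S, ¬ IsIsolatedIn (FAdj S) S Q)
    (hA : A ∈ S) (hB : B ∈ S) (hcc : RootCommutatorCase S A B) :
    ∃ W ∈ linePartners S B, W ∈ rankOnePartners S A := by
  obtain ⟨DA, hDA⟩ := exists_partner_of_not_isolated hA (hF A hA)
  obtain ⟨DB, hDB⟩ := exists_partner_of_not_isolated hB (hF B hB)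
  obtain ⟨DC, hDC⟩ := exists_partner_of_not_isolated hcc.1 (hF _ hcc.1)
  have hCl : ⁅A, B⁆ ∈ linePartners S B := by
    refine linePartners_symm hcc.1 ?_
    have := rcc_linePartner hS hB hDB (rcc_symm hcc)
    rwa [Subgroup.commutator_comm] at this
  obtain ⟨W, hW, hCW, hCWe⟩ := exists_line_noncommuting hS hF hB hCl
  refine ⟨W, hW, hW.1.1, ?_⟩
  rcases hS.pair A hA W hW.1.1 with h | h | h
  · exfalso
    apply hS.ne_bot B hB
    rw [← hCWe]
    apply commutator_eq_bot_of_commute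
    intro c hc w hw
    obtain ⟨b, hb, hb1⟩ := ne_one_exists (hS.ne_bot B hB)
    obtain ⟨a, ha, e⟩ := rcc_surj (rcc_symm hcc) hb hb1 (c := c) (by rwa [Subgroup.commutator_comm])
    have hwa : Commute w a := (commute_of_commutator_eq_bot h ha hw).symm
    have hwb : Commute w b := (commute_of_commutator_eq_bot hW.1.2.2 hb hw).symm
    rw [← e]
    exact (((hwb.mul_right hwa).mul_right hwb.inv_right).mul_right hwa.inv_right).eq.symm
  · exact h
  exfalso
  set C := ⁅A, B⁆ with hCdef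
  obtain ⟨a, ha, ha1⟩ := ne_one_exists (hS.ne_bot A hA)
  obtain ⟨w, hw, hw1⟩ := ne_one_exists (hS.ne_bot W hW.1.1)
  obtain ⟨c, hc, hc1⟩ := ne_one_exists (hS.ne_bot C hcc.1)
  set β := w * c * w⁻¹ * c⁻¹ with hβ
  have hβB : β ∈ B := by
    rw [← hCWe, Subgroup.commutator_comm]
    exact Subgroup.commutator_mem_commutator hw hc
  have hβ1 : β ≠ 1 := fun e => hw1 (rcc_inj hS hcc.1 hDC hCW hc hc1 hw (by
    rw [hβ, mul_inv_eq_one, mul_inv_eq_iff_eq_mul] at e; exact e.symm))
  set γ := a * β * a⁻¹ * β⁻¹ with hγ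
  have hγC : γ ∈ C := Subgroup.commutator_mem_commutator ha hβB
  have hγ1 : γ ≠ 1 := fun e => hβ1 (rcc_inj hS hA hDA hcc ha ha1 hβB (by
    rw [hγ, mul_inv_eq_one, mul_inv_eq_iff_eq_mul] at e; exact e))
  set m := a * w * a⁻¹ * w⁻¹ with hm
  have hmM : m ∈ ⁅A, W⁆ := Subgroup.commutator_mem_commutator ha hw
  have hcom : ∀ x ∈ C, ∀ y ∈ B, x * y = y * x := fun x hx y hy =>
    hcc.2.1 x hx y (Subgroup.mem_sup_right hy)
  have hcA : ∀ x ∈ C, ∀ y ∈ A, x * y = y * x := fun x hx y hy =>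
    hcc.2.1 x hx y (Subgroup.mem_sup_left hy)
  set e' := w * c * w⁻¹ with he'
  have he'E : e' ∈ conjBy C w := conj_mem_conjBy hc w
  have hac : a * c * a⁻¹ = c := by rw [← hcA c hc a ha, mul_inv_cancel_right]
  have hme : m * e' * m⁻¹ = γ * e' := by
    calc m * e' * m⁻¹ = a * w * (a⁻¹ * c * a) * w⁻¹ * a⁻¹ := by simp [hm, he', mul_assoc]
      _ = a * (w * c * w⁻¹) * a⁻¹ := by
          rw [show a⁻¹ * c * a = c by rw [mul_assoc, hcA c hc a ha, inv_mul_cancel_left]]
          simp [mul_assoc]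
      _ = a * (β * c) * a⁻¹ := by simp [hβ, he']
      _ = (a * β * a⁻¹) * (a * c * a⁻¹) := by simp [mul_assoc]
      _ = γ * (β * c) := by rw [hac, hγ]; simp [mul_assoc]
      _ = γ * e' := by simp [hβ, he']
  rcases hS.pair _ h.1 (conjBy C w) (hS.conj_mem C hcc.1 w) with h' | h' | h'
  · apply hγ1
    rw [commute_of_commutator_eq_bot h' hmM he'E, mul_inv_cancel_right] at hme
    exact right_eq_mul.1 hme
  · apply hγ1
    have hge : Commute (γ * e') e' := by
      have h1 : Commute γ e' := by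
        have e2 : e' = β * c := by simp [hβ, he']
        rw [e2]
        exact Commute.mul_right (hcom γ hγC β hβB) (root_comm hS hcc.1 hγC hc)
      exact h1.mul_left (Commute.refl e')
    have hfix := unipotent_fixed h' (right_mem_unipotent h') (Subgroup.mem_sup_left hmM) he'E
      (fun t => hc1 (conj_eq_one_iff.1 t)) (by rw [hme]; exact hge)
    have hm1 := (Subgroup.eq_bot_iff_forall _).1 (rankOne_inf_normalizer h') m
      ⟨hmM, mem_normalizer_iff_conjBy.2 hfix⟩
    rw [hm1, one_mul, inv_one, mul_one] at hme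
    exact right_eq_mul.1 hme
  · have hγK : γ ∈ ⁅⁅A, W⁆, conjBy C w⁆ := by
      have := Subgroup.commutator_mem_commutator hmM he'E
      rwa [commutatorElement_def, hme, mul_inv_cancel_right] at this
    have hK := root_TI hS hcc.1 hDC h'.1 hγC hγK hγ1
    have hMC : ⁅⁅A, W⁆, C⁆ = ⊥ := by
      apply commutator_eq_bot_of_commute
      intro x hx y hy
      exact (h'.2.1 y (by rw [hK]; exact hy) x (Subgroup.mem_sup_left hx)).symm
    have hMw : conjBy ⁅A, W⁆ w = ⁅A, W⁆ :=
      mem_normalizer_iff_conjBy.1 (Subgroup.normalizer_commutator_ge_right A W hw)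
    have := congrArg (fun K => conjBy K w) hMC
    rw [conjBy_bot, conjBy_commutator, hMw, hK] at this
    exact hS.ne_bot C hcc.1 this

/-- The subgroup generated by `Λ_A` and an opposite member. -/
def lineGen (S : Set (Subgroup G)) (A B : Subgroup G) : Subgroup G := (⨆ C ∈ linePartners S A, C) ⊔ B

lemma linePartner_le_lineGen (hC : C ∈ linePartners S A) (B : Subgroup G) : C ≤ lineGen S A B :=
  le_sup_of_le_left (le_iSup₂ (f := fun C (_ : C ∈ linePartners S A) => C) C hC)

lemma linePartners_conj (hS : IsRootSubgroupSet S) (hC : C ∈ linePartners S A) (g : G) :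
    conjBy C g ∈ linePartners S (conjBy A g) := by
  obtain ⟨⟨h1, h2, h3⟩, h4, h5, h6⟩ := hC
  have e : ∀ P, P ∈ membersIn S (conjBy A g ⊔ conjBy C g) ↔ conjBy P g⁻¹ ∈ membersIn S (A ⊔ C) := by
    intro P
    rw [← conjBy_sup]
    constructor
    · rintro ⟨hP, hle⟩
      refine ⟨hS.conj_mem P hP _, ?_⟩
      have := conjBy_mono hle g⁻¹
      rwa [conjBy_conjBy, inv_mul_cancel, conjBy_one] at this
    · rintro ⟨hP, hle⟩
      have hP' := hS.conj_mem _ hP g
      rw [conjBy_conjBy, mul_inv_cancel, conjBy_one] at hP'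
      refine ⟨hP', ?_⟩
      have := conjBy_mono hle g
      rwa [conjBy_conjBy P, mul_inv_cancel, conjBy_one] at this
  refine ⟨⟨hS.conj_mem C h1 g, fun t => h2 (conjBy_injective t), by
    rw [← conjBy_commutator, h3, conjBy_bot]⟩, fun P hP => hP.2, ?_, ?_⟩
  · intro x hx hx1
    rw [← conjBy_sup] at hx
    obtain ⟨P, hP, hxP⟩ := h5 _ (mem_conjBy.1 hx) (fun t => hx1 (by
      have := congrArg (fun z => g * z * g⁻¹) t
      simpa [mul_assoc] using this))
    refine ⟨conjBy P g, (e _).2 (by rwa [conjBy_conjBy, inv_mul_cancel, conjBy_one]), ?_⟩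
    have := conj_mem_conjBy hxP g
    simpa [mul_assoc] using this
  · intro P hP Q hQ hne
    apply conjBy_injective (g := g⁻¹)
    rw [conjBy_inf, conjBy_bot, h6 _ ((e P).1 hP) _ ((e Q).1 hQ) (fun t => hne (conjBy_injective t))]

/-- Two opposite members are joined in the line graph. -/
lemma eReach_opposite (hS : IsRootSubgroupClass S) (hnd : IsNondegenerateRootSet S) (hA : A ∈ S)
    (hB : B ∈ rankOnePartners S A) : Relation.ReflTransGen (EAdj S S) A B := by
  obtain ⟨C, hC, hcc, L⟩ := exists_lineData hS hnd hA hB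
  obtain ⟨QC, hQC⟩ := class_partner hS hnd hC.1.1
  obtain ⟨QB, hQB⟩ := class_partner hS hnd hB.1
  have hCF : C ∈ linePartners S ⁅B, C⁆ := by
    have := rcc_linePartner hS.1 L.hA hQC L.h1
    rwa [L.eC] at this
  have hBF : B ∈ linePartners S ⁅B, C⁆ := rcc_linePartner hS.1 hB.1 hQB hcc
  exact ((Relation.ReflTransGen.single (show EAdj S S A C from ⟨hA, hC.1.1, hC⟩)).tail
    (show EAdj S S C ⁅B, C⁆ from ⟨hC.1.1, hcc.1, linePartners_symm hcc.1 hCF⟩)).tail
    (show EAdj S S ⁅B, C⁆ B from ⟨hcc.1, hB.1, hBF⟩)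

/-- The line graph of a non-degenerate class is connected. -/
lemma eConnected (hS : IsRootSubgroupClass S) (hnd : IsNondegenerateRootSet S) :
    IsConnectedFamily (EAdj S S) S := by
  intro A hA B hB
  obtain ⟨D, hD⟩ := class_partner hS hnd hA
  obtain ⟨g, rfl⟩ := hS.2.2 A hA B hB
  have h := fReach_conj hS.1 hA hD g
  generalize conjBy A g = B at h
  induction h with
  | refl => exact Relation.ReflTransGen.refl
  | tail _ e ih => exact ih.trans (eReach_opposite hS hnd e.1 ⟨e.2.1, e.2.2⟩)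

/-- `G = ⟨Λ_A, B⟩` for opposite `A`, `B` in a non-degenerate class. -/
lemma lineGen_eq_top (hS : IsRootSubgroupClass S) (hnd : IsNondegenerateRootSet S) (hA : A ∈ S)
    (hB : B ∈ rankOnePartners S A) : lineGen S A B = ⊤ := by
  have hF := class_noIso hS hnd
  set K := lineGen S A B with hK
  obtain ⟨C₀, hC₀, -, -⟩ := exists_lineData hS hnd hA hB
  have hAK : A ≤ K := by
    obtain ⟨U, hU, hUA, hUC⟩ := line_third hS.1 hF hA hC₀ A C₀
    have h1 := (line_span hS.1 hF hA hC₀ hU hUA).1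
    have h2 := (line_span hS.1 hF hC₀.1.1 (linePartners_symm hA hC₀)
      (U := U) (by rw [sup_comm]; exact hU) hUC).2
    have : A ≤ C₀ ⊔ U := by rw [h2]; exact le_sup_right
    exact this.trans (sup_le (linePartner_le_lineGen hC₀ B) (linePartner_le_lineGen h1 B))
  have step : ∀ C ∈ linePartners S A, ∃ h ∈ K, C = conjBy A h := by
    intro C hC
    obtain ⟨T, hTS, hTA, hTle, -, L, hspan, hmem⟩ := exists_line_center hS.1 hF hA hC hB
    have hTK : T ≤ K := hTle.trans (sup_le hAK (linePartner_le_lineGen hC B))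
    have hFK : ⁅B, T⁆ ≤ K :=
      (Subgroup.commutator_le.2 fun b hb t ht => by
        have hb' : b ∈ K := Subgroup.mem_sup_right hb
        exact mul_mem (mul_mem (mul_mem hb' (hTK ht)) (inv_mem hb')) (inv_mem (hTK ht)))
    have move : ∀ U ∈ membersIn S (A ⊔ C), U ≠ T → ∃ h ∈ K, U = conjBy A h := by
      intro U hU hne
      rw [hmem] at hU
      obtain ⟨f, hf, rfl⟩ := hU.resolve_right hne
      exact ⟨f, hFK hf, rfl⟩
    by_cases hCT : C = T
    · subst hCT
      obtain ⟨W, hW, hCW, hCWe⟩ := exists_line_noncommuting hS.1 hF hA hC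
      obtain ⟨w, hw, hw1⟩ := ne_one_exists (hS.1.ne_bot W hW.1.1)
      obtain ⟨Q, hQ⟩ := class_partner hS hnd hC.1.1
      have hle : conjBy C w ≤ A ⊔ C := by
        have := rcc_conj_le (A := C) hw
        rwa [hCWe, sup_comm] at this
      have hne : conjBy C w ≠ C := by
        intro e
        obtain ⟨c, hc, hc1⟩ := ne_one_exists (hS.1.ne_bot C hC.1.1)
        apply hw1
        refine rcc_inj hS.1 hC.1.1 hQ hCW hc hc1 hw ?_
        have h1 : w * c * w⁻¹ * c⁻¹ ∈ C := mul_mem (e ▸ conj_mem_conjBy hc w) (inv_mem hc)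
        have h2 : w * c * w⁻¹ * c⁻¹ ∈ A := by
          rw [← hCWe, Subgroup.commutator_comm]
          exact Subgroup.commutator_mem_commutator hw hc
        have h3 : w * c * w⁻¹ * c⁻¹ = 1 := by
          by_contra hne1
          exact hC.1.2.1 (root_TI hS.1 hA hB hC.1.1 h2 h1 hne1)
        rw [mul_inv_eq_one, mul_inv_eq_iff_eq_mul] at h3
        exact h3.symm
      obtain ⟨h, hh, e⟩ := move _ ⟨hS.1.conj_mem C hC.1.1 w, hle⟩ hne
      refine ⟨w⁻¹ * h, mul_mem (inv_mem (linePartner_le_lineGen hW B hw)) hh, ?_⟩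
      rw [← conjBy_conjBy, ← e, conjBy_conjBy, inv_mul_cancel, conjBy_one]
    · exact move C ⟨hC.1.1, le_sup_right⟩ hCT
  have all : ∀ U, Relation.ReflTransGen (EAdj S S) A U → ∃ h ∈ K, U = conjBy A h := by
    intro U hU
    induction hU with
    | refl => exact ⟨1, one_mem _, (conjBy_one A).symm⟩
    | @tail P Q _ e ih =>
      obtain ⟨h, hh, rfl⟩ := ih
      have h1 := linePartners_conj hS.1 e.2.2 h⁻¹
      rw [conjBy_conjBy, inv_mul_cancel, conjBy_one] at h1
      obtain ⟨k, hk, ek⟩ := step _ h1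
      refine ⟨h * k, mul_mem hh hk, ?_⟩
      rw [← conjBy_conjBy, ← ek, conjBy_conjBy, mul_inv_cancel, conjBy_one]
  rw [eq_top_iff, ← hS.1.generates]
  refine iSup₂_le fun U hU => ?_
  obtain ⟨h, hh, rfl⟩ := all U (eConnected hS hnd A hA U hU)
  exact conjBy_le hAK hh

/-- Nothing centralizes `Λ_A` and an opposite of `A` except the centre. -/
lemma not_centralize_lineGen (hS : IsRootSubgroupClass S) (hnd : IsNondegenerateRootSet S)
    (hA : A ∈ S) (hB : B ∈ rankOnePartners S A) (hC : C ∈ S)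
    (hl : ∀ U ∈ linePartners S A, ⁅C, U⁆ = ⊥) (hCB : ⁅C, B⁆ = ⊥) : False := by
  obtain ⟨P, hP⟩ := class_partner hS hnd hC
  obtain ⟨c, hc, hc1⟩ := ne_one_exists (hS.1.ne_bot C hC)
  have htop : lineGen S A B ≤ Subgroup.centralizer {c} :=
    sup_le (iSup₂_le fun U hU x hx => Subgroup.mem_centralizer_singleton_iff.2
        (commute_of_commutator_eq_bot (hl U hU) hc hx).symm)
      (fun x hx => Subgroup.mem_centralizer_singleton_iff.2
        (commute_of_commutator_eq_bot hCB hc hx).symm)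
  rw [lineGen_eq_top hS hnd hA hB] at htop
  obtain ⟨p, hp, hp1⟩ := ne_one_exists (hS.1.ne_bot P hP.1)
  have hfix : conjBy P c = P := centralizer_conjBy (H := P)
    (Subgroup.mem_centralizer_iff.2 fun x _ =>
      Subgroup.mem_centralizer_singleton_iff.1 (htop (Subgroup.mem_top x))) le_rfl
  exact hc1 ((Subgroup.eq_bot_iff_forall _).1 (rankOne_inf_normalizer hP.2) c
    ⟨hc, mem_normalizer_iff_conjBy.2 hfix⟩)

end Cfsg.Agent.H92
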