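import Cfsg.Agent.H92.RootPsi

/-! Connected components of the graph of rank one pairs. -/

set_option autoImplicit false

namespace Cfsg.Agent.H92

open Cfsg
open scoped commutatorElement

variable {G : Type*} [Group G] {S : Set (Subgroup G)} {A B C D E : Subgroup G}

lemma fAdj_symm (h : FAdj S A B) : FAdj S B A := ⟨h.2.1, h.1, RankOnePair_symm h.2.2⟩

lemma fAdj_conjBy (hS : IsRootSubgroupSet S) (h : FAdj S A B) (g : G) :
    FAdj S (conjBy A g) (conjBy B g) :=
  ⟨hS.conj_mem A h.1 g, hS.conj_mem B h.2.1 g, rankOnePair_conjBy h.2.2 g⟩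

lemma fReach_symm (h : Relation.ReflTransGen (FAdj S) A B) : Relation.ReflTransGen (FAdj S) B A := by
  induction h with
  | refl => exact Relation.ReflTransGen.refl
  | tail _ e ih => exact Relation.ReflTransGen.head (fAdj_symm e) ih

lemma fReach_conjBy (hS : IsRootSubgroupSet S) (h : Relation.ReflTransGen (FAdj S) A B) (g : G) :
    Relation.ReflTransGen (FAdj S) (conjBy A g) (conjBy B g) := by
  induction h with
  | refl => exact Relation.ReflTransGen.refl
  | tail _ e ih => exact ih.tail (fAdj_conjBy hS e g)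

/-- A member containing the product of `a ∈ A#` with an element of a commuting member `B` that is no
rank one partner of `D ∈ Ω_A` is a conjugate of `A` by an element fixing `D`. -/
lemma line_member (hS : IsRootSubgroupSet S) (hA : A ∈ S) (hD : D ∈ rankOnePartners S A)
    (hB : B ∈ S) (hAB : ∀ x ∈ A, ∀ y ∈ B, x * y = y * x) (hnr : ¬ IsRankOnePair B D)
    (hE : E ∈ S) {a b : G} (ha : a ∈ A) (ha1 : a ≠ 1) (hb : b ∈ B) (hab : a * b ∈ E) :
    ∃ k, conjBy D k = D ∧ E = conjBy A k := by
  have commCase : ∀ {D' : Subgroup G}, D' ∈ rankOnePartners S A → (∀ y ∈ D', b * y = y * b) →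
      E = A := by
    intro D' hD' hc
    refine member_eq_of_mem hS hA hD' hE ?_ ha ha1 (z := b) (by rwa [← hAB a ha b hb])
    have : A ⊔ D' ≤ Subgroup.centralizer {b} := sup_le
      (fun x hx => Subgroup.mem_centralizer_singleton_iff.2 (hAB x hx b hb))
      (fun x hx => Subgroup.mem_centralizer_singleton_iff.2 (hc x hx).symm)
    exact Subgroup.mem_centralizer_iff.2 fun x hx =>
      Subgroup.mem_centralizer_singleton_iff.1 (this hx)
  rcases hS.pair B hB D hD.1 with h1 | h1 | h1
  · exact ⟨1, conjBy_one _, by rw [conjBy_one]; exact commCase hD fun y hy =>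
      commute_of_commutator_eq_bot h1 hb hy⟩
  · exact absurd h1 hnr
  set K := ⁅B, D⁆ with hK
  have hKc := h1.2.1
  obtain ⟨d, hd, hd1, e⟩ := hD.2.cond_left a ha ha1
  set k := d⁻¹ * b * d * b⁻¹ with hk
  have hkK : k ∈ K := by
    rw [hK, Subgroup.commutator_comm]
    have := Subgroup.commutator_mem_commutator (inv_mem hd) hb
    rwa [commutatorElement_def, inv_inv] at this
  have hbk : k * b = b * k := hKc k hkK b (Subgroup.mem_sup_left hb)
  have hkD : ∀ y ∈ D, k * y = y * k := fun y hy => hKc k hkK y (Subgroup.mem_sup_right hy)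
  have hKB : ∀ y ∈ K, y * b = b * y := fun y hy => hKc y hy b (Subgroup.mem_sup_left hb)
  have case2 : IsRankOnePair A K → E = A := fun hAK =>
    commCase ⟨h1.1, hAK⟩ fun y hy => (hKB y hy).symm
  set u := a * k * a⁻¹ * k⁻¹ with hu
  by_cases hAK : IsRankOnePair A K
  · exact ⟨1, conjBy_one _, by rw [conjBy_one]; exact case2 hAK⟩
  have huc : (∀ x ∈ A, u * x = x * u) ∧ u * k = k * u ∧ u * a = a * u := by
    rcases hS.pair A hA K h1.1 with h2 | h2 | h2
    · have : u = 1 := by
        rw [hu, commute_of_commutator_eq_bot h2 ha hkK]; simp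
      simp [this]
    · exact absurd h2 hAK
    · have hm : u ∈ ⁅A, K⁆ := Subgroup.commutator_mem_commutator ha hkK
      exact ⟨fun x hx => h2.2.1 u hm x (Subgroup.mem_sup_left hx),
        h2.2.1 u hm k (Subgroup.mem_sup_right hkK), h2.2.1 u hm a (Subgroup.mem_sup_left ha)⟩
  have hkfix : conjBy D k = D := by
    apply centralizer_conjBy (H := D) _ le_rfl
    exact Subgroup.mem_centralizer_iff.2 fun y hy => (hkD y hy).symm
  refine ⟨k, hkfix, ?_⟩
  have hzD : ∀ y ∈ D, (b * u) * y = y * (b * u) := by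
    have hconj : conjBy A (a * d⁻¹) = D := by
      rw [← conjBy_conjBy, e, conjBy_conjBy, mul_inv_cancel, conjBy_one]
    intro y hy
    rw [← hconj] at hy
    set n := a * d⁻¹ with hn
    have h3 := hAB _ (mem_conjBy.1 hy) b hb
    have h4 : (n * b * n⁻¹) * y = y * (n * b * n⁻¹) := by
      calc (n * b * n⁻¹) * y = n * (b * (n⁻¹ * y * n)) * n⁻¹ := by simp [mul_assoc]
        _ = n * ((n⁻¹ * y * n) * b) * n⁻¹ := by rw [h3]
        _ = y * (n * b * n⁻¹) := by simp [mul_assoc]
    have h5 : n * b * n⁻¹ = b * (u * k) := by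
      have h6 : d⁻¹ * b * d = b * k := by rw [← hbk, hk]; simp [mul_assoc]
      calc n * b * n⁻¹ = a * (d⁻¹ * b * d) * a⁻¹ := by simp [hn, mul_assoc]
        _ = (a * b) * k * a⁻¹ := by rw [h6]; simp [mul_assoc]
        _ = b * (a * k * a⁻¹) := by rw [hAB a ha b hb]; simp [mul_assoc]
        _ = b * (u * k) := by simp [hu]
    rw [h5] at h4
    rw [hconj] at hy
    have h7 : (b * u) * y * k = y * (b * u) * k := by
      calc (b * u) * y * k = b * u * (y * k) := by simp [mul_assoc]
        _ = b * u * (k * y) := by rw [hkD y hy]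
        _ = b * (u * k) * y := by simp [mul_assoc]
        _ = y * (b * (u * k)) := h4
        _ = y * (b * u) * k := by simp [mul_assoc]
    exact mul_right_cancel h7
  have hzA : ∀ x ∈ A, (b * u) * x = x * (b * u) := fun x hx => by
    rw [mul_assoc, huc.1 x hx, ← mul_assoc, ← hAB x hx b hb, mul_assoc]
  have hzk : (b * u) * k = k * (b * u) := by
    rw [mul_assoc, huc.2.1, ← mul_assoc, ← hbk, mul_assoc]
  have hz : b * u ∈ Subgroup.centralizer ((conjBy A k ⊔ D : Subgroup G) : Set G) := by
    have : conjBy A k ⊔ D ≤ Subgroup.centralizer {b * u} := by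
      refine sup_le (fun x hx => Subgroup.mem_centralizer_singleton_iff.2 ?_)
        (fun x hx => Subgroup.mem_centralizer_singleton_iff.2 (hzD x hx).symm)
      have hc : Commute (b * u) k := hzk
      have := (hc.mul_right (hzA _ (mem_conjBy.1 hx) : Commute (b * u) _)).mul_right hc.inv_right
      simpa [mul_assoc] using this.eq.symm
    exact Subgroup.mem_centralizer_iff.2 fun x hx =>
      Subgroup.mem_centralizer_singleton_iff.1 (this hx)
  have hpair : D ∈ rankOnePartners S (conjBy A k) :=
    hkfix ▸ rankOne_partner_conj hS hD k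
  refine member_eq_of_mem hS (hS.conj_mem A hA k) hpair hE hz (conj_mem_conjBy ha k)
    (fun t => ha1 (conj_eq_one_iff.1 t)) ?_
  have : (b * u) * (k * a * k⁻¹) = a * b := by
    have hua : u⁻¹ * a = k * a * k⁻¹ := by
      calc u⁻¹ * a = k * a * k⁻¹ * a⁻¹ * a := by simp [hu, mul_assoc]
        _ = k * a * k⁻¹ := by simp
    rw [← hua, ← mul_assoc, mul_inv_cancel_right, hAB a ha b hb]
  rwa [this]

/-- A conjugate of a non-isolated member by an element of a member lies in its component. -/
lemma fReach_conj_member (hS : IsRootSubgroupSet S) (hA : A ∈ S) (hD : D ∈ rankOnePartners S A)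
    (hC : C ∈ S) {c : G} (hc : c ∈ C) :
    Relation.ReflTransGen (FAdj S) A (conjBy A c) := by
  rcases hS.pair A hA C hC with h1 | h1 | h1
  · rw [centralizer_conjBy (H := A) ?_ le_rfl]
    exact Subgroup.mem_centralizer_iff.2 fun x hx => commute_of_commutator_eq_bot h1 hx hc
  · have e := fAdj_conjBy hS (show FAdj S A C from ⟨hA, hC, h1⟩) c
    rw [conjBy_self hc] at e
    exact (Relation.ReflTransGen.single (show FAdj S A C from ⟨hA, hC, h1⟩)).tail (fAdj_symm e)
  by_cases hFD : IsRankOnePair ⁅A, C⁆ D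
  · have hreach : Relation.ReflTransGen (FAdj S) A ⁅A, C⁆ :=
      (Relation.ReflTransGen.single (show FAdj S A D from ⟨hA, hD.1, hD.2⟩)).tail
        (show FAdj S D ⁅A, C⁆ from ⟨hD.1, h1.1, RankOnePair_symm hFD⟩)
    have h2 := fReach_conjBy hS hreach c
    rw [mem_normalizer_iff_conjBy.1 (Subgroup.normalizer_commutator_ge_right A C hc)] at h2
    exact hreach.trans (fReach_symm h2)
  obtain ⟨a, ha, ha1⟩ := ne_one_exists (hS.ne_bot A hA)
  have hmem : a * (a⁻¹ * (c * a * c⁻¹)) ∈ conjBy A c := by
    rw [mul_inv_cancel_left]; exact conj_mem_conjBy ha c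
  have hf : a⁻¹ * (c * a * c⁻¹) ∈ ⁅A, C⁆ := by
    have := Subgroup.commutator_mem_commutator (inv_mem ha) hc
    rw [commutatorElement_def] at this
    simpa [mul_assoc] using this
  obtain ⟨k, hk, e⟩ := line_member hS hA hD h1.1
    (fun x hx y hy => (h1.2.1 y hy x (Subgroup.mem_sup_left hx)).symm) hFD
    (hS.conj_mem A hA c) ha ha1 hf hmem
  have h3 := fAdj_conjBy hS (show FAdj S A D from ⟨hA, hD.1, hD.2⟩) k
  rw [hk, ← e] at h3
  exact (Relation.ReflTransGen.single (show FAdj S A D from ⟨hA, hD.1, hD.2⟩)).tail (fAdj_symm h3)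

/-- The component of a non-isolated member contains its conjugacy class. -/
lemma fReach_conj (hS : IsRootSubgroupSet S) (hA : A ∈ S) (hD : D ∈ rankOnePartners S A) (g : G) :
    Relation.ReflTransGen (FAdj S) A (conjBy A g) := by
  have hg : g ∈ Subgroup.closure (⋃ C ∈ S, (C : Set G)) := by
    simp only [Subgroup.closure_iUnion, Subgroup.closure_eq, hS.generates]
    exact Subgroup.mem_top g
  induction hg using Subgroup.closure_induction with
  | mem x hx =>
    simp only [Set.mem_iUnion] at hx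
    obtain ⟨C, hC, hx⟩ := hx
    exact fReach_conj_member hS hA hD hC hx
  | one => rw [conjBy_one]
  | mul x y _ _ ihx ihy =>
    rw [← conjBy_conjBy]
    exact ihx.trans (fReach_conjBy hS ihy x)
  | inv x _ ih =>
    have := fReach_conjBy hS ih x⁻¹
    rw [conjBy_conjBy, inv_mul_cancel, conjBy_one] at this
    exact fReach_symm this

lemma fReach_mem (hA : A ∈ S) (h : Relation.ReflTransGen (FAdj S) A B) : B ∈ S := by
  rcases h.cases_tail with e | ⟨_, _, e⟩
  · exact e ▸ hA
  · exact e.2.1

/-- Members joined in the rank one graph are conjugate. -/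
lemma fReach_isConj (h : Relation.ReflTransGen (FAdj S) A B) : ∃ g : G, B = conjBy A g := by
  induction h with
  | refl => exact ⟨1, (conjBy_one A).symm⟩
  | tail _ e ih =>
    obtain ⟨g, rfl⟩ := ih
    obtain ⟨x, -, hx⟩ := right_mem_unipotent e.2.2
    exact ⟨x * g, by rw [hx, conjBy_conjBy]⟩

lemma fReach_componentOf_eq (h : Relation.ReflTransGen (FAdj S) A B) :
    componentOf (FAdj S) S A = componentOf (FAdj S) S B := by
  ext C
  exact ⟨fun ⟨hC, r⟩ => ⟨hC, (fReach_symm h).trans r⟩, fun ⟨hC, r⟩ => ⟨hC, h.trans r⟩⟩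

lemma exists_partner_of_component (h : ∃ A' ∈ componentOf (FAdj S) S A, A' ≠ A) :
    ∃ D, D ∈ rankOnePartners S A := by
  obtain ⟨A', ⟨-, r⟩, hne⟩ := h
  rcases r.cases_head with e | ⟨D, e, -⟩
  · exact absurd e.symm hne
  · exact ⟨D, e.2.1, e.2.2⟩

end Cfsg.Agent.H92
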