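import Mathlib
import Cfsg.Prelude.Def_RootSubgroups

/-! Elementary lemmas on sets of root involutions. -/

set_option autoImplicit false

namespace Cfsg.Agent.H92.RI

open Cfsg

variable {G : Type*} [Group G] {D : Set G}

section basic

variable (hD : IsRootInvolutionSet D)
include hD

lemma sq_one {d : G} (hd : d ∈ D) : d * d = 1 := by
  have := pow_orderOf_eq_one d
  rwa [hD.orderOf_eq d hd, pow_two] at this

lemma inv_self {d : G} (hd : d ∈ D) : d⁻¹ = d := inv_eq_of_mul_eq_one_right (sq_one hD hd)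

lemma ne_one {d : G} (hd : d ∈ D) : d ≠ 1 := by
  rintro rfl
  have := hD.orderOf_eq 1 hd
  simp at this

lemma conj_mem' {d : G} (hd : d ∈ D) (g : G) : g⁻¹ * d * g ∈ D := by
  simpa using hD.conj_mem d hd g⁻¹

lemma mul_inv_eq {a b : G} (ha : a ∈ D) (hb : b ∈ D) : (a * b)⁻¹ = b * a := by
  rw [mul_inv_rev, inv_self hD ha, inv_self hD hb]

lemma orderOf_mul_symm {a b : G} (ha : a ∈ D) (hb : b ∈ D) : orderOf (b * a) = orderOf (a * b) := by
  rw [← mul_inv_eq hD ha hb, orderOf_inv]

/-- commuting members with product of odd order are equal -/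
lemma eq_of_comm_of_odd {a b : G} (ha : a ∈ D) (hb : b ∈ D) (hc : a * b = b * a)
    (ho : Odd (orderOf (a * b))) : a = b := by
  have h2 : (a * b) ^ 2 = 1 := by
    rw [pow_two]
    calc a * b * (a * b) = a * b * (b * a) := by rw [← hc]
      _ = a * (b * b) * a := by group
      _ = 1 := by rw [sq_one hD hb, mul_one, sq_one hD ha]
  have h1 : orderOf (a * b) ∣ 2 := orderOf_dvd_of_pow_eq_one h2
  have : orderOf (a * b) = 1 := by
    rcases (Nat.dvd_prime Nat.prime_two).mp h1 with h | h
    · exact h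
    · rw [h] at ho; exact absurd ho (by decide)
  rw [orderOf_eq_one_iff] at this
  rw [eq_inv_of_mul_eq_one_left this, inv_self hD hb]

lemma not_comm_of_oddAdj {a b : G} (h : OddAdj D a b) : a * b ≠ b * a := fun hc =>
  h.2.2.1 (eq_of_comm_of_odd hD h.1 h.2.1 hc h.2.2.2)

lemma not_four_of_odd {a b : G} (ho : Odd (orderOf (a * b))) : orderOf (a * b) ≠ 4 := by
  intro h; rw [h] at ho; exact absurd ho (by decide)

lemma sq_eq_one_of_comm {a b : G} (ha : a ∈ D) (hb : b ∈ D) (hc : a * b = b * a) :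
    (a * b) ^ 2 = 1 := by
  rw [pow_two]
  calc a * b * (a * b) = a * b * (b * a) := by rw [← hc]
    _ = a * (b * b) * a := by group
    _ = 1 := by rw [sq_one hD hb, mul_one, sq_one hD ha]

lemma oddAdj_symm {a b : G} (h : OddAdj D a b) : OddAdj D b a :=
  ⟨h.2.1, h.1, h.2.2.1.symm, by rw [orderOf_mul_symm hD h.1 h.2.1]; exact h.2.2.2⟩

lemma oddAdj_conj {a b : G} (h : OddAdj D a b) (g : G) :
    OddAdj D (g * a * g⁻¹) (g * b * g⁻¹) := by
  refine ⟨hD.conj_mem a h.1 g, hD.conj_mem b h.2.1 g, fun e => h.2.2.1 ?_, ?_⟩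
  · simpa using e
  · have e : g * a * g⁻¹ * (g * b * g⁻¹) = g * (a * b) * g⁻¹ := by group
    rw [e]
    have : orderOf (g * (a * b) * g⁻¹) = orderOf (a * b) :=
      orderOf_injective (MulAut.conj g).toMonoidHom (MulAut.conj g).injective (a * b)
    rw [this]; exact h.2.2.2

lemma four_facts {a b : G} (ha : a ∈ D) (hb : b ∈ D) (h4 : orderOf (a * b) = 4) :
    (a * b) ^ 2 ∈ D ∧ (a * b) ^ 2 * a = a * (a * b) ^ 2 ∧ (a * b) ^ 2 * b = b * (a * b) ^ 2 ∧
      b * a * b = a * (a * b) ^ 2 := by
  have hsq : (a * b) ^ 2 ∈ D := by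
    rcases hD.pair a ha b hb with h | h | h
    · exact absurd (orderOf_dvd_of_pow_eq_one (sq_eq_one_of_comm hD ha hb h)) (by rw [h4]; decide)
    · rw [h4] at h; exact absurd h (by decide)
    · exact h.2
  have hinv : ((a * b) ^ 2)⁻¹ = (a * b) ^ 2 := inv_self hD hsq
  have e1 : b * a * b = a * (a * b) ^ 2 := by
    rw [pow_two]
    calc b * a * b = a * a * (b * a * b) := by rw [sq_one hD ha, one_mul]
      _ = a * (a * b * (a * b)) := by group
  refine ⟨hsq, ?_, ?_, e1⟩
  · have : a * (a * b) ^ 2 * a⁻¹ = ((a * b) ^ 2)⁻¹ := by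
      rw [← inv_pow, ← conj_pow, mul_inv_eq hD ha hb, inv_self hD ha]
      congr 1
      rw [← mul_assoc, sq_one hD ha, one_mul]
    rw [hinv] at this
    calc (a * b) ^ 2 * a = a * (a * b) ^ 2 * a⁻¹ * a := by rw [this]
      _ = a * (a * b) ^ 2 := by group
  · have : b * (a * b) ^ 2 * b⁻¹ = ((a * b) ^ 2)⁻¹ := by
      rw [← inv_pow, ← conj_pow, mul_inv_eq hD ha hb, inv_self hD hb]
      congr 1
      rw [mul_assoc, mul_assoc, sq_one hD hb, mul_one]
    rw [hinv] at this
    calc (a * b) ^ 2 * b = b * (a * b) ^ 2 * b⁻¹ * b := by rw [this]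
      _ = b * (a * b) ^ 2 := by group

end basic

section lines

variable (hD : IsRootInvolutionSet D)
include hD

/-- product partners: unfolded facts -/
lemma partner_facts {a b : G} (hb : b ∈ productPartners D a) :
    b ∈ D ∧ b * a = a * b ∧ b ≠ a ∧ b * a ∈ D :=
  ⟨hb.1.1, hb.1.2.1, hb.1.2.2, hb.2⟩

/-- L0: no member commutes with exactly a partner of `a` when it is odd to `a` -/
lemma not_comm_partner {a b x : G} (hb : b ∈ productPartners D a) (hx : OddAdj D a x) :
    b * x ≠ x * b := by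
  obtain ⟨hbD, hba, hne, hfD⟩ := partner_facts hD hb
  intro hbx
  have hbb := sq_one hD hbD
  have hcomm : Commute b (a * x) := Commute.mul_right hba hbx
  have hb1 := ne_one hD hbD
  have hax1 : a * x ≠ 1 := by
    intro h; exact hx.2.2.1 (by rw [eq_inv_of_mul_eq_one_left h, inv_self hD hx.2.1])
  have hodd := hx.2.2.2
  have key : b * a * x = b * (a * x) := mul_assoc _ _ _
  rcases hD.pair (b * a) hfD x hx.2.1 with h | h | h
  · have h2 := sq_eq_one_of_comm hD hfD hx.2.1 h
    rw [key, hcomm.mul_pow, pow_two b, hbb, one_mul] at h2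
    have := orderOf_dvd_of_pow_eq_one h2
    rcases (Nat.dvd_prime Nat.prime_two).mp this with h' | h'
    · exact hax1 (orderOf_eq_one_iff.mp h')
    · rw [h'] at hodd; exact absurd hodd (by decide)
  · rw [key] at h
    set n := orderOf (b * (a * x)) with hn
    have h2 : (b * (a * x)) ^ n = 1 := pow_orderOf_eq_one _
    rw [hcomm.mul_pow] at h2
    obtain ⟨k, hk⟩ := h
    have hbn : b ^ n = b := by
      rw [hk, pow_succ, pow_mul, pow_two, hbb, one_pow, one_mul]
    rw [hbn] at h2
    have h3 : (a * x) ^ n = b := by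
      rw [eq_inv_of_mul_eq_one_right h2, inv_self hD hbD]
    have h4 : ((a * x) ^ 2) ^ n = 1 := by rw [← pow_mul, Nat.mul_comm, pow_mul, h3, pow_two, hbb]
    have h5 : orderOf (a * x) ∣ 2 * n := orderOf_dvd_of_pow_eq_one (by rwa [pow_mul])
    have h6 : orderOf (a * x) ∣ n :=
      (Nat.Coprime.dvd_of_dvd_mul_left (Nat.Coprime.symm ((Nat.coprime_two_left).mpr hodd)) h5)
    exact hb1 (by rw [← h3, orderOf_dvd_iff_pow_eq_one.mp h6])
  · rw [key] at h
    have h2 : (b * (a * x)) ^ 4 = 1 := h.1 ▸ pow_orderOf_eq_one _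
    rw [hcomm.mul_pow] at h2
    rw [show b ^ 4 = 1 by rw [show (4 : ℕ) = 2 * 2 from rfl, pow_mul, pow_two b, hbb, one_pow],
      one_mul] at h2
    have h3 : orderOf (a * x) ∣ 2 ^ 2 := orderOf_dvd_of_pow_eq_one (by simpa using h2)
    have h4 : orderOf (a * x) ∣ 1 :=
      Nat.Coprime.dvd_of_dvd_mul_right
        (Nat.Coprime.pow_right 2 ((Nat.coprime_two_right).mpr hodd)) (by simpa using h3)
    exact hax1 (orderOf_eq_one_iff.mp (Nat.dvd_one.mp h4))

/-- L1: for a line `a, b, ba` and `x` odd to `a`, not both `xb` and `x(ba)` have order 4 -/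
lemma not_four_four {a b x : G} (hb : b ∈ productPartners D a) (hx : OddAdj D a x)
    (h4 : orderOf (x * b) = 4) : orderOf (x * (b * a)) ≠ 4 := by
  obtain ⟨hbD, hba, hne, hfD⟩ := partner_facts hD hb
  intro h4f
  have haD := hx.1
  have hxD := hx.2.1
  have haa := sq_one hD haD
  have hbb := sq_one hD hbD
  have hxx := sq_one hD hxD
  obtain ⟨hcD, hcx, hcb, hc1⟩ := four_facts hD hxD hbD h4
  set c := (x * b) ^ 2 with hc
  have hcc := sq_one hD hcD
  have hfx : orderOf (b * a * x) = 4 := by rw [orderOf_mul_symm hD hxD hfD, h4f]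
  obtain ⟨hdD, -, -, -⟩ := four_facts hD hfD hxD hfx
  have hy : (b * a * x) ^ 2 = a * x * c * (a * x) := by
    rw [pow_two]
    calc b * a * x * (b * a * x) = a * b * x * (b * a * x) := by rw [hba]
      _ = a * (b * x * b) * (a * x) := by group
      _ = a * (x * c) * (a * x) := by rw [hc1]
      _ = a * x * c * (a * x) := by group
  rw [hy] at hdD
  have hyy := sq_one hD hdD
  set w := a * x with hw
  have e1 : c * w ^ 2 * c⁻¹ = (w ^ 2)⁻¹ := by
    rw [inv_self hD hcD]
    apply eq_inv_of_mul_eq_one_left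
    calc c * w ^ 2 * c * w ^ 2 = c * w * (w * c * w) * w := by rw [pow_two]; group
      _ = w⁻¹ * (w * c * w * (w * c * w)) * w := by group
      _ = 1 := by rw [hyy]; group
  obtain ⟨k, hk⟩ := hx.2.2.2
  have hwk : (w ^ 2) ^ (k + 1) = w := by
    rw [← pow_mul, show 2 * (k + 1) = (2 * k + 1) + 1 by ring, ← hk, pow_succ, pow_orderOf_eq_one,
      one_mul]
  have e2 : c * w * c⁻¹ = w⁻¹ := by
    calc c * w * c⁻¹ = c * (w ^ 2) ^ (k + 1) * c⁻¹ := by rw [hwk]
      _ = (c * w ^ 2 * c⁻¹) ^ (k + 1) := by rw [conj_pow]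
      _ = w⁻¹ := by rw [e1, inv_pow, hwk]
  rw [inv_self hD hcD, hw, mul_inv_eq hD haD hxD] at e2
  have hxc : x * c * x = c := by rw [← hcx, mul_assoc, hxx, mul_one]
  have e3 : c * a * c = x * a * x := by
    calc c * a * c = c * a * (x * x) * c := by rw [hxx, mul_one]
      _ = c * (a * x) * (x * c * x) * x := by
          calc c * a * (x * x) * c = c * (a * x) * (x * c) * 1 := by group
            _ = c * (a * x) * (x * c) * (x * x) := by rw [hxx]
            _ = c * (a * x) * (x * c * x) * x := by group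
      _ = c * (a * x) * c * x := by rw [hxc]
      _ = x * a * x := by rw [e2]
  have e4 : (x * c) * a * (x * c)⁻¹ = a := by
    rw [mul_inv_rev, inv_self hD hcD, inv_self hD hxD]
    calc x * c * a * (c * x) = x * (c * a * c) * x := by group
      _ = x * (x * a * x) * x := by rw [e3]
      _ = (x * x) * a * (x * x) := by group
      _ = a := by rw [hxx, one_mul, mul_one]
  rw [← hc1] at e4
  have e5 : b * x * b * a = a * (b * x * b) := by
    calc b * x * b * a = b * x * b * a * (b * x * b)⁻¹ * (b * x * b) := by group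
      _ = a * (b * x * b) := by rw [e4]
  have e6 : x * a = a * x := by
    calc x * a = x * (b * b * a) := by rw [hbb, one_mul]
      _ = b * (b * x * b * (b * a)) := by
        calc x * (b * b * a) = 1 * (x * (b * b * a)) := (one_mul _).symm
          _ = b * b * (x * (b * b * a)) := by rw [hbb]
          _ = b * (b * x * b * (b * a)) := by group
      _ = b * (b * x * b * (a * b)) := by rw [hba]
      _ = b * (b * x * b * a) * b := by group
      _ = b * (a * (b * x * b)) * b := by rw [e5]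
      _ = (b * a) * b * x * (b * b) := by group
      _ = a * x := by
        rw [hbb, mul_one, hba, mul_assoc a, hbb, mul_one]
  exact not_comm_of_oddAdj hD hx e6.symm

end lines

end Cfsg.Agent.H92.RI
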