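import Cfsg.Agent.H92.RootInv
import Cfsg.Agent.H19.Cores

/-! Odd transpositions and the 2-core. -/

set_option autoImplicit false

namespace Cfsg.Agent.H92.RI

open Cfsg

variable {G : Type*} [Group G] {D : Set G} [Finite G]

lemma pCore_normal_two : (Cfsg.pCore 2 G).Normal :=
  Cfsg.Agent.H19.pCore_normal 2 G

lemma eq_one_of_mem_two_of_odd {x : G} (hx : x ∈ Cfsg.pCore 2 G) (ho : Odd (orderOf x)) : x = 1 := by
  obtain ⟨n, hn⟩ := Cfsg.Agent.H19.pCore_isPGroup (G := G) 2 ⟨x, hx⟩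
  have hn' : x ^ (2 ^ n) = 1 := by simpa using congrArg Subtype.val hn
  have h4 : orderOf x ∣ 1 :=
    Nat.Coprime.dvd_of_dvd_mul_right
      (Nat.Coprime.pow_right n ((Nat.coprime_two_right).mpr ho))
      (by simpa using orderOf_dvd_of_pow_eq_one hn')
  exact orderOf_eq_one_iff.mp (Nat.dvd_one.mp h4)

variable (hD : IsOddTranspositionSet D)
include hD

lemma comm_conj_core {a q : G} (ha : a ∈ D) (hq : q ∈ Cfsg.pCore 2 G) :
    a * (q * a * q⁻¹) = q * a * q⁻¹ * a := by
  have hN := pCore_normal_two (G := G)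
  rcases hD.1.pair a ha _ (hD.1.conj_mem a ha q) with h | h | h
  · exact h
  · have hm : a * (q * a * q⁻¹) ∈ Cfsg.pCore 2 G := by
      have e : a * (q * a * q⁻¹) = a * q * a⁻¹ * q⁻¹ := by
        rw [inv_self hD.1 ha]; group
      rw [e]; exact mul_mem (hN.conj_mem q hq a) (inv_mem hq)
    have h1 := eq_one_of_mem_two_of_odd hm h
    have e : q * a * q⁻¹ = a := by
      rw [eq_inv_of_mul_eq_one_right h1, inv_self hD.1 ha]
    rw [e]
  · exact absurd h.1 (hD.2 a ha _ (hD.1.conj_mem a ha q))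

lemma comm_conj_core' {a e q : G} (ha : a ∈ D) (he : e ∈ D) (hea : e * a = a * e)
    (hq : q ∈ Cfsg.pCore 2 G) :
    e * (q * a * q⁻¹) = q * a * q⁻¹ * e := by
  have hN := pCore_normal_two (G := G)
  rcases hD.1.pair e he _ (hD.1.conj_mem a ha q) with h | h | h
  · exact h
  · have hv : a⁻¹ * (q * a * q⁻¹) ∈ Cfsg.pCore 2 G := by
      have e : a⁻¹ * (q * a * q⁻¹) = a⁻¹ * q * a⁻¹⁻¹ * q⁻¹ := by group
      rw [e]; exact mul_mem (hN.conj_mem q hq a⁻¹) (inv_mem hq)
    have e1 : (e * (q * a * q⁻¹)) ^ 2 ∈ Cfsg.pCore 2 G := by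
      have e2 : (e * (q * a * q⁻¹)) ^ 2 =
          (e * a) * (a⁻¹ * (q * a * q⁻¹)) * (e * a)⁻¹ *
            ((e * a) ^ 2 * (a⁻¹ * (q * a * q⁻¹))) := by
        rw [pow_two, pow_two]; group
      rw [e2, sq_eq_one_of_comm hD.1 he ha hea, one_mul]
      exact mul_mem (hN.conj_mem _ hv _) hv
    have h1 : (e * (q * a * q⁻¹)) ^ 2 = 1 := by
      refine eq_one_of_mem_two_of_odd e1 ?_
      rw [Nat.Coprime.orderOf_pow ((Nat.coprime_two_right).mpr h)]
      exact h
    have h2 := orderOf_dvd_of_pow_eq_one h1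
    rcases (Nat.dvd_prime Nat.prime_two).mp h2 with h' | h'
    · have h3 := orderOf_eq_one_iff.mp h'
      have e : q * a * q⁻¹ = e := by
        rw [eq_inv_of_mul_eq_one_right h3, inv_self hD.1 he]
      rw [e]
    · rw [h'] at h; exact absurd h (by decide)
  · exact absurd h.1 (hD.2 e he _ (hD.1.conj_mem a ha q))

lemma comm_commutator_core {a e : G} (ha : a ∈ D) (he : e ∈ D) (hea : e * a = a * e) :
    ⁅Cfsg.pCore 2 G, Subgroup.zpowers a⁆ ≤ Subgroup.centralizer {e} := by
  rw [Subgroup.commutator_le]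
  intro q hq z hz
  obtain ⟨i, rfl⟩ := Subgroup.mem_zpowers_iff.mp hz
  rw [commutatorElement_def, ← conj_zpow]
  refine mul_mem (zpow_mem ?_ i) (inv_mem (zpow_mem ?_ i))
  · exact Subgroup.mem_centralizer_singleton_iff.mpr (comm_conj_core' hD ha he hea hq).symm
  · exact Subgroup.mem_centralizer_singleton_iff.mpr hea.symm

lemma centralizer_product_core {a b q : G} (ha : a ∈ D) (hb : b ∈ D) (hab : a ≠ b)
    (ho : Odd (orderOf (a * b))) (hq : q ∈ Cfsg.pCore 2 G) (hc : q * (a * b) = a * b * q) :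
    q * a = a * q ∧ q * b = b * q := by
  have haa := sq_one hD.1 ha
  have hbb := sq_one hD.1 hb
  set v := q * a * q⁻¹ * a with hv
  have hva : q * a * q⁻¹ = v * a := by rw [hv, mul_assoc _ a a, haa, mul_one]
  have hb' : q * b * q⁻¹ = v * b := by
    have e : q * a * q⁻¹ * (q * b * q⁻¹) = a * b := by
      calc q * a * q⁻¹ * (q * b * q⁻¹) = q * (a * b) * q⁻¹ := by group
        _ = a * b := by rw [hc]; group
    calc q * b * q⁻¹ = (q * a * q⁻¹)⁻¹ * (a * b) := by rw [← e]; group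
      _ = q * a * q⁻¹ * (a * b) := by rw [inv_self hD.1 (hD.1.conj_mem a ha q)]
      _ = v * b := by rw [hv]; group
  have hva2 : Commute v a := by
    rw [hv]
    exact (Commute.mul_left (comm_conj_core hD ha hq).symm (Commute.refl a))
  have hv2 : v * v = 1 := by
    have := sq_one hD.1 (hD.1.conj_mem a ha q)
    rw [hva] at this
    calc v * v = v * v * (a * a) := by rw [haa, mul_one]
      _ = v * a * (v * a) := by rw [hva2.mul_mul_mul_comm]
      _ = 1 := this
  have hvb : Commute v b := by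
    have := sq_one hD.1 (hD.1.conj_mem b hb q)
    rw [hb'] at this
    have h1 : v * b = (v * b)⁻¹ := (inv_eq_of_mul_eq_one_right this).symm
    show v * b = b * v
    rw [h1, mul_inv_rev, inv_self hD.1 hb, inv_eq_of_mul_eq_one_right hv2]
  have hab1 : a * b ≠ 1 := fun h => hab (by rw [eq_inv_of_mul_eq_one_left h, inv_self hD.1 hb])
  have hcom : Commute v (a * b) := hva2.mul_right hvb
  have hD' : v * a ∈ D := hva ▸ hD.1.conj_mem a ha q
  have hv1 : v = 1 := by
    rcases hD.1.pair (v * a) hD' b hb with h | h | h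
    · exfalso
      have h2 := sq_eq_one_of_comm hD.1 hD' hb h
      rw [mul_assoc, hcom.mul_pow, pow_two v, hv2, one_mul] at h2
      rcases (Nat.dvd_prime Nat.prime_two).mp (orderOf_dvd_of_pow_eq_one h2) with h' | h'
      · exact hab1 (orderOf_eq_one_iff.mp h')
      · rw [h'] at ho; exact absurd ho (by decide)
    · rw [mul_assoc] at h
      set n := orderOf (v * (a * b)) with hn
      have h2 : (v * (a * b)) ^ n = 1 := pow_orderOf_eq_one _
      rw [hcom.mul_pow] at h2
      obtain ⟨k, hk⟩ := h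
      have hvn : v ^ n = v := by rw [hk, pow_succ, pow_mul, pow_two, hv2, one_pow, one_mul]
      rw [hvn] at h2
      have h3 : (a * b) ^ n = v := by
        rw [eq_inv_of_mul_eq_one_right h2, inv_eq_of_mul_eq_one_right hv2]
      have h5 : orderOf (a * b) ∣ 2 * n := orderOf_dvd_of_pow_eq_one (by
        rw [Nat.mul_comm, pow_mul, h3, pow_two, hv2])
      have h6 : orderOf (a * b) ∣ n :=
        Nat.Coprime.dvd_of_dvd_mul_left (Nat.Coprime.symm ((Nat.coprime_two_left).mpr ho)) h5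
      rw [← h3, orderOf_dvd_iff_pow_eq_one.mp h6]
    · exact absurd h.1 (hD.2 _ hD' b hb)
  rw [hv1, one_mul] at hva hb'
  exact ⟨mul_inv_eq_iff_eq_mul.mp hva, mul_inv_eq_iff_eq_mul.mp hb'⟩

end Cfsg.Agent.H92.RI
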