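import Cfsg.Agent.H92.RootInv
import Cfsg.Agent.H28.BaerSuzuki
import Cfsg.Agent.H28.Isolated
import Cfsg.Agent.H19.Cores
import Cfsg.Prelude.Def_IsolatedElements

/-! Isolated members and components of the odd graph of a set of root involutions. -/

set_option autoImplicit false

namespace Cfsg.Agent.H92.RI

open Cfsg

variable {G : Type*} [Group G] {D : Set G}

section comp

variable (hD : IsRootInvolutionSet D)
include hD

lemma reach_symm {a b : G} (h : Relation.ReflTransGen (OddAdj D) a b) :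
    Relation.ReflTransGen (OddAdj D) b a := by
  induction h with
  | refl => exact .refl
  | tail _ h ih => exact .head (oddAdj_symm hD h) ih

lemma reach_conj {a b : G} (h : Relation.ReflTransGen (OddAdj D) a b) (g : G) :
    Relation.ReflTransGen (OddAdj D) (g * a * g⁻¹) (g * b * g⁻¹) := by
  induction h with
  | refl => exact .refl
  | tail _ h ih => exact .tail ih (oddAdj_conj hD h g)

lemma reach_mem {a b : G} (ha : a ∈ D) (h : Relation.ReflTransGen (OddAdj D) a b) : b ∈ D := by
  induction h with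
  | refl => exact ha
  | tail _ h _ => exact h.2.1

lemma exists_adj_of_not_isolated {a : G} (ha : a ∈ D) (h : ¬ IsIsolatedElem (OddAdj D) D a) :
    ∃ x, OddAdj D a x := by
  by_contra h'
  push_neg at h'
  exact h ⟨ha, fun b => ⟨h' b, fun hb => h' b (oddAdj_symm hD hb)⟩⟩

lemma exists_adj_of_component {a : G}
    (h : ∃ a' ∈ elemComponentOf (OddAdj D) D a, a' ≠ a) : ∃ x, OddAdj D a x := by
  obtain ⟨a', ⟨-, hr⟩, hne⟩ := h
  rcases Relation.ReflTransGen.cases_head hr with h | ⟨x, hx, -⟩
  · exact absurd h.symm hne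
  · exact ⟨x, hx⟩

lemma comp_eq {a b : G} (h : Relation.ReflTransGen (OddAdj D) a b) :
    elemComponentOf (OddAdj D) D a = elemComponentOf (OddAdj D) D b := by
  ext c
  exact ⟨fun ⟨hc, hac⟩ => ⟨hc, (reach_symm hD h).trans hac⟩, fun ⟨hc, hbc⟩ => ⟨hc, h.trans hbc⟩⟩

/-- odd to `a`, partner `e`: either odd to `e`, or odd to the third point -/
lemma odd_or_odd {a e x : G} (he : e ∈ productPartners D a) (hx : OddAdj D a x) :
    OddAdj D x e ∨ OddAdj D x (e * a) := by
  obtain ⟨heD, hea, -, hfD⟩ := partner_facts hD he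
  have hfa : e * a ∈ productPartners D a := by
    refine ⟨⟨hfD, ?_, ?_⟩, ?_⟩
    · rw [← mul_assoc, ← hea]
    · intro h
      exact ne_one hD heD (mul_eq_right.mp h)
    · rw [mul_assoc, sq_one hD hx.1, mul_one]; exact heD
  have h1 := not_comm_partner hD he hx
  have h2 := not_comm_partner hD hfa hx
  rcases hD.pair x hx.2.1 e heD with h | h | h
  · exact absurd h.symm h1
  · exact Or.inl ⟨hx.2.1, heD, fun e' => h1 (by rw [e']), h⟩
  · rcases hD.pair x hx.2.1 (e * a) hfD with h' | h' | h'
    · exact absurd h'.symm h2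
    · exact Or.inr ⟨hx.2.1, hfD, fun e' => h2 (by rw [e']), h'⟩
    · exact absurd h'.1 (not_four_four hD he hx h.1)

/-- a non-isolated product partner of a non-isolated member is in its component -/
lemma partner_reach {a e : G} (he : e ∈ productPartners D a) (ha : ∃ x, OddAdj D a x)
    (he' : ∃ y, OddAdj D e y) : Relation.ReflTransGen (OddAdj D) a e := by
  obtain ⟨heD, hea, hne, hfD⟩ := partner_facts hD he
  obtain ⟨x, hx⟩ := ha
  obtain ⟨y, hy⟩ := he'
  have ha' : a ∈ productPartners D e := ⟨⟨hx.1, hea.symm, hne.symm⟩, by rw [← hea]; exact hfD⟩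
  rcases odd_or_odd hD he hx with h | h
  · exact .head hx (.single h)
  · rcases odd_or_odd hD ha' hy with h' | h'
    · exact reach_symm hD (.head hy (.single h'))
    · rw [← hea] at h'
      exact (Relation.ReflTransGen.head hx (.single h)).trans
        (reach_symm hD (.head hy (.single h')))

lemma partners_subset {a : G} (ha : ∃ x, OddAdj D a x) :
    productPartners D a ⊆ elemComponentOf (OddAdj D) D a ∪ {w | IsIsolatedElem (OddAdj D) D w} := by
  intro e he
  have heD := (partner_facts hD he).1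
  by_cases hi : IsIsolatedElem (OddAdj D) D e
  · exact Or.inr hi
  · exact Or.inl ⟨heD, partner_reach hD he ha (exists_adj_of_not_isolated hD heD hi)⟩

lemma isolated_conj {w : G} (hw : IsIsolatedElem (OddAdj D) D w) (g : G) :
    IsIsolatedElem (OddAdj D) D (g * w * g⁻¹) := by
  refine ⟨hD.conj_mem w hw.1 g, fun b => ⟨fun h => ?_, fun h => ?_⟩⟩
  · have := oddAdj_conj hD h g⁻¹
    exact (hw.2 (g⁻¹ * b * g⁻¹⁻¹)).1 (by simpa [mul_assoc] using this)
  · have := oddAdj_conj hD h g⁻¹
    exact (hw.2 (g⁻¹ * b * g⁻¹⁻¹)).2 (by simpa [mul_assoc] using this)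

variable [Finite G]

lemma isolated_normal : (Subgroup.closure {w | IsIsolatedElem (OddAdj D) D w}).Normal := by
  refine ⟨fun n hn g => ?_⟩
  have : Subgroup.map (MulAut.conj g).toMonoidHom
      (Subgroup.closure {w | IsIsolatedElem (OddAdj D) D w}) ≤
        Subgroup.closure {w | IsIsolatedElem (OddAdj D) D w} := by
    rw [MonoidHom.map_closure, Subgroup.closure_le]
    rintro _ ⟨w, hw, rfl⟩
    exact Subgroup.subset_closure (isolated_conj hD hw g)
  exact this ⟨n, hn, rfl⟩

lemma isolated_isPGroup : IsPGroup 2 ↥(Subgroup.closure {w | IsIsolatedElem (OddAdj D) D w}) := by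
  haveI : Fact (Nat.Prime 2) := ⟨Nat.prime_two⟩
  refine (Cfsg.Agent.H19.pCore_isPGroup (G := G) 2).to_le ((Subgroup.closure_le _).mpr ?_)
  intro w hw
  obtain ⟨N, hN, hN2, hwN⟩ : ∃ N : Subgroup G, N.Normal ∧ IsPGroup 2 N ∧ w ∈ N := by
    refine Cfsg.Agent.H28.baer_suzuki_element w (fun g => ?_)
    refine Cfsg.Agent.H28.isPGroup_closure_pair (a := 2) (hD.orderOf_eq w hw.1)
      (hD.orderOf_eq _ (hD.conj_mem w hw.1 g)) ?_
    rcases hD.pair w hw.1 _ (hD.conj_mem w hw.1 g) with h | h | h
    · exact orderOf_dvd_of_pow_eq_one (by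
        rw [show (2 : ℕ) ^ 2 = 2 * 2 from rfl, pow_mul,
          sq_eq_one_of_comm hD hw.1 (hD.conj_mem w hw.1 g) h, one_pow])
    · by_cases he : w = g * w * g⁻¹
      · rw [← he, sq_one hD hw.1, orderOf_one]; norm_num
      · exact absurd ⟨hw.1, hD.conj_mem w hw.1 g, he, h⟩ (hw.2 _).1
    · rw [h.1]; norm_num
  exact (le_sSup (a := N) ⟨hN, hN2⟩ : N ≤ Cfsg.pCore 2 G) hwN

lemma isolated_inter {d : G} (hd : d ∈ D)
    (hm : d ∈ Subgroup.closure {w | IsIsolatedElem (OddAdj D) D w}) :
    IsIsolatedElem (OddAdj D) D d := by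
  by_contra hi
  obtain ⟨x, hx⟩ := exists_adj_of_not_isolated hD hd hi
  have hN := isolated_normal hD
  have hxx := sq_one hD hx.2.1
  have hmem : (d * x) ^ 2 ∈ Subgroup.closure {w | IsIsolatedElem (OddAdj D) D w} := by
    have e : (d * x) ^ 2 = d * (x * d * x⁻¹) := by
      rw [pow_two, inv_self hD hx.2.1]; group
    rw [e]
    exact mul_mem hm (hN.conj_mem d hm x)
  obtain ⟨n, hn⟩ := isolated_isPGroup hD ⟨_, hmem⟩
  have hn' : ((d * x) ^ 2) ^ (2 ^ n) = 1 := by simpa using congrArg Subtype.val hn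
  rw [← pow_mul, ← pow_succ'] at hn'
  have h4 : orderOf (d * x) ∣ 1 :=
    Nat.Coprime.dvd_of_dvd_mul_right
      (Nat.Coprime.pow_right (n + 1) ((Nat.coprime_two_right).mpr hx.2.2.2))
      (by simpa using orderOf_dvd_of_pow_eq_one hn')
  have := orderOf_eq_one_iff.mp (Nat.dvd_one.mp h4)
  exact hx.2.2.1 (by rw [eq_inv_of_mul_eq_one_left this, inv_self hD hx.2.1])

omit [Finite G] in
lemma comm_components {a b : G} (ha : a ∈ D) (hb : b ∈ D)
    (hna : ∃ x, OddAdj D a x) (hnb : ∃ y, OddAdj D b y)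
    (hne : elemComponentOf (OddAdj D) D a ≠ elemComponentOf (OddAdj D) D b) :
    a * b * a⁻¹ * b⁻¹ ∈ Subgroup.closure {w | IsIsolatedElem (OddAdj D) D w} := by
  rw [inv_self hD ha, inv_self hD hb]
  rcases hD.pair a ha b hb with h | h | ⟨h, hsq⟩
  · have e : a * b * a * b = 1 := by
      have := sq_eq_one_of_comm hD ha hb h
      rw [pow_two] at this
      rw [← this]; group
    rw [e]; exact one_mem _
  · by_cases e : a = b
    · exact absurd (by rw [e]) hne
    · exact absurd (comp_eq hD (.single ⟨ha, hb, e, h⟩)) hne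
  · obtain ⟨hcD, hca, hcb, hc1⟩ := four_facts hD ha hb h
    have e : a * b * a * b = (a * b) ^ 2 := by rw [pow_two]; group
    rw [e]
    by_contra hcW
    have hci : ¬ IsIsolatedElem (OddAdj D) D ((a * b) ^ 2) := fun hi =>
      hcW (Subgroup.subset_closure hi)
    have hc' := exists_adj_of_not_isolated hD hcD hci
    have hab1 : a * b ≠ b * a := by
      intro hh
      have := orderOf_dvd_of_pow_eq_one (sq_eq_one_of_comm hD ha hb hh)
      rw [h] at this; norm_num at this
    have hne1 : (a * b) ^ 2 ≠ a := by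
      intro hh; rw [hh] at hcb; exact hab1 hcb
    have hne2 : (a * b) ^ 2 ≠ b := by
      intro hh; rw [hh] at hca; exact hab1 hca.symm
    have h1 : (a * b) ^ 2 ∈ productPartners D a := by
      refine ⟨⟨hcD, hca, hne1⟩, ?_⟩
      rw [hca, ← hc1]
      simpa [inv_self hD hb] using hD.conj_mem a ha b
    have h2 : (a * b) ^ 2 ∈ productPartners D b := by
      refine ⟨⟨hcD, hcb, hne2⟩, ?_⟩
      have e2 : (a * b) ^ 2 * b = a * b * a⁻¹ := by
        rw [pow_two, inv_self hD ha]
        calc a * b * (a * b) * b = a * b * a * (b * b) := by group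
          _ = a * b * a := by rw [sq_one hD hb, mul_one]
      rw [e2]; exact hD.conj_mem b hb a
    exact hne (comp_eq hD ((partner_reach hD h1 hna hc').trans
      (reach_symm hD (partner_reach hD h2 hnb hc'))))

end comp

end Cfsg.Agent.H92.RI
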