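import Cfsg.Agent.H92.RootPsi

/-! The rank one group acting on a line `A ⊔ ⁅A, B⁆`. -/

set_option autoImplicit false

namespace Cfsg.Agent.H92

open Cfsg
open scoped commutatorElement

variable {G : Type*} [Group G] {S : Set (Subgroup G)} {A B C D E : Subgroup G}

/-- The commutator case is symmetric. -/
lemma rcc_symm (h : RootCommutatorCase S A B) : RootCommutatorCase S B A := by
  obtain ⟨h1, h2, h3, h4⟩ := h
  have hinv : ∀ {x : G} {T : Subgroup G} {K : Subgroup G},
      Subgroup.closure ((fun a : G => a * x * a⁻¹ * x⁻¹) '' (T : Set G)) = K →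
      Subgroup.closure ((fun a : G => x * a * x⁻¹ * a⁻¹) '' (T : Set G)) = K := by
    intro x T K e
    rw [← e]
    apply le_antisymm <;> rw [Subgroup.closure_le] <;> rintro _ ⟨a, ha, rfl⟩
    · have : x * a * x⁻¹ * a⁻¹ = (a * x * a⁻¹ * x⁻¹)⁻¹ := by simp [mul_assoc]
      simp only [SetLike.mem_coe, this]
      exact inv_mem (Subgroup.subset_closure ⟨a, ha, rfl⟩)
    · have : a * x * a⁻¹ * x⁻¹ = (x * a * x⁻¹ * a⁻¹)⁻¹ := by simp [mul_assoc]
      simp only [SetLike.mem_coe, this]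
      exact inv_mem (Subgroup.subset_closure ⟨a, ha, rfl⟩)
  have hinv' : ∀ {x : G} {T : Subgroup G} {K : Subgroup G},
      Subgroup.closure ((fun a : G => x * a * x⁻¹ * a⁻¹) '' (T : Set G)) = K →
      Subgroup.closure ((fun a : G => a * x * a⁻¹ * x⁻¹) '' (T : Set G)) = K := by
    intro x T K e
    rw [← e]
    apply le_antisymm <;> rw [Subgroup.closure_le] <;> rintro _ ⟨a, ha, rfl⟩
    · have : a * x * a⁻¹ * x⁻¹ = (x * a * x⁻¹ * a⁻¹)⁻¹ := by simp [mul_assoc]
      simp only [SetLike.mem_coe, this]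
      exact inv_mem (Subgroup.subset_closure ⟨a, ha, rfl⟩)
    · have : x * a * x⁻¹ * a⁻¹ = (a * x * a⁻¹ * x⁻¹)⁻¹ := by simp [mul_assoc]
      simp only [SetLike.mem_coe, this]
      exact inv_mem (Subgroup.subset_closure ⟨a, ha, rfl⟩)
  refine ⟨by rwa [Subgroup.commutator_comm], ?_, ?_, ?_⟩
  · rw [Subgroup.commutator_comm B A, sup_comm]; exact h2
  · intro b hb hb1
    rw [Subgroup.commutator_comm B A]
    exact hinv (h4 b hb hb1)
  · intro a ha ha1
    rw [Subgroup.commutator_comm B A]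
    exact hinv' (h3 a ha ha1)

/-- No non-identity element of `A` centralizes `B` in the commutator case. -/
lemma rcc_not_centralize (hS : IsRootSubgroupSet S) (hcc : RootCommutatorCase S A B) {a : G}
    (ha : a ∈ A) (hc : ∀ b ∈ B, a * b = b * a) : a = 1 := by
  by_contra ha1
  apply hS.ne_bot _ hcc.1
  rw [← hcc.2.2.1 a ha ha1, eq_bot_iff, Subgroup.closure_le]
  rintro _ ⟨b, hb, rfl⟩
  simp [hc b hb]

/-- `A` meets `⁅A, B⁆` trivially. -/
lemma rcc_inf' (hS : IsRootSubgroupSet S) (hcc : RootCommutatorCase S A B) : A ⊓ ⁅A, B⁆ = ⊥ := by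
  rw [Subgroup.eq_bot_iff_forall]
  rintro x ⟨hxA, hxC⟩
  exact rcc_not_centralize hS hcc hxA fun b hb => hcc.2.1 x hxC b (Subgroup.mem_sup_right hb)

lemma conjBy_centralizer (E : Subgroup G) (x : G) :
    conjBy (Subgroup.centralizer (E : Set G)) x = Subgroup.centralizer (conjBy E x : Set G) := by
  ext z
  rw [mem_conjBy, Subgroup.mem_centralizer_iff, Subgroup.mem_centralizer_iff]
  constructor <;> intro h y hy
  · have := h _ (mem_conjBy.1 hy)
    have h2 := congrArg (fun w => x * w * x⁻¹) this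
    simpa [mul_assoc] using h2
  · have := h _ (conj_mem_conjBy hy x)
    have h2 := congrArg (fun w => x⁻¹ * w * x) this
    simpa [mul_assoc] using h2

/-- The data of a line: `C = ⁅A, B⁆` and `⁅D, C⁆ = A`. -/
structure LineData (S : Set (Subgroup G)) (A B C D : Subgroup G) : Prop where
  hS : IsRootSubgroupSet S
  hA : A ∈ S
  hB : B ∈ S
  hD : D ∈ S
  eC : ⁅A, B⁆ = C
  eA : ⁅D, C⁆ = A
  h1 : RootCommutatorCase S A B
  h2 : RootCommutatorCase S D C

namespace LineData

variable (L : LineData S A B C D)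

include L

lemma inf_eq_bot : A ⊓ C = ⊥ := L.eC ▸ rcc_inf' L.hS L.h1

lemma hC : C ∈ S := L.eC ▸ L.h1.1

lemma commAC {a c : G} (ha : a ∈ A) (hc : c ∈ C) : a * c = c * a :=
  (L.h1.2.1 c (L.eC ▸ hc) a (Subgroup.mem_sup_left ha)).symm

lemma commBC {b c : G} (hb : b ∈ B) (hc : c ∈ C) : b * c = c * b :=
  (L.h1.2.1 c (L.eC ▸ hc) b (Subgroup.mem_sup_right hb)).symm

lemma commDA {d a : G} (hd : d ∈ D) (ha : a ∈ A) : d * a = a * d :=
  (L.h2.2.1 a (L.eA.symm ▸ ha) d (Subgroup.mem_sup_left hd)).symm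

lemma alpha_mem {a b : G} (ha : a ∈ A) (hb : b ∈ B) : b * a * b⁻¹ * a⁻¹ ∈ C := by
  rw [← L.eC, Subgroup.commutator_comm]
  exact Subgroup.commutator_mem_commutator hb ha

lemma delta_mem {c d : G} (hc : c ∈ C) (hd : d ∈ D) : d * c * d⁻¹ * c⁻¹ ∈ A := by
  rw [← L.eA]
  exact Subgroup.commutator_mem_commutator hd hc

lemma alpha_surj {b c : G} (hb : b ∈ B) (hb1 : b ≠ 1) (hc : c ∈ C) :
    ∃ a ∈ A, b * a * b⁻¹ * a⁻¹ = c := by
  obtain ⟨a, ha, e⟩ := rcc_surj (rcc_symm L.h1) hb hb1 (c := c)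
    (by rwa [Subgroup.commutator_comm, L.eC])
  exact ⟨a, ha, e⟩

lemma delta_surj {d a : G} (hd : d ∈ D) (hd1 : d ≠ 1) (ha : a ∈ A) :
    ∃ c ∈ C, d * c * d⁻¹ * c⁻¹ = a := by
  obtain ⟨c, hc, e⟩ := rcc_surj L.h2 hd hd1 (c := a) (by rwa [L.eA])
  exact ⟨c, hc, e⟩

lemma mem_sup {x : G} (hx : x ∈ A ⊔ C) : ∃ a ∈ A, ∃ c ∈ C, a * c = x := by
  rw [← L.eC] at hx ⊢
  exact rcc_mem_sup hx

/-- `(B, D)` is a rank one pair. -/
lemma pair : IsRankOnePair B D := by
  obtain ⟨b, hb, hb1⟩ := ne_one_exists (L.hS.ne_bot B L.hB)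
  obtain ⟨d, hd, hd1⟩ := ne_one_exists (L.hS.ne_bot D L.hD)
  rcases L.hS.pair B L.hB D L.hD with h | h | h
  · exfalso
    apply L.hS.ne_bot A L.hA
    rw [← L.eA]
    apply commutator_eq_bot_of_commute
    intro d hd c hc
    obtain ⟨a, ha, rfl⟩ := L.alpha_surj hb hb1 hc
    have hda : Commute d a := L.commDA hd ha
    have hdb : Commute d b := (commute_of_commutator_eq_bot h hb hd).symm
    exact (((hdb.mul_right hda).mul_right hdb.inv_right).mul_right hda.inv_right).eq
  · exact h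
  exfalso
  set k := b * d * b⁻¹ * d⁻¹ with hk
  have hkK : k ∈ ⁅B, D⁆ := Subgroup.commutator_mem_commutator hb hd
  obtain ⟨c', hc', hc'1⟩ := ne_one_exists (L.hS.ne_bot C L.hC)
  obtain ⟨a1, ha1, ea1⟩ := L.alpha_surj hb hb1 hc'
  obtain ⟨c1, hc1, ec1⟩ := L.delta_surj hd hd1 ha1
  obtain ⟨a, ha, ea⟩ := L.alpha_surj (inv_mem hb) (inv_ne_one.2 hb1) hc1
  rw [inv_inv] at ea
  apply hc'1
  refine rcc_not_centralize L.hS (rcc_symm L.h2) hc' fun d' hd' => ?_
  have hm : Commute (b * d * b⁻¹) d' := by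
    have e : b * d * b⁻¹ = k * d := by simp [hk]
    rw [e]
    exact Commute.mul_left (h.2.1 k hkK d' (Subgroup.mem_sup_right hd')) (root_comm L.hS L.hD hd hd')
  have hma : Commute ((b * d * b⁻¹) * a * (b * d * b⁻¹)⁻¹) d' :=
    ((hm.mul_left (L.commDA hd' ha).symm)).mul_left hm.inv_left
  have e : (b * d * b⁻¹) * a * (b * d * b⁻¹)⁻¹ = c' * (a1 * a) := by
    have e1 : b⁻¹ * a * b = c1 * a := by rw [← ea]; simp [mul_assoc]
    have e2 : d * c1 * d⁻¹ = a1 * c1 := by rw [← ec1]; simp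
    have e3 : d * a * d⁻¹ = a := by rw [L.commDA hd ha]; simp
    have e4 : b * (c1 * a) * b⁻¹ = a := by rw [← e1]; simp [mul_assoc]
    have e5 : b * a1 * b⁻¹ = c' * a1 := by rw [← ea1]; simp
    calc (b * d * b⁻¹) * a * (b * d * b⁻¹)⁻¹ = b * (d * (b⁻¹ * a * b) * d⁻¹) * b⁻¹ := by
          simp [mul_assoc]
      _ = b * ((d * c1 * d⁻¹) * (d * a * d⁻¹)) * b⁻¹ := by rw [e1]; simp [mul_assoc]
      _ = b * (a1 * c1 * a) * b⁻¹ := by rw [e2, e3]
      _ = (b * a1 * b⁻¹) * (b * (c1 * a) * b⁻¹) := by simp [mul_assoc]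
      _ = c' * (a1 * a) := by rw [e4, e5, mul_assoc]
  rw [e] at hma
  have h6 : Commute (a1 * a) d' := (L.commDA hd' (mul_mem ha1 ha)).symm
  have h7 := hma.mul_left h6.inv_left
  rw [mul_inv_cancel_right] at h7
  exact h7.eq

/-- A non-identity element of `A` commutes with no non-identity element of `B`. -/
lemma injA {a b : G} (ha : a ∈ A) (hb : b ∈ B) (hb1 : b ≠ 1) (hab : a * b = b * a) : a = 1 := by
  have hR := RankOnePair_symm L.pair
  refine rcc_not_centralize L.hS L.h1 ha fun y hy => ?_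
  have hne : conjBy D b ≠ D := fun e => hb1
    ((Subgroup.eq_bot_iff_forall _).1 (rankOne_inf_normalizer' hR) b ⟨hb, mem_normalizer_iff_conjBy.2 e⟩)
  have hsup : conjBy D b ⊔ D = D ⊔ B :=
    unipotent_pair hR (conjBy_mem_unipotent (left_mem_unipotent D B) (Subgroup.mem_sup_right hb))
      (left_mem_unipotent D B) hne
  have hle : conjBy D b ⊔ D ≤ Subgroup.centralizer {a} := by
    refine sup_le (fun x hx => ?_) fun x hx =>
      Subgroup.mem_centralizer_singleton_iff.2 (L.commDA hx ha)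
    rw [Subgroup.mem_centralizer_singleton_iff]
    have hxa : Commute (b⁻¹ * x * b) a := L.commDA (mem_conjBy.1 hx) ha
    have hba : Commute b a := hab.symm
    have := (hba.mul_left hxa).mul_left hba.inv_left
    simpa [mul_assoc] using this.eq
  exact (Subgroup.mem_centralizer_singleton_iff.1 (hle (hsup ▸ Subgroup.mem_sup_right hy))).symm

/-- A non-identity element of `C` commutes with no non-identity element of `D`. -/
lemma injC {c d : G} (hc : c ∈ C) (hd : d ∈ D) (hd1 : d ≠ 1) (hcd : c * d = d * c) : c = 1 := by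
  have hR := L.pair
  refine rcc_not_centralize L.hS (rcc_symm L.h2) hc fun y hy => ?_
  have hne : conjBy B d ≠ B := fun e => hd1
    ((Subgroup.eq_bot_iff_forall _).1 (rankOne_inf_normalizer' hR) d ⟨hd, mem_normalizer_iff_conjBy.2 e⟩)
  have hsup : conjBy B d ⊔ B = B ⊔ D :=
    unipotent_pair hR (conjBy_mem_unipotent (left_mem_unipotent B D) (Subgroup.mem_sup_right hd))
      (left_mem_unipotent B D) hne
  have hle : conjBy B d ⊔ B ≤ Subgroup.centralizer {c} := by
    refine sup_le (fun x hx => ?_) fun x hx =>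
      Subgroup.mem_centralizer_singleton_iff.2 (L.commBC hx hc)
    rw [Subgroup.mem_centralizer_singleton_iff]
    have hxc : Commute (d⁻¹ * x * d) c := L.commBC (mem_conjBy.1 hx) hc
    have hdc : Commute d c := hcd.symm
    have := (hdc.mul_left hxc).mul_left hdc.inv_left
    simpa [mul_assoc] using this.eq
  exact (Subgroup.mem_centralizer_singleton_iff.1 (hle (hsup ▸ Subgroup.mem_sup_right hy))).symm

/-- `B ⊔ D` normalizes the line. -/
lemma normalize {x : G} (hx : x ∈ B ⊔ D) : conjBy (A ⊔ C) x = A ⊔ C := by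
  have key : ∀ y : G, (y ∈ B ∨ y ∈ D) → conjBy (A ⊔ C) y ≤ A ⊔ C := by
    intro y hy
    rw [conjBy_sup, sup_le_iff]
    constructor <;> intro z hz <;> have hz' := mem_conjBy.1 hz
    · rcases hy with hy | hy
      · have := mul_mem (Subgroup.mem_sup_right (S := A) (L.alpha_mem hz' hy))
          (Subgroup.mem_sup_left (T := C) hz')
        simpa [mul_assoc] using this
      · have := L.commDA hy hz'
        have e : z = y⁻¹ * z * y := by
          calc z = y * (y⁻¹ * z * y) * y⁻¹ := by simp [mul_assoc]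
            _ = y⁻¹ * z * y := by rw [this]; simp
        rw [e]; exact Subgroup.mem_sup_left hz'
    · rcases hy with hy | hy
      · have := L.commBC hy hz'
        have e : z = y⁻¹ * z * y := by
          calc z = y * (y⁻¹ * z * y) * y⁻¹ := by simp [mul_assoc]
            _ = y⁻¹ * z * y := by rw [this]; simp
        rw [e]; exact Subgroup.mem_sup_right hz'
      · have := mul_mem (Subgroup.mem_sup_left (T := C) (L.delta_mem hz' hy))
          (Subgroup.mem_sup_right (S := A) hz')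
        simpa [mul_assoc] using this
  apply mem_normalizer_iff_conjBy.1
  have hle : ∀ P : Subgroup G, (∀ y ∈ P, y ∈ B ∨ y ∈ D) →
      P ≤ Subgroup.normalizer ((A ⊔ C : Subgroup G) : Set G) := by
    intro P hP y hy
    rw [mem_normalizer_iff_conjBy]
    refine le_antisymm (key y (hP y hy)) ?_
    have := conjBy_mono (key y⁻¹ (hP _ (inv_mem hy))) y
    rwa [conjBy_conjBy, mul_inv_cancel, conjBy_one] at this
  exact sup_le (hle B fun y hy => Or.inl hy) (hle D fun y hy => Or.inr hy) hx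

lemma fix_B : (A ⊔ C) ⊓ Subgroup.centralizer (B : Set G) = C := by
  refine le_antisymm ?_ (le_inf le_sup_right fun c hc =>
    Subgroup.mem_centralizer_iff.2 fun b hb => L.commBC hb hc)
  rintro x ⟨hx, hxB⟩
  obtain ⟨a, ha, c, hc, rfl⟩ := L.mem_sup hx
  obtain ⟨b, hb, hb1⟩ := ne_one_exists (L.hS.ne_bot B L.hB)
  have h : Commute b (a * c) := Subgroup.mem_centralizer_iff.1 hxB b hb
  have h2 : Commute b c := L.commBC hb hc
  have h3 := h.mul_right h2.inv_right
  rw [mul_inv_cancel_right] at h3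
  rw [L.injA ha hb hb1 h3.symm.eq, one_mul]
  exact hc

lemma fix_D : (A ⊔ C) ⊓ Subgroup.centralizer (D : Set G) = A := by
  refine le_antisymm ?_ (le_inf le_sup_left fun a ha =>
    Subgroup.mem_centralizer_iff.2 fun d hd => L.commDA hd ha)
  rintro x ⟨hx, hxD⟩
  obtain ⟨a, ha, c, hc, rfl⟩ := L.mem_sup hx
  obtain ⟨d, hd, hd1⟩ := ne_one_exists (L.hS.ne_bot D L.hD)
  have h : Commute d (a * c) := Subgroup.mem_centralizer_iff.1 hxD d hd
  have h2 : Commute d a := L.commDA hd ha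
  have h3 := h2.inv_right.mul_right h
  rw [inv_mul_cancel_left] at h3
  rw [L.injC hc hd hd1 h3.symm.eq, mul_one]
  exact ha

lemma fix_conj (P : Subgroup G) {x : G} (hx : x ∈ B ⊔ D) :
    conjBy ((A ⊔ C) ⊓ Subgroup.centralizer (P : Set G)) x =
      (A ⊔ C) ⊓ Subgroup.centralizer (conjBy P x : Set G) := by
  rw [conjBy_inf, L.normalize hx, conjBy_centralizer]

lemma conjA_mem {x : G} (hx : x ∈ B ⊔ D) :
    conjBy A x = C ∨ ∃ b ∈ B, conjBy A x = conjBy A b := by
  have hfix : conjBy A x = (A ⊔ C) ⊓ Subgroup.centralizer (conjBy D x : Set G) := by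
    conv_lhs => rw [← L.fix_D]
    exact L.fix_conj D hx
  rcases unipotent_cases L.pair (conjBy_mem_unipotent (right_mem_unipotent L.pair) hx) with e | ⟨b, hb, e⟩
  · left; rw [hfix, e, L.fix_B]
  · right
    refine ⟨b, hb, ?_⟩
    rw [hfix, e, ← L.fix_conj D (Subgroup.mem_sup_left hb), L.fix_D]

lemma conjC_eq : ∃ y ∈ B ⊔ D, conjBy A y = C := by
  obtain ⟨y, hy, hy1, -⟩ := unipotent_to_pair L.pair (right_mem_unipotent L.pair)
    (left_mem_unipotent B D) L.pair.ne.symm
  refine ⟨y, hy, ?_⟩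
  conv_lhs => rw [← L.fix_D]
  rw [L.fix_conj D hy, hy1, L.fix_B]

end LineData

end Cfsg.Agent.H92
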