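import Cfsg.Agent.H92.RootNondegen

/-! Lines, opposition and centralizers in classes of abstract root subgroups. -/

set_option autoImplicit false

namespace Cfsg.Agent.H92

open Cfsg
open scoped commutatorElement

variable {G : Type*} [Group G] {S : Set (Subgroup G)} {A B C D E F W X Y Z : Subgroup G}

lemma linePartners_symm (hA : A ∈ S) (h : B ∈ linePartners S A) : A ∈ linePartners S B := by
  obtain ⟨⟨hB, hne, hc⟩, hp⟩ := h
  exact ⟨⟨hA, hne.symm, by rw [Subgroup.commutator_comm]; exact hc⟩, by rw [sup_comm]; exact hp⟩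

/-- `Z ∈ Λ_Y` and `X ∈ Ω_Y` never commute. -/
lemma line_not_commute (hS : IsRootSubgroupSet S) (hY : Y ∈ S) (hX : X ∈ rankOnePartners S Y)
    (hZ : Z ∈ linePartners S Y) : ⁅X, Z⁆ ≠ ⊥ := by
  intro h
  obtain ⟨y, hy, hy1⟩ := ne_one_exists (hS.ne_bot Y hY)
  obtain ⟨t, ht, ht1⟩ := ne_one_exists (hS.ne_bot Z hZ.1.1)
  have hc : y * t = t * y := commute_of_commutator_eq_bot hZ.1.2.2 hy ht
  have hab1 : y * t ≠ 1 := fun e => by
    have : t ∈ Y := by rw [eq_inv_of_mul_eq_one_right e]; exact inv_mem hy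
    exact hZ.1.2.1 (root_TI hS hY hX hZ.1.1 this ht ht1)
  obtain ⟨E, hE, hEm⟩ :=
    hZ.2.2.1 _ (mul_mem (Subgroup.mem_sup_left hy) (Subgroup.mem_sup_right ht)) hab1
  have hz : t ∈ Subgroup.centralizer ((Y ⊔ X : Subgroup G) : Set G) := by
    have : Y ⊔ X ≤ Subgroup.centralizer {t} := sup_le
      (fun x hx => Subgroup.mem_centralizer_singleton_iff.2
        (commute_of_commutator_eq_bot hZ.1.2.2 hx ht))
      (fun x hx => Subgroup.mem_centralizer_singleton_iff.2 (commute_of_commutator_eq_bot h hx ht))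
    exact Subgroup.mem_centralizer_iff.2 fun x hx =>
      Subgroup.mem_centralizer_singleton_iff.1 (this hx)
  rw [member_eq_of_mem hS hY hX hE.1 hz hy hy1 (hc ▸ hEm)] at hEm
  have : t ∈ Y := by simpa using mul_mem (inv_mem hy) hEm
  exact hZ.1.2.1 (root_TI hS hY hX hZ.1.1 this ht ht1)

/-- A centre of a line: a point `T ≠ A` such that `(A, ⁅E, T⁆)` is in commutator case with commutator `T`,
spanning the line. -/
lemma exists_line_center (hS : IsRootSubgroupSet S) (hF : ∀ Q ∈ S, ¬ IsIsolatedIn (FAdj S) S Q)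
    (hA : A ∈ S) (hC : C ∈ linePartners S A) (hE : E ∈ rankOnePartners S A) :
    ∃ T, T ∈ S ∧ T ≠ A ∧ T ≤ A ⊔ C ∧ ⁅A, T⁆ = ⊥ ∧ LineData S T E ⁅E, T⁆ A ∧ A ⊔ T = A ⊔ C ∧
      membersIn S (A ⊔ C) = (fun f : G => conjBy A f) '' (⁅E, T⁆ : Subgroup G) ∪ {T} := by
  obtain ⟨T, hT, hnr⟩ := line_not_all_opposite hS hA hE hC
  have hTA : T ≠ A := fun e => hnr (e ▸ hE.2)
  have hcomA : ∀ a ∈ A, ∀ x ∈ A ⊔ C, a * x = x * a := by
    intro a ha x hx
    have : A ⊔ C ≤ Subgroup.centralizer {a} := sup_le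
      (fun y hy => Subgroup.mem_centralizer_singleton_iff.2 (root_comm hS hA hy ha))
      (fun y hy => Subgroup.mem_centralizer_singleton_iff.2
        (commute_of_commutator_eq_bot hC.1.2.2 ha hy).symm)
    exact (Subgroup.mem_centralizer_singleton_iff.1 (this hx)).symm
  have hAT : ⁅A, T⁆ = ⊥ := commutator_eq_bot_of_commute fun a ha t ht => hcomA a ha t (hT.2 ht)
  obtain ⟨t, ht, ht1⟩ := ne_one_exists (hS.ne_bot T hT.1)
  rcases hS.pair E hE.1 T hT.1 with h | h | h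
  · exfalso
    obtain ⟨a, ha, ha1⟩ := ne_one_exists (hS.ne_bot A hA)
    have hat : a * t = t * a := hcomA a ha t (hT.2 ht)
    have hab1 : a * t ≠ 1 := fun e => by
      have : t ∈ A := by rw [eq_inv_of_mul_eq_one_right e]; exact inv_mem ha
      exact hTA (root_TI hS hA hE hT.1 this ht ht1)
    obtain ⟨R, hR, hRm⟩ := hC.2.2.1 _ (mul_mem (Subgroup.mem_sup_left ha) (hT.2 ht)) hab1
    have hz : t ∈ Subgroup.centralizer ((A ⊔ E : Subgroup G) : Set G) := by
      have : A ⊔ E ≤ Subgroup.centralizer {t} := sup_le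
        (fun x hx => Subgroup.mem_centralizer_singleton_iff.2 (commute_of_commutator_eq_bot hAT hx ht))
        (fun x hx => Subgroup.mem_centralizer_singleton_iff.2 (commute_of_commutator_eq_bot h hx ht))
      exact Subgroup.mem_centralizer_iff.2 fun x hx =>
        Subgroup.mem_centralizer_singleton_iff.1 (this hx)
    rw [member_eq_of_mem hS hA hE hR.1 hz ha ha1 (hat ▸ hRm)] at hRm
    have : t ∈ A := by simpa using mul_mem (inv_mem ha) hRm
    exact hTA (root_TI hS hA hE hT.1 this ht ht1)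
  · exact absurd (RankOnePair_symm h) hnr
  obtain ⟨Q, hQ⟩ := exists_partner_of_not_isolated hT.1 (hF T hT.1)
  have L := lineData_of_superline hS hA hE hC.2 le_sup_left hT.2 hT.1 hTA hAT hQ h
  have hmem := rcc_membersIn hS hA hE L.h2
  rw [L.eA] at hmem
  have hpart := rcc_partition hS hA hE L.h2
  rw [L.eA] at hpart
  have hspan : A ⊔ T = A ⊔ C := by
    refine le_antisymm (sup_le le_sup_left hT.2) (sup_le le_sup_left ?_)
    have h2 : ∃ a ∈ A, ∃ c ∈ C, a * c = t := by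
      have hn : A ≤ Subgroup.normalizer (C : Set G) := fun a ha =>
        mem_normalizer_iff_conjBy.2 (centralizer_conjBy (H := C)
          (Subgroup.mem_centralizer_iff.2 fun y hy =>
            (commute_of_commutator_eq_bot hC.1.2.2 ha hy).symm) le_rfl)
      have := hT.2 ht
      rw [← SetLike.mem_coe, Subgroup.coe_mul_of_left_le_normalizer_right _ _ hn] at this
      exact this
    obtain ⟨a, ha, c, hc, e⟩ := h2
    have hc1 : c ≠ 1 := fun e' => by
      rw [e', mul_one] at e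
      exact hTA (root_TI hS hA hE hT.1 (e ▸ ha) ht ht1)
    have hcm : c ∈ A ⊔ T := by
      have : c = a⁻¹ * t := by rw [← e, inv_mul_cancel_left]
      rw [this]
      exact mul_mem (Subgroup.mem_sup_left (inv_mem ha)) (Subgroup.mem_sup_right ht)
    obtain ⟨R, hR, hRm⟩ := hpart.2.1 c hcm hc1
    obtain ⟨QC, hQC⟩ := exists_partner_of_not_isolated hC.1.1 (hF C hC.1.1)
    rw [root_TI hS hC.1.1 hQC hR.1 hc hRm hc1] at hR
    exact hR.2
  exact ⟨T, hT.1, hTA, hT.2, hAT, L, hspan, hspan ▸ hmem⟩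

/-- The generated group of the members normalizing a line. -/
def lineNormalizer (S : Set (Subgroup G)) (N : Subgroup G) : Subgroup G :=
  ⨆ E ∈ normalizingMembers S N, E

/-- Stabilizer transitivity on a line, provided by a centre. -/
lemma line_center_move (hS : IsRootSubgroupSet S) (hF : ∀ Q ∈ S, ¬ IsIsolatedIn (FAdj S) S Q)
    (hA : A ∈ S) (hC : C ∈ linePartners S A) (hE : E ∈ rankOnePartners S A) :
    ∃ T ∈ membersIn S (A ⊔ C), T ≠ A ∧ RootCommutatorCase S E T ∧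
      ∀ U ∈ membersIn S (A ⊔ C), ∀ V ∈ membersIn S (A ⊔ C), U ≠ T → V ≠ T →
        ∃ x ∈ lineNormalizer S (A ⊔ C), conjBy T x = T ∧ conjBy U x = V := by
  obtain ⟨T, hTS, hTA, hTle, -, L, hspan, hmem⟩ := exists_line_center hS hF hA hC hE
  refine ⟨T, ⟨hTS, hTle⟩, hTA, rcc_symm L.h1, ?_⟩
  intro U hU V hV hUT hVT
  rw [hmem] at hU hV
  obtain ⟨f, hf, rfl⟩ := hU.resolve_right hUT
  obtain ⟨f', hf', rfl⟩ := hV.resolve_right hVT
  have hnm : ⁅E, T⁆ ∈ normalizingMembers S (A ⊔ C) := by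
    refine ⟨L.hC, fun x hx => ?_⟩
    rw [← hspan, mem_normalizer_iff_conjBy]
    have hTx : conjBy T x = T := centralizer_conjBy (H := T)
      (Subgroup.mem_centralizer_iff.2 fun t ht => L.commAC ht hx) le_rfl
    have hle : ∀ y ∈ ⁅E, T⁆, conjBy (A ⊔ T) y ≤ A ⊔ T := by
      intro y hy
      rw [conjBy_sup, centralizer_conjBy (H := T)
        (Subgroup.mem_centralizer_iff.2 fun t ht => L.commAC ht hy) le_rfl]
      refine sup_le ?_ le_sup_right
      have := rcc_conj_le (A := A) hy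
      rwa [L.eA] at this
    refine le_antisymm (hle x hx) ?_
    have := conjBy_mono (hle x⁻¹ (inv_mem hx)) x
    rwa [conjBy_conjBy, mul_inv_cancel, conjBy_one] at this
  refine ⟨f' * f⁻¹, ?_, ?_, by rw [conjBy_conjBy, inv_mul_cancel_right]⟩
  · exact le_iSup₂ (f := fun E (_ : E ∈ normalizingMembers S (A ⊔ C)) => E) _ hnm
      (mul_mem hf' (inv_mem hf))
  · exact centralizer_conjBy (H := T)
      (Subgroup.mem_centralizer_iff.2 fun t ht => L.commAC ht (mul_mem hf' (inv_mem hf))) le_rfl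

/-- Two members on a line span it. -/
lemma line_span (hS : IsRootSubgroupSet S) (hF : ∀ Q ∈ S, ¬ IsIsolatedIn (FAdj S) S Q)
    (hA : A ∈ S) (hC : C ∈ linePartners S A) {U : Subgroup G} (hU : U ∈ membersIn S (A ⊔ C))
    (hUA : U ≠ A) : U ∈ linePartners S A ∧ A ⊔ U = A ⊔ C := by
  obtain ⟨E, hE⟩ := exists_partner_of_not_isolated hA (hF A hA)
  obtain ⟨T, hTS, hTA, hTle, hAT, L, hspan, hmem⟩ := exists_line_center hS hF hA hC hE
  have hU' := hU
  rw [hmem] at hU'
  have e : A ⊔ U = A ⊔ C := by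
    rw [← hspan]
    rcases hU' with ⟨f, hf, rfl⟩ | rfl
    · by_cases hf1 : f = 1
      · exact absurd (by simp [hf1, conjBy_one]) hUA
      · have := rcc_line_span L.h2 hf hf1
        rwa [L.eA] at this
    · rfl
  refine ⟨⟨⟨hU.1, hUA, ?_⟩, e ▸ hC.2⟩, e⟩
  refine commutator_eq_bot_of_commute fun a ha x hx => ?_
  have : A ⊔ C ≤ Subgroup.centralizer {a} := sup_le
    (fun y hy => Subgroup.mem_centralizer_singleton_iff.2 (root_comm hS hA hy ha))
    (fun y hy => Subgroup.mem_centralizer_singleton_iff.2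
      (commute_of_commutator_eq_bot hC.1.2.2 ha hy).symm)
  exact (Subgroup.mem_centralizer_singleton_iff.1 (this (hU.2 hx))).symm

/-- The members on a line are permuted by the line normalizer. -/
lemma lineNormalizer_perm (hS : IsRootSubgroupSet S) {N U : Subgroup G} (hU : U ∈ membersIn S N)
    {x : G} (hx : x ∈ lineNormalizer S N) : conjBy U x ∈ membersIn S N := by
  refine ⟨hS.conj_mem U hU.1 x, ?_⟩
  have : x ∈ Subgroup.normalizer (N : Set G) := (iSup₂_le fun E hE => hE.2 : lineNormalizer S N ≤ _) hx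
  exact (conjBy_mono hU.2 x).trans (mem_normalizer_iff_conjBy.1 this).le

/-- A line carries a point different from any two given ones. -/
lemma line_third (hS : IsRootSubgroupSet S) (hF : ∀ Q ∈ S, ¬ IsIsolatedIn (FAdj S) S Q)
    (hA : A ∈ S) (hC : C ∈ linePartners S A) (U V : Subgroup G) :
    ∃ R ∈ membersIn S (A ⊔ C), R ≠ U ∧ R ≠ V := by
  obtain ⟨E, hE⟩ := exists_partner_of_not_isolated hA (hF A hA)
  obtain ⟨T, hTS, hTA, hTle, -, L, hspan, hmem⟩ := exists_line_center hS hF hA hC hE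
  obtain ⟨f, hf, hf1⟩ := ne_one_exists (hS.ne_bot _ L.hC)
  have hfix : conjBy T f⁻¹ = T := centralizer_conjBy (H := T)
    (Subgroup.mem_centralizer_iff.2 fun t ht => L.commAC ht (inv_mem hf)) le_rfl
  have m1 : conjBy A f ∈ membersIn S (A ⊔ C) := by rw [hmem]; exact Or.inl ⟨f, hf, rfl⟩
  have n1 : conjBy A f ≠ T := fun e => by
    have h5 := congrArg (fun K => conjBy K f⁻¹) e
    rw [conjBy_conjBy, inv_mul_cancel, conjBy_one, hfix] at h5
    exact hTA h5.symm
  have n2 : conjBy A f ≠ A := fun e => by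
    have h5 := rcc_line_span L.h2 hf hf1
    rw [e, sup_idem, L.eA] at h5
    obtain ⟨t, ht, ht1⟩ := ne_one_exists (hS.ne_bot T hTS)
    have hle : T ≤ A := by rw [h5]; exact le_sup_right
    exact hTA (root_TI hS hA hE hTS (hle ht) ht ht1)
  by_contra hcon
  push Not at hcon
  have a1 := hcon A ⟨hA, le_sup_left⟩
  have a2 := hcon T ⟨hTS, hTle⟩
  have a3 := hcon _ m1
  by_cases hu : A = U
  · have e2 := a2 (fun e => hTA (e.trans hu.symm))
    have e3 := a3 (fun e => n2 (e.trans hu.symm))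
    exact n1 (e3.trans e2.symm)
  · have e1 := a1 hu
    by_cases hu2 : T = U
    · exact n2 ((a3 (fun e => n1 (e.trans hu2.symm))).trans e1.symm)
    · exact hTA ((a2 hu2).trans e1.symm)

/-- The stabilizer of any point is transitive on the other points of a line. -/
lemma line_stab_transitive (hS : IsRootSubgroupSet S) (hF : ∀ Q ∈ S, ¬ IsIsolatedIn (FAdj S) S Q)
    (hA : A ∈ S) (hC : C ∈ linePartners S A) :
    ∀ R ∈ membersIn S (A ⊔ C), ∀ U ∈ membersIn S (A ⊔ C), ∀ V ∈ membersIn S (A ⊔ C), U ≠ R → V ≠ R →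
        ∃ x ∈ lineNormalizer S (A ⊔ C), conjBy R x = R ∧ conjBy U x = V := by
  obtain ⟨E, hE⟩ := exists_partner_of_not_isolated hA (hF A hA)
  obtain ⟨T, hT, hTA, -, hT'⟩ := line_center_move hS hF hA hC hE
  intro R hR U hU V hV hUR hVR
  by_cases hRT : R = T
  · subst hRT; exact hT' U hU V hV hUR hVR
  obtain ⟨EA, hEA⟩ := exists_partner_of_not_isolated hT.1 (hF T hT.1)
  have hAmem : A ∈ membersIn S (A ⊔ C) := ⟨hA, le_sup_left⟩
  obtain ⟨hTl, hTspan⟩ := line_span hS hF hA hC hT hTA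
  have hAT : A ∈ linePartners S T := linePartners_symm hA hTl
  obtain ⟨T', hT'm, hT'T, -, hT''⟩ := line_center_move hS hF hT.1 hAT hEA
  rw [sup_comm, hTspan] at hT'm hT''
  -- move `T` to `R`
  obtain ⟨g, hg, hgT⟩ : ∃ g ∈ lineNormalizer S (A ⊔ C), conjBy T g = R := by
    by_cases hRT' : R = T'
    · obtain ⟨P, hPS, hPT, hPT'⟩ := line_third hS hF hA hC T T'
      obtain ⟨g1, hg1, -, e1⟩ := hT'' T hT P hPS hT'T.symm hPT'
      obtain ⟨g2, hg2, -, e2⟩ := hT' P hPS R hR hPT hRT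
      exact ⟨g2 * g1, mul_mem hg2 hg1, by rw [← conjBy_conjBy, e1, e2]⟩
    · obtain ⟨g, hg, -, e⟩ := hT'' T hT R hR hT'T.symm hRT'
      exact ⟨g, hg, e⟩
  have back : ∀ P, P ∈ membersIn S (A ⊔ C) → P ≠ R →
      conjBy P g⁻¹ ∈ membersIn S (A ⊔ C) ∧ conjBy P g⁻¹ ≠ T := fun P hP hne =>
    ⟨lineNormalizer_perm hS hP (inv_mem hg), fun e => hne (by
      rw [← hgT, ← e, conjBy_conjBy, mul_inv_cancel, conjBy_one])⟩
  obtain ⟨x, hx, x1, x2⟩ := hT' _ (back U hU hUR).1 _ (back V hV hVR).1 (back U hU hUR).2 (back V hV hVR).2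
  refine ⟨g * x * g⁻¹, mul_mem (mul_mem hg hx) (inv_mem hg), ?_, ?_⟩
  · rw [← hgT, conjBy_conjBy, inv_mul_cancel_right, ← conjBy_conjBy, x1]
  · rw [← conjBy_conjBy, ← conjBy_conjBy, x2, conjBy_conjBy, mul_inv_cancel, conjBy_one]

/-- Double transitivity on a line. -/
lemma line_two_transitive (hS : IsRootSubgroupSet S) (hF : ∀ Q ∈ S, ¬ IsIsolatedIn (FAdj S) S Q)
    (hA : A ∈ S) (hC : C ∈ linePartners S A) {C₁ C₂ D₁ D₂ : Subgroup G}
    (h1 : C₁ ∈ membersIn S (A ⊔ C)) (h2 : C₂ ∈ membersIn S (A ⊔ C)) (h3 : D₁ ∈ membersIn S (A ⊔ C))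
    (h4 : D₂ ∈ membersIn S (A ⊔ C)) (hne : C₁ ≠ C₂) (hne' : D₁ ≠ D₂) :
    ∃ x ∈ lineNormalizer S (A ⊔ C), conjBy C₁ x = D₁ ∧ conjBy C₂ x = D₂ := by
  have st := line_stab_transitive hS hF hA hC
  have trans : ∀ U ∈ membersIn S (A ⊔ C), ∀ V ∈ membersIn S (A ⊔ C),
      ∃ x ∈ lineNormalizer S (A ⊔ C), conjBy U x = V := by
    intro U hU V hV
    obtain ⟨R, hR, r1, r2⟩ := line_third hS hF hA hC U V
    obtain ⟨x, hx, -, e⟩ := st R hR U hU V hV r1.symm r2.symm
    exact ⟨x, hx, e⟩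
  obtain ⟨g, hg, e⟩ := trans C₁ h1 D₁ h3
  have hmem := lineNormalizer_perm hS h2 hg
  obtain ⟨x, hx, x1, x2⟩ := st D₁ h3 _ hmem D₂ h4
    (fun h => hne (conjBy_injective (e.trans h.symm))) hne'.symm
  exact ⟨x * g, mul_mem hx hg, by rw [← conjBy_conjBy, e, x1], by rw [← conjBy_conjBy, x2]⟩

end Cfsg.Agent.H92
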