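import Cfsg.Agent.H92.RootLine
import Cfsg.Agent.H92.RootComponents

/-! Lines through a member meeting the commutator partners of an opposite member. -/

set_option autoImplicit false

namespace Cfsg.Agent.H92

open Cfsg
open scoped commutatorElement

variable {G : Type*} [Group G] {S : Set (Subgroup G)} {A B C D E F : Subgroup G}

/-- `⁅D, A⁆ = 1` cannot hold for all members of a rank one orbit unless trivial: if `A` centralizes
`C` and `F = ⁅B, C⁆` is centralized by `A` and `B`, then `F = 1`. -/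
lemma rankOne_transfer_trivial (hAB : IsRankOnePair A B) (hAC : ∀ a ∈ A, ∀ c ∈ C, a * c = c * a)
    (hF : ∀ f ∈ ⁅B, C⁆, ∀ x ∈ A ⊔ B, x * f = f * x) : ⁅B, C⁆ = ⊥ := by
  apply commutator_eq_bot_of_commute
  intro b hb c hc
  obtain ⟨g, hg, e⟩ := right_mem_unipotent hAB
  have mem : ∀ x ∈ A ⊔ B, x * c * x⁻¹ * c⁻¹ ∈ ⁅B, C⁆ := by
    intro x hx
    rw [← Subgroup.closure_eq A, ← Subgroup.closure_eq B, ← Subgroup.closure_union] at hx
    induction hx using Subgroup.closure_induction with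
    | mem z hz =>
      rcases hz with hz | hz
      · rw [hAC z hz c hc]; simp
      · exact Subgroup.commutator_mem_commutator hz hc
    | one => simp
    | mul z w hz hw ihz ihw =>
      have hzw : z * (w * c * w⁻¹ * c⁻¹) * z⁻¹ = w * c * w⁻¹ * c⁻¹ := by
        rw [hF _ ihw z (by rwa [Subgroup.closure_union, Subgroup.closure_eq, Subgroup.closure_eq] at hz)]
        simp
      have : z * w * c * (z * w)⁻¹ * c⁻¹ = (w * c * w⁻¹ * c⁻¹) * (z * c * z⁻¹ * c⁻¹) := by
        conv_rhs => rw [← hzw]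
        simp [mul_assoc]
      rw [this]; exact mul_mem ihw ihz
    | inv z hz ih =>
      have hz' : z ∈ A ⊔ B := by rwa [Subgroup.closure_union, Subgroup.closure_eq, Subgroup.closure_eq] at hz
      have h1 : z⁻¹ * (z * c * z⁻¹ * c⁻¹) * z = z * c * z⁻¹ * c⁻¹ := by
        rw [mul_assoc, ← hF _ ih z hz', inv_mul_cancel_left]
      have : z⁻¹ * c * z⁻¹⁻¹ * c⁻¹ = (z * c * z⁻¹ * c⁻¹)⁻¹ := by
        conv_rhs => rw [← h1]
        simp [mul_assoc]
      rw [this]; exact inv_mem ih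
  obtain ⟨a, ha, ea⟩ : ∃ a ∈ A, b = g * a * g⁻¹ :=
    ⟨g⁻¹ * b * g, mem_conjBy.1 (e ▸ hb), by simp [mul_assoc]⟩
  set f := g⁻¹ * c * g⁻¹⁻¹ * c⁻¹ with hf
  have hfm : f ∈ ⁅B, C⁆ := mem g⁻¹ (inv_mem hg)
  have h2 : Commute a (f * c) :=
    Commute.mul_right (hF f hfm a (Subgroup.mem_sup_left ha)) (hAC a ha c hc)
  have h3 : g⁻¹ * c * g = f * c := by simp [hf]
  have h4 : g * (f * c) * g⁻¹ = c := by rw [← h3]; simp [mul_assoc]
  calc b * c = (g * a * g⁻¹) * (g * (f * c) * g⁻¹) := by rw [h4, ea]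
    _ = g * (a * (f * c)) * g⁻¹ := by simp [mul_assoc]
    _ = g * ((f * c) * a) * g⁻¹ := by rw [h2.eq]
    _ = (g * (f * c) * g⁻¹) * (g * a * g⁻¹) := by simp [mul_assoc]
    _ = c * b := by rw [h4, ea]

/-- A commuting member of `A` on a line through `A` and in commutator case with `B ∈ Ω_A` gives line data. -/
lemma lineData_of_superline (hS : IsRootSubgroupSet S) (hA : A ∈ S) (hB : B ∈ rankOnePartners S A)
    {N : Subgroup G} (hpart : IsSubgroupPartition N (membersIn S N)) (hAN : A ≤ N) (hCN : C ≤ N)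
    (hCS : C ∈ S) (hCA : C ≠ A) (hcom : ⁅A, C⁆ = ⊥) (hP : D ∈ rankOnePartners S C) (hcc : RootCommutatorCase S B C) :
    LineData S C B ⁅B, C⁆ A := by
  have hac : ∀ x ∈ A, ∀ y ∈ C, x * y = y * x := fun x hx y hy =>
    commute_of_commutator_eq_bot hcom hx hy
  have hnotA : ¬ IsRankOnePair A ⁅B, C⁆ := by
    intro h
    obtain ⟨a, ha, ha1⟩ := ne_one_exists (hS.ne_bot A hA)
    obtain ⟨c, hc, hc1⟩ := ne_one_exists (hS.ne_bot C hCS)
    have hab1 : a * c ≠ 1 := fun e =>
      hCA (root_TI hS hA hB hCS (x := c) (by rw [eq_inv_of_mul_eq_one_right e]; exact inv_mem ha) hc hc1)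
    obtain ⟨T, hT, hTm⟩ :=
      hpart.2.1 _ (mul_mem (hAN ha) (hCN hc)) hab1
    have e := member_eq_of_mem hS hA ⟨hcc.1, h⟩ hT.1 (z := c) ?_ ha ha1 (by rwa [← hac a ha c hc])
    · rw [e] at hTm
      have : c ∈ A := by simpa using mul_mem (inv_mem ha) hTm
      exact hCA (root_TI hS hA hB hCS this hc hc1)
    · have : A ⊔ ⁅B, C⁆ ≤ Subgroup.centralizer {c} := sup_le
        (fun x hx => Subgroup.mem_centralizer_singleton_iff.2 (hac x hx c hc))
        (fun x hx => Subgroup.mem_centralizer_singleton_iff.2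
          (hcc.2.1 x hx c (Subgroup.mem_sup_right hc)))
      exact Subgroup.mem_centralizer_iff.2 fun x hx =>
        Subgroup.mem_centralizer_singleton_iff.1 (this hx)
  rcases hS.pair A hA _ hcc.1 with h | h | h
  · exfalso
    apply hS.ne_bot _ hcc.1
    refine rankOne_transfer_trivial hB.2 hac fun f hf x hx => ?_
    have : A ⊔ B ≤ Subgroup.centralizer {f} := sup_le
      (fun y hy => Subgroup.mem_centralizer_singleton_iff.2 (commute_of_commutator_eq_bot h hy hf))
      (fun y hy => Subgroup.mem_centralizer_singleton_iff.2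
        (hcc.2.1 f hf y (Subgroup.mem_sup_left hy)).symm)
    exact Subgroup.mem_centralizer_singleton_iff.1 (this hx)
  · exact absurd h hnotA
  obtain ⟨a, ha, ha1⟩ := ne_one_exists (hS.ne_bot A hA)
  obtain ⟨c, hc, hc1⟩ := ne_one_exists (hS.ne_bot C hCS)
  obtain ⟨d, hd, hd1, e⟩ := hB.2.cond_left a ha ha1
  set k := d⁻¹ * c * d * c⁻¹ with hk
  have hkF : k ∈ ⁅B, C⁆ := by
    have := Subgroup.commutator_mem_commutator (inv_mem hd) hc
    rwa [commutatorElement_def, inv_inv] at this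
  set u := a * k * a⁻¹ * k⁻¹ with hu
  have huL : u ∈ ⁅A, ⁅B, C⁆⁆ := Subgroup.commutator_mem_commutator ha hkF
  have huA : ∀ x ∈ A, u * x = x * u := fun x hx => h.2.1 u huL x (Subgroup.mem_sup_left hx)
  have huk : u * k = k * u := h.2.1 u huL k (Subgroup.mem_sup_right hkF)
  have hck : k * c = c * k := hcc.2.1 k hkF c (Subgroup.mem_sup_right hc)
  set z := c * u with hz
  have hzA : ∀ x ∈ A, z * x = x * z := fun x hx => by
    rw [hz, mul_assoc, huA x hx, ← mul_assoc, ← hac x hx c hc, mul_assoc]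
  have hzB : ∀ y ∈ B, z * y = y * z := by
    intro y hy
    have hconj : conjBy A (a * d⁻¹) = B := by
      rw [← conjBy_conjBy, e, conjBy_conjBy, mul_inv_cancel, conjBy_one]
    have hym := mem_conjBy.1 (hconj.symm ▸ hy : y ∈ conjBy A (a * d⁻¹))
    set n := a * d⁻¹ with hn
    have h5 : n * c * n⁻¹ = z * k := by
      have h6 : d⁻¹ * c * d = c * k := by rw [← hck, hk]; simp [mul_assoc]
      calc n * c * n⁻¹ = a * (d⁻¹ * c * d) * a⁻¹ := by simp [hn, mul_assoc]
        _ = a * c * k * a⁻¹ := by rw [h6]; simp [mul_assoc]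
        _ = c * (a * k * a⁻¹) := by rw [hac a ha c hc]; simp [mul_assoc]
        _ = z * k := by simp [hz, hu, mul_assoc]
    have h4 : Commute (n * c * n⁻¹) y := by
      have h7 : (n⁻¹ * y * n) * c = c * (n⁻¹ * y * n) := hac _ hym c hc
      show (n * c * n⁻¹) * y = y * (n * c * n⁻¹)
      calc (n * c * n⁻¹) * y = n * (c * (n⁻¹ * y * n)) * n⁻¹ := by simp [mul_assoc]
        _ = n * ((n⁻¹ * y * n) * c) * n⁻¹ := by rw [h7]
        _ = y * (n * c * n⁻¹) := by simp [mul_assoc]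
    rw [h5] at h4
    have h8 : Commute k y := hcc.2.1 k hkF y (Subgroup.mem_sup_left hy)
    have h9 := h4.mul_left h8.inv_left
    rw [mul_inv_cancel_right] at h9
    exact h9.eq
  have hzk : Commute z k := by
    show c * u * k = k * (c * u)
    rw [mul_assoc, huk, ← mul_assoc, ← hck, mul_assoc]
  have hzAB : z ∈ Subgroup.centralizer ((A ⊔ B : Subgroup G) : Set G) := by
    have : A ⊔ B ≤ Subgroup.centralizer {z} := sup_le
      (fun x hx => Subgroup.mem_centralizer_singleton_iff.2 (hzA x hx).symm)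
      (fun x hx => Subgroup.mem_centralizer_singleton_iff.2 (hzB x hx).symm)
    exact Subgroup.mem_centralizer_iff.2 fun x hx =>
      Subgroup.mem_centralizer_singleton_iff.1 (this hx)
  -- the member containing `a * c`
  have hab1 : a * c ≠ 1 := fun e => by
    have : c ∈ A := by rw [eq_inv_of_mul_eq_one_right e]; exact inv_mem ha
    exact hCA (root_TI hS hA hB hCS this hc hc1)
  obtain ⟨T, hT, hTm⟩ :=
    hpart.2.1 _ (mul_mem (hAN ha) (hCN hc)) hab1
  have hkB : conjBy B k = B := centralizer_conjBy (H := B)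
    (Subgroup.mem_centralizer_iff.2 fun y hy => (hcc.2.1 k hkF y (Subgroup.mem_sup_left hy)).symm) le_rfl
  have hua : u⁻¹ * a = k * a * k⁻¹ := by
    calc u⁻¹ * a = k * a * k⁻¹ * a⁻¹ * a := by simp [hu, mul_assoc]
      _ = k * a * k⁻¹ := by simp
  have hzT : z * (k * a * k⁻¹) = a * c := by
    rw [← hua, hz, ← mul_assoc, mul_inv_cancel_right, hac a ha c hc]
  have hzconj : z ∈ Subgroup.centralizer ((conjBy A k ⊔ B : Subgroup G) : Set G) := by
    have : conjBy A k ⊔ B ≤ Subgroup.centralizer {z} := sup_le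
      (fun x hx => by
        rw [Subgroup.mem_centralizer_singleton_iff]
        have hx' : Commute z (k⁻¹ * x * k) := hzA _ (mem_conjBy.1 hx)
        have := (hzk.mul_right hx').mul_right hzk.inv_right
        simpa [mul_assoc] using this.eq.symm)
      (fun x hx => Subgroup.mem_centralizer_singleton_iff.2 (hzB x hx).symm)
    exact Subgroup.mem_centralizer_iff.2 fun x hx =>
      Subgroup.mem_centralizer_singleton_iff.1 (this hx)
  have hTk := member_eq_of_mem hS (hS.conj_mem A hA k) (hkB ▸ rankOne_partner_conj hS hB k) hT.1 hzconj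
    (conj_mem_conjBy ha k) (fun t => ha1 (conj_eq_one_iff.1 t)) (hzT.symm ▸ hTm)
  have hzN : z ∈ N := by
    have h10 : k * a * k⁻¹ ∈ N := hT.2 (hTk ▸ conj_mem_conjBy ha k)
    have h11 : a * c ∈ N := hT.2 hTm
    have : z = (a * c) * (k * a * k⁻¹)⁻¹ := by rw [← hzT, mul_inv_cancel_right]
    rw [this]; exact mul_mem h11 (inv_mem h10)
  have hzone : ∀ {w : G}, w ∈ A → (∀ y ∈ B, w * y = y * w) → w = 1 := fun {w} hw hwB =>
    (Subgroup.eq_bot_iff_forall _).1 (rankOne_inf_normalizer hB.2) w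
      ⟨hw, mem_normalizer_iff_conjBy.2 (centralizer_conjBy (H := B)
        (Subgroup.mem_centralizer_iff.2 fun y hy => (hwB y hy).symm) le_rfl)⟩
  have hz1 : z = 1 := by
    have hza1 : z * a ≠ 1 := fun t => by
      have hzA' : z ∈ A := by rw [eq_inv_of_mul_eq_one_left t]; exact inv_mem ha
      rw [hzone hzA' hzB, one_mul] at t
      exact ha1 t
    obtain ⟨T', hT', hT'm⟩ := hpart.2.1 _ (mul_mem hzN (hAN ha)) hza1
    have e' := member_eq_of_mem hS hA hB hT'.1 hzAB ha ha1 hT'm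
    rw [e'] at hT'm
    have hzA' : z ∈ A := by simpa using mul_mem hT'm (inv_mem ha)
    exact hzone hzA' hzB
  have huc : u = c⁻¹ := eq_inv_of_mul_eq_one_right (hz ▸ hz1)
  have hL : ⁅A, ⁅B, C⁆⁆ = C := by
    refine root_TI hS hCS hP h.1 (x := c⁻¹) (inv_mem hc) (huc ▸ huL) (inv_ne_one.2 hc1)
  exact ⟨hS, hCS, hB.1, hA, Subgroup.commutator_comm C B, hL, rcc_symm hcc, h⟩

/-- A commuting member on a line through `A`, in commutator case with `B ∈ Ω_A`, gives line data. -/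
lemma lineData_of_linePartner (hS : IsRootSubgroupSet S) (hA : A ∈ S) (hB : B ∈ rankOnePartners S A)
    (hC : C ∈ linePartners S A) (hP : D ∈ rankOnePartners S C) (hcc : RootCommutatorCase S B C) :
    LineData S C B ⁅B, C⁆ A :=
  lineData_of_superline hS hA hB hC.2 le_sup_left le_sup_right hC.1.1 hC.1.2.1 hC.1.2.2 hP hcc

/-- In a rank one pair read off from line data, the partners satisfy the special identity. -/
lemma LineData.special (L : LineData S C B F A) : IsSpecialRankOnePair A B := by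
  have hR := RankOnePair_symm L.pair
  refine ⟨hR, fun a ha ha1 b hb _ e => ?_⟩
  obtain ⟨c', hc', hce⟩ : ∃ c' ∈ B, b⁻¹ * a * b = a⁻¹ * c' * a := by
    have := conj_mem_conjBy ha b⁻¹
    rw [e, inv_inv, mem_conjBy, inv_inv] at this
    exact ⟨_, this, by group⟩
  suffices c' * b = 1 by rw [hce, mul_eq_one_iff_eq_inv.1 this]
  by_contra hy1
  obtain ⟨w, hw, hw1⟩ := ne_one_exists (L.hS.ne_bot C L.hA)
  apply hw1
  refine L.injA hw (mul_mem hc' hb) hy1 ?_
  set β := b * w * b⁻¹ * w⁻¹ with hβ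
  have hβF : β ∈ F := L.alpha_mem hw hb
  have bw : b * w * b⁻¹ = β * w := by simp [hβ]
  have cwβ : Commute w β := L.commAC hw hβF
  have caw : Commute a w := L.commDA ha hw
  have cbβ : Commute b β := L.commBC hb hβF
  have biw : b⁻¹ * w * b = β⁻¹ * w := by
    calc b⁻¹ * w * b = b⁻¹ * (β⁻¹ * (β * w)) * b := by simp
      _ = b⁻¹ * β⁻¹ * b * w := by rw [← bw]; simp [mul_assoc]
      _ = β⁻¹ * w := by rw [(cbβ.inv_left.inv_right).eq, inv_mul_cancel_right]
  set γ := a * β * a⁻¹ * β⁻¹ with hγ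
  have hγC : γ ∈ C := L.delta_mem hβF ha
  have hγw : γ = w := by
    have h1 : ∀ y ∈ B, y * (a * (b⁻¹ * w * b) * a⁻¹) = (a * (b⁻¹ * w * b) * a⁻¹) * y := by
      intro y hy
      have hy' := conj_mem_conjBy hy a⁻¹
      rw [← e, mem_conjBy, inv_inv, inv_inv] at hy'
      have := L.commDA hy' hw
      have h2 := congrArg (fun t => a * (b⁻¹ * t * b) * a⁻¹) this
      simpa [mul_assoc] using h2
    have h2 : a * (b⁻¹ * w * b) * a⁻¹ = β⁻¹ * (γ⁻¹ * w) := by
      rw [biw]
      calc a * (β⁻¹ * w) * a⁻¹ = (a * β * a⁻¹)⁻¹ * (a * w * a⁻¹) := by simp [mul_assoc]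
        _ = (γ * β)⁻¹ * w := by rw [caw.eq, hγ]; simp [mul_assoc]
        _ = β⁻¹ * (γ⁻¹ * w) := by simp [mul_assoc]
    have h3 : γ⁻¹ * w ∈ (C ⊔ F) ⊓ Subgroup.centralizer (B : Set G) := by
      refine Subgroup.mem_inf.2 ⟨Subgroup.mem_sup_left (mul_mem (inv_mem hγC) hw), ?_⟩
      apply Subgroup.mem_centralizer_iff.2
      intro y hy
      have h5 := h1 y hy
      rw [h2] at h5
      have hc : Commute y β := L.commBC hy hβF
      have h6 : Commute y (β * (β⁻¹ * (γ⁻¹ * w))) := hc.mul_right h5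
      rw [mul_inv_cancel_left] at h6
      exact h6.eq
    rw [L.fix_B] at h3
    have := (Subgroup.eq_bot_iff_forall _).1 L.inf_eq_bot _ (Subgroup.mem_inf.2 ⟨mul_mem (inv_mem hγC) hw, h3⟩)
    rwa [inv_mul_eq_one] at this
  have aβ : a * β * a⁻¹ = w * β := by rw [← hγw, hγ]; simp
  have aw : a * w * a⁻¹ = w := by rw [caw.eq, mul_inv_cancel_right]
  have aiw : a⁻¹ * w * a = w := by rw [mul_assoc, ← caw.eq, inv_mul_cancel_left]
  have key : c' * w * c'⁻¹ = w * β⁻¹ := by
    have hc'eq : c' = a * b⁻¹ * a * b * a⁻¹ := by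
      have h := congrArg (fun t => a * t * a⁻¹) hce
      simp only [mul_assoc] at h ⊢
      simpa [mul_assoc] using h.symm
    have biβ : b⁻¹ * β * b = β := by rw [mul_assoc, ← cbβ.eq, inv_mul_cancel_left]
    calc c' * w * c'⁻¹ = a * (b⁻¹ * (a * (b * (a⁻¹ * w * a) * b⁻¹) * a⁻¹) * b) * a⁻¹ := by
          rw [hc'eq]; simp [mul_assoc]
      _ = a * (b⁻¹ * ((a * β * a⁻¹) * (a * w * a⁻¹)) * b) * a⁻¹ := by
          rw [aiw, bw]; simp [mul_assoc]
      _ = a * ((b⁻¹ * w * b) * (b⁻¹ * β * b) * (b⁻¹ * w * b)) * a⁻¹ := by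
          rw [aβ, aw]; simp [mul_assoc]
      _ = a * (w * (β⁻¹ * w)) * a⁻¹ := by
          rw [biw, biβ, (cwβ.inv_right).symm.eq]; simp [mul_assoc]
      _ = (a * w * a⁻¹) * ((a * β * a⁻¹)⁻¹ * (a * w * a⁻¹)) := by simp [mul_assoc]
      _ = w * β⁻¹ := by
          rw [aw, aβ, mul_inv_rev, inv_mul_cancel_right]
  have cc : Commute c' β := L.commBC hc' hβF
  symm
  rw [← mul_inv_eq_iff_eq_mul]
  calc (c' * b) * w * (c' * b)⁻¹ = c' * (b * w * b⁻¹) * c'⁻¹ := by simp [mul_assoc]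
    _ = c' * β * c'⁻¹ * (c' * w * c'⁻¹) := by rw [bw]; simp [mul_assoc]
    _ = w := by
      rw [cc.eq, mul_inv_cancel_right, key, ← mul_assoc, ← cwβ.eq, mul_inv_cancel_right]

/-- On a line through `A` some member is no rank one partner of `B ∈ Ω_A`. -/
lemma line_not_all_opposite (hS : IsRootSubgroupSet S) (hA : A ∈ S) (hB : B ∈ rankOnePartners S A)
    (hC : C ∈ linePartners S A) :
    ∃ T ∈ membersIn S (A ⊔ C), ¬ IsRankOnePair T B := by
  by_contra hcon
  push Not at hcon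
  obtain ⟨⟨hCS, hCA, hcom⟩, hpart⟩ := hC
  obtain ⟨b, hb, hb1⟩ := ne_one_exists (hS.ne_bot B hB.1)
  obtain ⟨a, ha, ha1, ea⟩ := hB.2.cond_right b hb hb1
  obtain ⟨c, hc, hc1, ec⟩ := (hcon C ⟨hCS, le_sup_right⟩).cond_right b hb hb1
  have hne : a * c⁻¹ ≠ 1 := fun e => by
    rw [mul_inv_eq_one] at e
    exact hCA (root_TI hS hA hB hCS ha (e ▸ hc) ha1)
  obtain ⟨T, hT, hTm⟩ :=
    hpart.2.1 _ (mul_mem (Subgroup.mem_sup_left ha) (Subgroup.mem_sup_right (inv_mem hc))) hne
  have hR := hcon T hT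
  have hbot : ⁅conjBy B a⁻¹, conjBy B c⁻¹⁆ = ⊥ := by
    rw [ea, ec, ← conjBy_commutator, hcom, conjBy_bot]
  have h2 : ⁅B, conjBy B (a * c⁻¹)⁆ = ⊥ := by
    apply conjBy_injective (g := a⁻¹)
    rw [conjBy_bot, conjBy_commutator, conjBy_conjBy B (a * c⁻¹), inv_mul_cancel_left]
    exact hbot
  have hne2 : B ≠ conjBy B (a * c⁻¹) := fun e => hne
    ((Subgroup.eq_bot_iff_forall _).1 (rankOne_inf_normalizer hR) _
      ⟨hTm, mem_normalizer_iff_conjBy.2 e.symm⟩)
  have hR' := RankOnePair_symm hR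
  have hgen := unipotent_pair hR' (left_mem_unipotent B T)
    (conjBy_mem_unipotent (left_mem_unipotent B T) (Subgroup.mem_sup_right hTm)) hne2
  apply rankOne_right_ne_bot hR'
  rw [← le_bot_iff, ← rankOne_inf_normalizer' hR']
  refine le_inf le_rfl fun t ht => ?_
  have hmem : t ∈ B ⊔ conjBy B (a * c⁻¹) := hgen.symm ▸ Subgroup.mem_sup_right ht
  refine (sup_le Subgroup.le_normalizer ?_) hmem
  intro y hy
  exact mem_normalizer_iff_conjBy.2 (centralizer_conjBy (H := B)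
    (Subgroup.mem_centralizer_iff.2 fun x hx => commute_of_commutator_eq_bot h2 hx hy) le_rfl)

/-- In the commutator case the line through `A` is spanned by `A` and any other member on it. -/
lemma rcc_line_span (hcc : RootCommutatorCase S A B) {b : G} (hb : b ∈ B) (hb1 : b ≠ 1) :
    A ⊔ conjBy A b = A ⊔ ⁅A, B⁆ := by
  refine le_antisymm (sup_le le_sup_left (rcc_conj_le hb)) (sup_le le_sup_left ?_)
  intro f hf
  obtain ⟨a, ha, e⟩ := rcc_surj (rcc_symm hcc) hb hb1 (c := f) (by rwa [Subgroup.commutator_comm])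
  rw [← e]
  exact mul_mem (Subgroup.mem_sup_right (conj_mem_conjBy ha b)) (Subgroup.mem_sup_left (inv_mem ha))

/-- All members of a non-degenerate class are non-isolated. -/
lemma class_partner (hS : IsRootSubgroupClass S) (hnd : IsNondegenerateRootSet S) (hA : A ∈ S) :
    ∃ B, B ∈ rankOnePartners S A := by
  obtain ⟨A₀, hA₀, B₀, hB₀, h⟩ := hnd.2.1
  obtain ⟨g, rfl⟩ := hS.2.2 A₀ hA₀ A hA
  exact ⟨_, rankOne_partner_conj hS.1 ⟨hB₀, h⟩ g⟩

/-- Every member of a non-degenerate class has a commutator partner. -/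
lemma class_rcc (hS : IsRootSubgroupClass S) (hnd : IsNondegenerateRootSet S) (hA : A ∈ S) :
    ∃ B ∈ S, RootCommutatorCase S A B := by
  obtain ⟨A₀, hA₀, B₀, hB₀, h⟩ := hnd.2.2
  obtain ⟨g, rfl⟩ := hS.2.2 A₀ hA₀ A hA
  refine ⟨_, hS.1.conj_mem B₀ hB₀ g,
    rootCommutatorCase_of_mem hS.1 hA (hS.1.conj_mem B₀ hB₀ g) ?_⟩
  rw [← conjBy_commutator]
  exact hS.1.conj_mem _ h.1 g

/-- For `B ∈ Ω_A` some `C ∈ Λ_A` is a commutator partner of `B`. -/
lemma exists_lineData (hS : IsRootSubgroupClass S) (hnd : IsNondegenerateRootSet S) (hA : A ∈ S)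
    (hB : B ∈ rankOnePartners S A) :
    ∃ C ∈ linePartners S A, RootCommutatorCase S B C ∧ LineData S C B ⁅B, C⁆ A := by
  obtain ⟨D, hD⟩ := class_partner hS hnd hA
  obtain ⟨P, hP, hcc⟩ := class_rcc hS hnd hA
  have hline := rcc_membersIn hS.1 hA hD hcc
  have hpart := rcc_partition hS.1 hA hD hcc
  have hcomm : ∀ x ∈ A, ∀ y ∈ ⁅A, P⁆, x * y = y * x := fun x hx y hy =>
    (hcc.2.1 y hy x (Subgroup.mem_sup_left hx)).symm
  have habel : ∀ x ∈ A, ∀ y ∈ A ⊔ ⁅A, P⁆, x * y = y * x := by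
    intro x hx y hy
    obtain ⟨a, ha, f, hf, rfl⟩ := rcc_mem_sup hy
    exact (Commute.mul_right (root_comm hS.1 hA hx ha) (hcomm x hx f hf)).eq
  have hlp : ∀ T ∈ membersIn S (A ⊔ ⁅A, P⁆), T ≠ A → T ∈ linePartners S A := by
    intro T hT hTA
    refine ⟨⟨hT.1, hTA, commutator_eq_bot_of_commute fun x hx y hy => habel x hx y (hT.2 hy)⟩, ?_⟩
    have hspan : A ⊔ T = A ⊔ ⁅A, P⁆ := by
      rw [hline] at hT
      rcases hT with ⟨p, hp, rfl⟩ | rfl
      · exact rcc_line_span hcc hp fun e => hTA (by simp [e, conjBy_one])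
      · rfl
    rw [hspan]; exact hpart
  have hF : ⁅A, P⁆ ∈ linePartners S A := by
    refine hlp _ ⟨hcc.1, le_sup_right⟩ fun e => ?_
    apply hS.1.ne_bot A hA
    rw [← rcc_inf' hS.1 hcc, e, inf_idem]
  obtain ⟨T, hT, hnr⟩ := line_not_all_opposite hS.1 hA hB hF
  have hTA : T ≠ A := fun e => hnr (e ▸ hB.2)
  have hTl := hlp T hT hTA
  rcases hS.1.pair B hB.1 T hT.1 with h | h | h
  · exfalso
    obtain ⟨a, ha, ha1⟩ := ne_one_exists (hS.1.ne_bot A hA)
    obtain ⟨t, ht, ht1⟩ := ne_one_exists (hS.1.ne_bot T hT.1)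
    have hc : a * t = t * a := commute_of_commutator_eq_bot hTl.1.2.2 ha ht
    have hab1 : a * t ≠ 1 := fun e => by
      have : t ∈ A := by rw [eq_inv_of_mul_eq_one_right e]; exact inv_mem ha
      exact hTA (root_TI hS.1 hA hB hT.1 this ht ht1)
    obtain ⟨E, hE, hEm⟩ :=
      hTl.2.2.1 _ (mul_mem (Subgroup.mem_sup_left ha) (Subgroup.mem_sup_right ht)) hab1
    have hz : t ∈ Subgroup.centralizer ((A ⊔ B : Subgroup G) : Set G) := by
      have : A ⊔ B ≤ Subgroup.centralizer {t} := sup_le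
        (fun x hx => Subgroup.mem_centralizer_singleton_iff.2
          (commute_of_commutator_eq_bot hTl.1.2.2 hx ht))
        (fun x hx => Subgroup.mem_centralizer_singleton_iff.2 (commute_of_commutator_eq_bot h hx ht))
      exact Subgroup.mem_centralizer_iff.2 fun x hx =>
        Subgroup.mem_centralizer_singleton_iff.1 (this hx)
    rw [member_eq_of_mem hS.1 hA hB hE.1 hz ha ha1 (hc ▸ hEm)] at hEm
    have : t ∈ A := by simpa using mul_mem (inv_mem ha) hEm
    exact hTA (root_TI hS.1 hA hB hT.1 this ht ht1)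
  · exact absurd (RankOnePair_symm h) hnr
  · obtain ⟨Q, hQ⟩ := class_partner hS hnd hT.1
    exact ⟨T, hTl, h, lineData_of_linePartner hS.1 hA hB hTl hQ h⟩

end Cfsg.Agent.H92
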