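import Cfsg.Agent.H92.RootBasic

/-! The commutator case for abstract root subgroups. -/

set_option autoImplicit false

namespace Cfsg.Agent.H92

open Cfsg
open scoped commutatorElement

variable {G : Type*} [Group G] {S : Set (Subgroup G)} {A B C D E : Subgroup G}

/-- In the commutator case the commutator with a fixed element is multiplicative. -/
lemma rcc_comm_mul (hcc : RootCommutatorCase S A B) {a b b' : G} (ha : a ∈ A) (hb : b ∈ B)
    (hb' : b' ∈ B) :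
    a * (b * b') * a⁻¹ * (b * b')⁻¹ = (a * b * a⁻¹ * b⁻¹) * (a * b' * a⁻¹ * b'⁻¹) := by
  have h := hcc.2.1 _ (Subgroup.commutator_mem_commutator ha hb') b (Subgroup.mem_sup_right hb)
  rw [commutatorElement_def] at h
  calc a * (b * b') * a⁻¹ * (b * b')⁻¹
      = (a * b * a⁻¹ * b⁻¹) * (b * (a * b' * a⁻¹ * b'⁻¹) * b⁻¹) := by simp [mul_assoc]
    _ = _ := by rw [← h, mul_inv_cancel_right]

/-- Every element of the commutator is a single commutator with a fixed non-identity element. -/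
lemma rcc_surj (hcc : RootCommutatorCase S A B) {a : G} (ha : a ∈ A) (ha1 : a ≠ 1) {c : G}
    (hc : c ∈ ⁅A, B⁆) : ∃ b ∈ B, a * b * a⁻¹ * b⁻¹ = c := by
  rw [← hcc.2.2.1 a ha ha1] at hc
  induction hc using Subgroup.closure_induction with
  | mem x hx => obtain ⟨b, hb, rfl⟩ := hx; exact ⟨b, hb, rfl⟩
  | one => exact ⟨1, one_mem _, by simp⟩
  | mul x y _ _ ihx ihy =>
    obtain ⟨b, hb, rfl⟩ := ihx
    obtain ⟨b', hb', rfl⟩ := ihy
    exact ⟨b * b', mul_mem hb hb', rcc_comm_mul hcc ha hb hb'⟩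
  | inv x _ ih =>
    obtain ⟨b, hb, rfl⟩ := ih
    refine ⟨b⁻¹, inv_mem hb, eq_inv_of_mul_eq_one_right ?_⟩
    rw [← rcc_comm_mul hcc ha hb (inv_mem hb)]
    simp

/-- In the commutator case `⁅A, B⁆ ≠ A` and meets the non-isolated `A` trivially. -/
lemma rcc_inf (hS : IsRootSubgroupSet S) (hA : A ∈ S) (hD : D ∈ rankOnePartners S A)
    (hcc : RootCommutatorCase S A B) : A ⊓ ⁅A, B⁆ = ⊥ := by
  by_contra h
  obtain ⟨x, ⟨hxA, hxC⟩, hx1⟩ := ne_one_exists h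
  have e := root_TI hS hA hD hcc.1 hxA hxC hx1
  refine hS.ne_bot _ hcc.1 (commutator_eq_bot_of_commute fun a ha b hb => ?_)
  exact hcc.2.1 a (by rw [e]; exact ha) b (Subgroup.mem_sup_right hb)

/-- A non-identity element of a non-isolated `A` commutes with no non-identity element of `B`. -/
lemma rcc_inj (hS : IsRootSubgroupSet S) (hA : A ∈ S) (hD : D ∈ rankOnePartners S A)
    (hcc : RootCommutatorCase S A B) {a b : G} (ha : a ∈ A) (ha1 : a ≠ 1) (hb : b ∈ B)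
    (hab : a * b = b * a) : b = 1 := by
  by_contra hb1
  have hm : a ∈ conjBy A b := by
    rw [mem_conjBy, mul_assoc, hab, inv_mul_cancel_left]; exact ha
  have hfix := root_TI hS hA hD (hS.conj_mem A hA b) ha hm ha1
  apply hS.ne_bot _ hcc.1
  rw [← le_bot_iff, ← rcc_inf hS hA hD hcc]
  refine le_inf ?_ le_rfl
  conv_lhs => rw [← hcc.2.2.2 b hb hb1]
  rw [Subgroup.closure_le]
  rintro _ ⟨a', ha', rfl⟩
  have : b * a'⁻¹ * b⁻¹ ∈ A := hfix ▸ conj_mem_conjBy (inv_mem ha') b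
  simpa [mul_assoc] using mul_mem ha' this

/-- Elements of `A ⊔ ⁅A, B⁆` are products. -/
lemma rcc_mem_sup {x : G} (hx : x ∈ A ⊔ ⁅A, B⁆) : ∃ a ∈ A, ∃ c ∈ ⁅A, B⁆, a * c = x := by
  rw [← SetLike.mem_coe, Subgroup.coe_mul_of_left_le_normalizer_right _ _
    (Subgroup.normalizer_commutator_ge_left A B)] at hx
  exact hx

/-- Conjugates of `A` under `B` lie in `A ⊔ ⁅A, B⁆`. -/
lemma rcc_conj_le {b : G} (hb : b ∈ B) : conjBy A b ≤ A ⊔ ⁅A, B⁆ := by
  intro x hx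
  have hx' := mem_conjBy.1 hx
  have h1 := Subgroup.commutator_mem_commutator (inv_mem hx') hb
  rw [commutatorElement_def] at h1
  have := mul_mem (Subgroup.mem_sup_left (T := ⁅A, B⁆) hx') (Subgroup.mem_sup_right (S := A) h1)
  simpa [mul_assoc] using this

/-- Every element outside `⁅A, B⁆` of `A ⊔ ⁅A, B⁆` lies in a conjugate of `A`. -/
lemma rcc_mem_conj (hcc : RootCommutatorCase S A B) {a c : G} (ha : a ∈ A) (ha1 : a ≠ 1)
    (hc : c ∈ ⁅A, B⁆) : ∃ b ∈ B, a * c ∈ conjBy A b := by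
  obtain ⟨b, hb, e⟩ := rcc_surj hcc (inv_mem ha) (inv_ne_one.2 ha1) hc
  refine ⟨b, hb, ?_⟩
  rw [← e]
  simpa [mul_assoc] using conj_mem_conjBy ha b

/-- A member contained in `⁅A, B⁆` equals it. -/
lemma rcc_member_eq (hS : IsRootSubgroupSet S) (hA : A ∈ S) (hD : D ∈ rankOnePartners S A)
    (hcc : RootCommutatorCase S A B) (hE : E ∈ S) (hle : E ≤ ⁅A, B⁆) : E = ⁅A, B⁆ := by
  obtain ⟨e, he, he1⟩ := ne_one_exists (hS.ne_bot E hE)
  have nocomm : ¬ ∀ d ∈ D, e * d = d * e := by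
    intro hall
    obtain ⟨a, ha, ha1⟩ := ne_one_exists (hS.ne_bot A hA)
    obtain ⟨b, hb, hm⟩ := rcc_mem_conj hcc ha ha1 (hle he)
    have hec := hcc.2.1 e (hle he)
    have hz : e ∈ Subgroup.centralizer ((A ⊔ D : Subgroup G) : Set G) := by
      have : A ⊔ D ≤ Subgroup.centralizer {e} := sup_le
        (fun x hx => Subgroup.mem_centralizer_singleton_iff.2 (hec x (Subgroup.mem_sup_left hx)).symm)
        (fun x hx => Subgroup.mem_centralizer_singleton_iff.2 (hall x hx).symm)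
      exact Subgroup.mem_centralizer_iff.2 fun x hx =>
        Subgroup.mem_centralizer_singleton_iff.1 (this hx)
    have heq := member_eq_of_mem hS hA hD (hS.conj_mem A hA b) hz ha ha1
      (by rwa [hec a (Subgroup.mem_sup_left ha)])
    rw [heq] at hm
    have : e ∈ A := by simpa using mul_mem (inv_mem ha) hm
    exact he1 ((Subgroup.eq_bot_iff_forall _).1 (rcc_inf hS hA hD hcc) e ⟨this, hle he⟩)
  have fromC : ∀ {P : Subgroup G}, P ∈ rankOnePartners S ⁅A, B⁆ → E = ⁅A, B⁆ := fun hP =>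
    root_TI hS hcc.1 hP hE (hle he) he he1
  rcases hS.pair E hE D hD.1 with h1 | h1 | h1
  · exact absurd (fun d hd => commute_of_commutator_eq_bot h1 he hd) nocomm
  · exact (root_TI hS hE ⟨hD.1, h1⟩ hcc.1 he (hle he) he1).symm
  rcases hS.pair _ hcc.1 D hD.1 with h2 | h2 | h2
  · exact absurd (fun d hd => commute_of_commutator_eq_bot h2 (hle he) hd) nocomm
  · exact fromC ⟨hD.1, h2⟩
  refine le_antisymm hle fun c hc => ?_
  obtain ⟨d, hd, hd1⟩ := ne_one_exists (hS.ne_bot D hD.1)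
  have hFF : ⁅E, D⁆ = ⁅⁅A, B⁆, D⁆ := (h1.2.2.1 e he he1).symm.trans (h2.2.2.1 e (hle he) he1)
  have hcd : c * d * c⁻¹ * d⁻¹ ∈ ⁅E, D⁆ := hFF ▸ Subgroup.commutator_mem_commutator hc hd
  rw [← h1.2.2.2 d hd hd1] at hcd
  have hex : ∃ e' ∈ E, e' * d * e'⁻¹ * d⁻¹ = c * d * c⁻¹ * d⁻¹ := by
    have hmul : ∀ x ∈ E, ∀ y ∈ E, x * y * d * (x * y)⁻¹ * d⁻¹ =
        (x * d * x⁻¹ * d⁻¹) * (y * d * y⁻¹ * d⁻¹) := by
      intro x hx y hy
      have hc1 := h1.2.1 _ (Subgroup.commutator_mem_commutator hy hd)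
      rw [commutatorElement_def] at hc1
      have hx' := hc1 x (Subgroup.mem_sup_left hx)
      have hall := hc1 _ (mul_mem (mul_mem (mul_mem (Subgroup.mem_sup_left hx) (Subgroup.mem_sup_right hd))
        (inv_mem (Subgroup.mem_sup_left hx))) (inv_mem (Subgroup.mem_sup_right hd)))
      rw [← hall]
      calc x * y * d * (x * y)⁻¹ * d⁻¹
          = x * (y * d * y⁻¹ * d⁻¹) * x⁻¹ * (x * d * x⁻¹ * d⁻¹) := by simp [mul_assoc]
        _ = _ := by rw [← hx', mul_inv_cancel_right]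
    generalize c * d * c⁻¹ * d⁻¹ = w at hcd ⊢
    induction hcd using Subgroup.closure_induction with
    | mem x hx => obtain ⟨b, hb, rfl⟩ := hx; exact ⟨b, hb, rfl⟩
    | one => exact ⟨1, one_mem _, by simp⟩
    | mul x y _ _ ihx ihy =>
      obtain ⟨b, hb, rfl⟩ := ihx
      obtain ⟨b', hb', rfl⟩ := ihy
      exact ⟨b * b', mul_mem hb hb', hmul b hb b' hb'⟩
    | inv x _ ih =>
      obtain ⟨b, hb, rfl⟩ := ih
      refine ⟨b⁻¹, inv_mem hb, eq_inv_of_mul_eq_one_right ?_⟩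
      rw [← hmul b hb b⁻¹ (inv_mem hb)]
      simp
  obtain ⟨e', he', heq⟩ := hex
  have hco : d * (e'⁻¹ * c) = e'⁻¹ * c * d := by
    have h3 := mul_right_cancel heq
    rw [mul_inv_eq_iff_eq_mul] at h3
    rw [eq_comm, mul_assoc, inv_mul_eq_iff_eq_mul]
    calc c * d = c * d * c⁻¹ * c := by simp
      _ = e' * d * e'⁻¹ * c := by
          have h4 := mul_right_cancel heq
          rw [h4]
      _ = e' * (d * (e'⁻¹ * c)) := by simp [mul_assoc]
  have hcc' : RootCommutatorCase S D ⁅A, B⁆ :=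
    rootCommutatorCase_of_mem hS hD.1 hcc.1 (by rw [Subgroup.commutator_comm]; exact h2.1)
  have := rcc_inj hS hD.1 (D := A) ⟨hA, RankOnePair_symm hD.2⟩ hcc' hd hd1
    (mul_mem (inv_mem (hle he')) hc) hco
  rw [inv_mul_eq_one] at this
  exact this ▸ he'

/-- The description of the members inside `A ⊔ ⁅A, B⁆`. -/
lemma rcc_membersIn (hS : IsRootSubgroupSet S) (hA : A ∈ S) (hD : D ∈ rankOnePartners S A)
    (hcc : RootCommutatorCase S A B) :
    membersIn S (A ⊔ ⁅A, B⁆) = (fun b : G => conjBy A b) '' (B : Set G) ∪ {⁅A, B⁆} := by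
  ext E
  constructor
  · rintro ⟨hE, hle⟩
    by_cases hEC : E ≤ ⁅A, B⁆
    · exact Or.inr (rcc_member_eq hS hA hD hcc hE hEC)
    obtain ⟨x, hx, hxC⟩ := SetLike.not_le_iff_exists.1 hEC
    obtain ⟨a, ha, c, hc, rfl⟩ := rcc_mem_sup (hle hx)
    have ha1 : a ≠ 1 := fun e => hxC (by rw [e, one_mul]; exact hc)
    obtain ⟨b, hb, hm⟩ := rcc_mem_conj hcc ha ha1 hc
    exact Or.inl ⟨b, hb, (root_TI hS (hS.conj_mem A hA b) (rankOne_partner_conj hS hD b) hE hm hx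
      (fun e => hxC (e ▸ one_mem _))).symm⟩
  · rintro (⟨b, hb, rfl⟩ | rfl)
    · exact ⟨hS.conj_mem A hA b, rcc_conj_le hb⟩
    · exact ⟨hcc.1, le_sup_right⟩

/-- Conjugates of `A` under `B` meet `⁅A, B⁆` trivially. -/
lemma rcc_conj_inf (hS : IsRootSubgroupSet S) (hA : A ∈ S) (hD : D ∈ rankOnePartners S A)
    (hcc : RootCommutatorCase S A B) {b : G} (hb : b ∈ B) : conjBy A b ⊓ ⁅A, B⁆ = ⊥ := by
  have e : conjBy ⁅A, B⁆ b = ⁅A, B⁆ :=
    mem_normalizer_iff_conjBy.1 (Subgroup.normalizer_commutator_ge_right A B hb)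
  conv_lhs => rw [← e]
  rw [← conjBy_inf, rcc_inf hS hA hD hcc, conjBy_bot]

/-- The members inside `A ⊔ ⁅A, B⁆` partition it. -/
lemma rcc_partition (hS : IsRootSubgroupSet S) (hA : A ∈ S) (hD : D ∈ rankOnePartners S A)
    (hcc : RootCommutatorCase S A B) :
    IsSubgroupPartition (A ⊔ ⁅A, B⁆) (membersIn S (A ⊔ ⁅A, B⁆)) := by
  refine ⟨fun E hE => hE.2, fun x hx hx1 => ?_, ?_⟩
  · obtain ⟨a, ha, c, hc, rfl⟩ := rcc_mem_sup hx
    by_cases ha1 : a = 1
    · subst ha1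
      exact ⟨⁅A, B⁆, ⟨hcc.1, le_sup_right⟩, by rwa [one_mul]⟩
    · obtain ⟨b, hb, hm⟩ := rcc_mem_conj hcc ha ha1 hc
      exact ⟨_, ⟨hS.conj_mem A hA b, rcc_conj_le hb⟩, hm⟩
  · intro E hE F hF hne
    rw [rcc_membersIn hS hA hD hcc] at hE hF
    rcases hE with ⟨b, hb, rfl⟩ | rfl
    · rcases hF with ⟨b', hb', rfl⟩ | rfl
      · by_contra hne'
        obtain ⟨x, ⟨h1, h2⟩, hx⟩ := ne_one_exists hne'
        exact hne (root_TI hS (hS.conj_mem A hA b) (rankOne_partner_conj hS hD b)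
          (hS.conj_mem A hA b') h1 h2 hx).symm
      · exact rcc_conj_inf hS hA hD hcc hb
    · rcases hF with ⟨b', hb', rfl⟩ | rfl
      · rw [inf_comm]; exact rcc_conj_inf hS hA hD hcc hb'
      · exact absurd rfl hne

/-- `A` is a line partner of `⁅A, B⁆`. -/
lemma rcc_linePartner (hS : IsRootSubgroupSet S) (hA : A ∈ S) (hD : D ∈ rankOnePartners S A)
    (hcc : RootCommutatorCase S A B) : A ∈ linePartners S ⁅A, B⁆ := by
  refine ⟨⟨hA, ?_, ?_⟩, ?_⟩
  · intro e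
    apply hS.ne_bot A hA
    rw [← rcc_inf hS hA hD hcc, ← e, inf_idem]
  · exact commutator_eq_bot_of_commute fun c hc a ha => hcc.2.1 c hc a (Subgroup.mem_sup_left ha)
  · rw [sup_comm]
    exact rcc_partition hS hA hD hcc

/-- Commutation with a fixed non-identity element of `A`, as a homomorphism `B →* ⁅A, B⁆`. -/
def rccHom (hcc : RootCommutatorCase S A B) {a : G} (ha : a ∈ A) : B →* (⁅A, B⁆ : Subgroup G) :=
  MonoidHom.mk' (fun b => ⟨a * (b : G) * a⁻¹ * (b : G)⁻¹, Subgroup.commutator_mem_commutator ha b.2⟩)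
    fun b b' => Subtype.ext (rcc_comm_mul hcc ha b.2 b'.2)

/-- `b ↦ a⁻¹ b⁻¹ a b` is an isomorphism `B ≃* ⁅A, B⁆`. -/
lemma rcc_iso (hS : IsRootSubgroupSet S) (hA : A ∈ S) (hD : D ∈ rankOnePartners S A) (hB : B ∈ S)
    (hcc : RootCommutatorCase S A B) {a : G} (ha : a ∈ A) (ha1 : a ≠ 1) :
    ∃ φ : ↥B ≃* ↥⁅A, B⁆, ∀ b : ↥B, (φ b : G) = a⁻¹ * (b : G)⁻¹ * a * b := by
  have hbij : Function.Bijective (rccHom hcc (inv_mem ha)) := by
    refine ⟨(injective_iff_map_eq_one _).2 fun b hb => Subtype.ext ?_, fun c => ?_⟩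
    · have h1 : a⁻¹ * (b : G) * a⁻¹⁻¹ * (b : G)⁻¹ = 1 := congrArg Subtype.val hb
      rw [mul_inv_eq_one, mul_inv_eq_iff_eq_mul] at h1
      exact rcc_inj hS hA hD hcc (inv_mem ha) (inv_ne_one.2 ha1) b.2 h1
    · obtain ⟨b, hb, e⟩ := rcc_surj hcc (inv_mem ha) (inv_ne_one.2 ha1) c.2
      exact ⟨⟨b, hb⟩, Subtype.ext e⟩
  let invB : B ≃* B :=
    { Equiv.inv B with
      map_mul' := fun x y => Subtype.ext (by
        show ((x : G) * y)⁻¹ = (x : G)⁻¹ * (y : G)⁻¹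
        rw [mul_inv_rev]; exact root_comm hS hB (inv_mem y.2) (inv_mem x.2)) }
  refine ⟨invB.trans (MulEquiv.ofBijective _ hbij), fun b => ?_⟩
  show a⁻¹ * ((b : G))⁻¹ * a⁻¹⁻¹ * ((b : G))⁻¹⁻¹ = _
  simp

end Cfsg.Agent.H92
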