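import Cfsg.Agent.H92.RankOne
import Cfsg.Agent.H92.RankOneNormal

/-! Special rank one pairs with abelian unipotent subgroups. -/

set_option autoImplicit false

namespace Cfsg.Agent.H92

open Cfsg

variable {G : Type*} [Group G] {A B : Subgroup G}

/-- `c ∈ B` is the (inverted) partner of `a ∈ A`: `c A c⁻¹ = a⁻¹ B a`. -/
structure Partner (A B : Subgroup G) (a c : G) : Prop where
  ha : a ∈ A
  ha1 : a ≠ 1
  hc : c ∈ B
  hc1 : c ≠ 1
  eq : conjBy A c = conjBy B a⁻¹

lemma Partner.exists_left (h : IsRankOnePair A B) {a : G} (ha : a ∈ A) (ha1 : a ≠ 1) :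
    ∃ c, Partner A B a c := by
  obtain ⟨b, hb, hb1, e⟩ := h.cond_left a ha ha1
  exact ⟨b⁻¹, ha, ha1, inv_mem hb, inv_ne_one.2 hb1, e⟩

lemma Partner.exists_right (h : IsRankOnePair A B) {c : G} (hc : c ∈ B) (hc1 : c ≠ 1) :
    ∃ a, Partner A B a c := by
  obtain ⟨a, ha, ha1, e⟩ := h.cond_right c⁻¹ (inv_mem hc) (inv_ne_one.2 hc1)
  rw [inv_inv] at e
  exact ⟨a, ha, ha1, hc, hc1, e.symm⟩

lemma Partner.right_unique (h : IsRankOnePair A B) {a c c' : G} (p : Partner A B a c)
    (p' : Partner A B a c') : c = c' :=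
  rankOne_conjBy_injOn h p.hc p'.hc (p.eq.trans p'.eq.symm)

lemma Partner.left_unique (h : IsRankOnePair A B) {a a' c : G} (p : Partner A B a c)
    (p' : Partner A B a' c) : a = a' :=
  inv_injective (rankOne_conjBy_injOn (RankOnePair_symm h) (inv_mem p.ha) (inv_mem p'.ha)
    (p.eq.symm.trans p'.eq))

/-- The braid relation. -/
lemma Partner.braid (h : IsSpecialRankOnePair A B) {a c : G} (p : Partner A B a c) :
    a * c * a = c * a * c := by
  have e := h.2 a p.ha p.ha1 c⁻¹ (inv_mem p.hc) (inv_ne_one.2 p.hc1) (by simpa using p.eq)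
  rw [inv_inv] at e
  have e2 : a * (c * a * c⁻¹) * c = a * (a⁻¹ * c * a) * c := by rw [e]
  simpa [mul_assoc] using e2

/-- Conjugation of `A` by `a c a` gives `B`. -/
lemma Partner.conj_left {a c : G} (p : Partner A B a c) : conjBy A (a * c * a) = B := by
  rw [← conjBy_conjBy, conjBy_self p.ha, ← conjBy_conjBy, p.eq, conjBy_conjBy, mul_inv_cancel,
    conjBy_one]

lemma conj_fst_of_braid {a c : G} (e : a * c * a = c * a * c) :
    (a * c * a) * a * (a * c * a)⁻¹ = c := by
  rw [mul_inv_eq_iff_eq_mul]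
  calc a * c * a * a = (c * a * c) * a := by rw [e]
    _ = c * (a * c * a) := by simp [mul_assoc]

lemma conj_snd_of_braid {a c : G} (e : a * c * a = c * a * c) :
    (a * c * a) * c * (a * c * a)⁻¹ = a := by
  rw [mul_inv_eq_iff_eq_mul]
  calc a * c * a * c = a * (c * a * c) := by simp [mul_assoc]
    _ = a * (a * c * a) := by rw [e]

/-- The braid relation characterizes partners. -/
lemma Partner.of_braid (h : IsRankOnePair A B) {a c : G} (ha : a ∈ A) (ha1 : a ≠ 1) (hc : c ∈ B)
    (e : a * c * a = c * a * c) : Partner A B a c := by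
  have hc1 : c ≠ 1 := by
    rintro rfl
    exact ha1 (by simpa using e)
  have hn : a * c * a ∈ A ⊔ B :=
    mul_mem (mul_mem (Subgroup.mem_sup_left ha) (Subgroup.mem_sup_right hc)) (Subgroup.mem_sup_left ha)
  have hc' : c ∈ conjBy A (a * c * a) := by
    have := conj_mem_conjBy ha (a * c * a)
    rwa [conj_fst_of_braid e] at this
  have := unipotent_eq_of_mem h (conjBy_mem_unipotent (left_mem_unipotent A B) hn)
    (right_mem_unipotent h) hc' hc hc1
  refine ⟨ha, ha1, hc, hc1, ?_⟩
  rw [← conjBy_conjBy, conjBy_self ha, ← conjBy_conjBy] at this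
  conv_rhs => rw [← this]
  rw [conjBy_conjBy _ a, inv_mul_cancel, conjBy_one]

/-- Partners are compatible with inversion. -/
lemma Partner.inv (h : IsSpecialRankOnePair A B) {a c : G} (p : Partner A B a c) :
    Partner A B a⁻¹ c⁻¹ := by
  refine Partner.of_braid h.1 (inv_mem p.ha) (inv_ne_one.2 p.ha1) (inv_mem p.hc) ?_
  have := congrArg (fun z => z⁻¹) (p.braid h)
  simpa [mul_assoc] using this

/-- Conjugation of `B` by `a c a` gives `A`. -/
lemma Partner.conj_right (h : IsSpecialRankOnePair A B) {a c : G} (p : Partner A B a c) :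
    conjBy B (a * c * a) = A := by
  have := (p.inv h).conj_left
  conv_lhs => rw [← this]
  rw [conjBy_conjBy]
  simp [mul_assoc, conjBy_one]

/-- The order of a partner is the order of the element. -/
lemma Partner.pow_eq_one_iff (h : IsSpecialRankOnePair A B) {a c : G} (p : Partner A B a c) (k : ℕ) :
    c ^ k = 1 ↔ a ^ k = 1 := by
  rw [← conj_fst_of_braid (p.braid h), conj_pow, conj_eq_one_iff]

/-- `k`-th powers in `B` correspond to `k`-th roots in `A`. -/
def RootLaw (A B : Subgroup G) (k : ℕ) : Prop :=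
  ∀ a c z : G, Partner A B a c → Partner A B z (c ^ k) → z ^ k = a

/-- A root law forces `A` to have exponent `k` or no `k`-torsion. -/
lemma rootLaw_dichotomy (h : IsSpecialRankOnePair A B) (hB : ∀ x ∈ B, ∀ y ∈ B, x * y = y * x)
    {k : ℕ} (hk : RootLaw A B k) {a : G} (ha : a ∈ A) (hak : a ^ k ≠ 1) :
    ∀ t ∈ A, t ^ k = 1 → t = 1 := by
  intro t ht htk
  by_contra ht1
  have ha1 : a ≠ 1 := fun e => hak (by simp [e])
  obtain ⟨c, p⟩ := Partner.exists_left h.1 ha ha1
  set n := a * c * a with hn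
  have hd : n * t * n⁻¹ ∈ B := by
    have := conj_mem_conjBy ht n
    rwa [p.conj_left] at this
  have hd1 : n * t * n⁻¹ ≠ 1 := fun e => ht1 (conj_eq_one_iff.1 e)
  have hdk : (n * t * n⁻¹) ^ k = 1 := by rw [conj_pow, htk]; simp
  set c' := c * (n * t * n⁻¹) with hc'
  have hck : c' ^ k = c ^ k := by
    rw [hc', Commute.mul_pow (hB _ p.hc _ hd), hdk, mul_one]
  have hcne : c ^ k ≠ 1 := fun e => hak ((p.pow_eq_one_iff h k).1 e)
  have hc'1 : c' ≠ 1 := fun e => hcne (by rw [← hck, e, one_pow])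
  obtain ⟨a', p'⟩ := Partner.exists_right h.1 (mul_mem p.hc hd) hc'1
  obtain ⟨z, pz⟩ := Partner.exists_right h.1 (pow_mem p.hc k) hcne
  have h1 := hk a c z p pz
  have h2 := hk a' c' z p' (hck.symm ▸ pz)
  rw [h2] at h1
  subst h1
  exact hd1 (by simpa [hc'] using p'.right_unique h.1 p)

/-- The root law holds for all positive `k`. -/
lemma rootLaw (h : IsSpecialRankOnePair A B) (hA : ∀ x ∈ A, ∀ y ∈ A, x * y = y * x)
    (hB : ∀ x ∈ B, ∀ y ∈ B, x * y = y * x) : ∀ k : ℕ, 0 < k → RootLaw A B k := by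
  intro k hk
  induction k, hk using Nat.le_induction with
  | base =>
    intro a c z p pz
    rw [pow_one] at pz ⊢
    exact pz.left_unique h.1 p
  | succ k hk ih =>
    intro a c z p pz
    by_cases hak : a ^ k = 1
    · have hck : c ^ k = 1 := (p.pow_eq_one_iff h k).2 hak
      rw [pow_succ, hck, one_mul] at pz
      rw [pz.left_unique h.1 p, pow_succ, hak, one_mul]
    · have hinj := rootLaw_dichotomy h hB ih p.ha hak
      obtain ⟨d, pd⟩ := Partner.exists_left h.1 (pow_mem p.ha k) hak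
      have hdk1 : d ^ k ≠ 1 := fun e => hak (hinj _ (pow_mem p.ha k) ((pd.pow_eq_one_iff h k).1 e))
      have hdk : d ^ k = c := by
        obtain ⟨w, pw⟩ := Partner.exists_right h.1 (pow_mem pd.hc k) hdk1
        have hw := ih _ _ _ pd pw
        have : w = a := by
          refine mul_inv_eq_one.1 (hinj _ (mul_mem pw.ha (inv_mem p.ha)) ?_)
          rw [Commute.mul_pow (hA _ pw.ha _ (inv_mem p.ha)), hw, inv_pow, mul_inv_cancel]
        subst this
        exact pw.right_unique h.1 p
      have hd2 : (d ^ (k + 1)) ^ k = c ^ (k + 1) := by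
        rw [← hdk, ← pow_mul, ← pow_mul, Nat.mul_comm]
      have hd3 : d ^ (k + 1) ≠ 1 := fun e => pz.hc1 (by rw [← hd2, e, one_pow])
      obtain ⟨u, pu⟩ := Partner.exists_right h.1 (pow_mem pd.hc (k + 1)) hd3
      have hzu : z ^ k = u := ih _ _ _ pu (hd2.symm ▸ pz)
      have hu : u = z⁻¹ * a := by
        set n := a * c * a with hn
        have h1 : n * (a ^ (k + 1))⁻¹ * n⁻¹ = (c ^ (k + 1))⁻¹ := by
          rw [hn, ← conj_inv, ← conj_pow, conj_fst_of_braid (p.braid h)]
        have h2 : conjBy A (c ^ (k + 1))⁻¹ = conjBy B z := by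
          simpa using (pz.inv h).eq
        have h3 : conjBy A n⁻¹ = B := by
          conv_lhs => rw [← p.conj_right h, ← hn]
          rw [conjBy_conjBy, inv_mul_cancel, conjBy_one]
        have h4 : conjBy B z = conjBy B (a * c * (a ^ k)⁻¹) := by
          rw [← h2, ← h1, ← conjBy_conjBy, h3, hn]
          congr 1
          rw [pow_succ', mul_inv_rev]
          have hcm := hA _ p.ha _ (inv_mem (pow_mem p.ha k))
          simp only [mul_assoc]
          rw [← mul_assoc a (a ^ k)⁻¹, hcm, mul_assoc, mul_inv_cancel, mul_one]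
        have h5 : conjBy B (a * c * (a ^ k)⁻¹) = conjBy (conjBy A (d ^ (k + 1))) a := by
          rw [← conjBy_conjBy, ← pd.eq, conjBy_conjBy, conjBy_conjBy, pow_succ, hdk, mul_assoc]
        rw [h5, pu.eq, conjBy_conjBy] at h4
        have h6 := rankOne_conjBy_injOn (RankOnePair_symm h.1) pz.ha
          (mul_mem p.ha (inv_mem pu.ha)) h4
        rw [h6]; simp
      rw [pow_succ', hzu, hu, mul_inv_cancel_left]

end Cfsg.Agent.H92
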