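import Cfsg.Agent.H92.RootClass
import Cfsg.Agent.H92.RootComponents
import Cfsg.Agent.H92.Special
import Cfsg.Agent.H92.SL2RankOne

/-!
Degenerate classes of abstract root subgroups with a commuting pair: rank one pairs are special.

If `A, C` commute and both are opposite to `Q`, an element of `Q Q^v` centralizing `Q` carries `A`
to `C`; this forces the special identity. If every member commuting with `A` commutes with `B`,
the same elements produce a centralizer of `⟨A, Q⟩` acting on `B` as an element of `A`, and then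
the diagonal of `⟨A, Q⟩` would centralize `A`.
-/

set_option autoImplicit false

namespace Cfsg.Agent.H92.RS

open Cfsg
open scoped MatrixGroups

variable {G : Type*} [Group G] {S : Set (Subgroup G)} {A B C Q : Subgroup G}

/-- Two commuting members `A`, `C` and a common rank one partner `Q`, with `A^q = Q^a`, `C^q = Q^c`. -/
structure Tr (S : Set (Subgroup G)) (A C Q : Subgroup G) (a c q : G) : Prop where
  hS : IsRootSubgroupSet S
  hA : A ∈ S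
  hC : C ∈ S
  hQ : Q ∈ S
  hAC : ⁅A, C⁆ = ⊥
  hne : A ≠ C
  hAQ : IsRankOnePair A Q
  hCQ : IsRankOnePair C Q
  ha : a ∈ A
  hc : c ∈ C
  hq : q ∈ Q
  ea : conjBy A q⁻¹ = conjBy Q a⁻¹
  ec : conjBy C q⁻¹ = conjBy Q c⁻¹

/-- The transfer element of `q' ∈ Q`. -/
def vt (a c q' : G) : G := q'⁻¹ * ((a⁻¹ * c)⁻¹ * q' * (a⁻¹ * c))

namespace Tr

variable {a c q : G} (L : Tr S A C Q a c q)
include L

lemma ac : a * c = c * a := commute_of_commutator_eq_bot L.hAC L.ha L.hc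

lemma comm_a {x : G} (hx : x ∈ A) : (a⁻¹ * c) * x = x * (a⁻¹ * c) := by
  have h1 : x * a = a * x := root_comm L.hS L.hA hx L.ha
  have h2 : x * c = c * x := commute_of_commutator_eq_bot L.hAC hx L.hc
  exact (((show Commute x a from h1).inv_right).mul_right h2).eq.symm

lemma inv_v : (a⁻¹ * c)⁻¹ = a * c⁻¹ := by
  rw [mul_inv_rev, inv_inv]
  exact ((show Commute a c from L.ac).inv_right).eq.symm

lemma bot_D : ⁅Q, conjBy Q (a⁻¹ * c)⁻¹⁆ = ⊥ := by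
  have h := congrArg (fun H => conjBy H (a : G)) (congrArg (fun H => conjBy H q⁻¹) L.hAC)
  simp only [conjBy_commutator, conjBy_bot] at h
  rwa [L.ea, L.ec, conjBy_conjBy, conjBy_conjBy, mul_inv_cancel, conjBy_one, ← L.inv_v] at h

lemma qD {x y : G} (hx : x ∈ Q) (hy : y ∈ Q) :
    x * ((a⁻¹ * c)⁻¹ * y * (a⁻¹ * c)) = (a⁻¹ * c)⁻¹ * y * (a⁻¹ * c) * x := by
  refine commute_of_commutator_eq_bot L.bot_D hx ?_
  simpa using conj_mem_conjBy hy (a⁻¹ * c)⁻¹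

lemma vt_comm {x y : G} (hx : x ∈ Q) (hy : y ∈ Q) : vt a c y * x = x * vt a c y := by
  have h1 : Commute x y⁻¹ := root_comm L.hS L.hQ hx (inv_mem hy)
  exact (h1.mul_right (L.qD hx hy)).eq.symm

lemma vt_mul {x y : G} (hx : x ∈ Q) (hy : y ∈ Q) :
    vt a c x * vt a c y = vt a c (x * y) := by
  have h1 : Commute ((a⁻¹ * c)⁻¹ * x * (a⁻¹ * c)) y⁻¹ := (L.qD (inv_mem hy) hx).symm
  have h2 : y⁻¹ * x⁻¹ = x⁻¹ * y⁻¹ := root_comm L.hS L.hQ (inv_mem hy) (inv_mem hx)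
  simp only [vt]
  rw [mul_assoc x⁻¹, ← mul_assoc _ y⁻¹, h1.eq, mul_inv_rev x y, h2]
  group

lemma conjBy_vt_A : conjBy A (vt a c q)⁻¹ = C := by
  have e : (vt a c q)⁻¹ = q * ((a⁻¹ * c)⁻¹ * q⁻¹ * (a⁻¹ * c)) := by
    rw [L.qD L.hq (inv_mem L.hq)]
    simp only [vt]; group
  have hv : conjBy A (a⁻¹ * c) = A :=
    centralizer_conjBy (H := A) (Subgroup.mem_centralizer_iff.2 fun x hx => (L.comm_a hx).symm) le_rfl
  have e2 : (a⁻¹ * c)⁻¹ * a⁻¹ = c⁻¹ := by group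
  rw [e, ← conjBy_conjBy, ← conjBy_conjBy, hv, ← conjBy_conjBy, L.ea, conjBy_conjBy, conjBy_conjBy,
    mul_assoc q, e2, ← conjBy_conjBy, ← L.ec, conjBy_conjBy, mul_inv_cancel, conjBy_one]

lemma conj_a : (vt a c q)⁻¹ * a * vt a c q = c := by
  set t := vt a c q with ht
  have hc' : t⁻¹ * a * t ∈ C := by
    rw [← L.conjBy_vt_A, ← ht]; simpa using conj_mem_conjBy L.ha t⁻¹
  have hQt : conjBy Q t⁻¹ = Q :=
    centralizer_conjBy (H := Q) (inv_mem (Subgroup.mem_centralizer_iff.2 fun x hx =>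
      (L.vt_comm hx L.hq).symm)) le_rfl
  have h := congrArg (fun H => conjBy H t⁻¹) L.ea
  have e1 : t⁻¹ * q⁻¹ = q⁻¹ * t⁻¹ := by
    rw [← mul_inv_rev, ← mul_inv_rev, L.vt_comm L.hq L.hq]
  have e2 : t⁻¹ * a⁻¹ = (t⁻¹ * a * t)⁻¹ * t⁻¹ := by group
  simp only [conjBy_conjBy] at h
  rw [e1, e2, ← conjBy_conjBy A, ← conjBy_conjBy Q, hQt, L.conjBy_vt_A, L.ec] at h
  exact inv_injective (rankOne_conjBy_injOn (RankOnePair_symm L.hCQ) (inv_mem hc') (inv_mem L.hc) h.symm)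

lemma identity : q⁻¹ * a * q = a⁻¹ * q⁻¹ * a := by
  set t := vt a c q with ht
  set v := a⁻¹ * c with hv
  set α := q * (a⁻¹ * q * a) * q⁻¹ with hα'
  have hα : α ∈ A := by
    have h : a⁻¹ * q * a ∈ conjBy A q⁻¹ := by
      rw [L.ea]; simpa using conj_mem_conjBy L.hq a⁻¹
    rw [mem_conjBy, inv_inv] at h
    exact h
  have hαv : v * α = α * v := L.comm_a hα
  have e1 : a⁻¹ * t * a = t * v⁻¹ := by
    have hct : c = t⁻¹ * a * t := L.conj_a.symm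
    calc a⁻¹ * t * a = t * (t⁻¹ * a⁻¹ * t) * a := by group
      _ = t * c⁻¹ * a := by rw [hct]; group
      _ = t * v⁻¹ := by rw [hv]; group
  have hqt : t * q = q * t := L.vt_comm L.hq L.hq
  have e2 : q * v * q⁻¹ = v * t := by
    calc q * v * q⁻¹ = v * (v⁻¹ * q * v * q⁻¹) := by group
      _ = v * (q * t * q⁻¹) := by rw [ht, vt, ← hv]; group
      _ = v * t := by rw [← hqt, mul_assoc t, mul_inv_cancel, mul_one]
  have e2' : q * v⁻¹ * q⁻¹ = t⁻¹ * v⁻¹ := by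
    calc q * v⁻¹ * q⁻¹ = (q * v * q⁻¹)⁻¹ := by group
      _ = t⁻¹ * v⁻¹ := by rw [e2]; group
  have hav : a * v = v * a := (L.comm_a L.ha).symm
  have e3 : a⁻¹ * t * a = (a⁻¹ * q⁻¹ * a) * (v⁻¹ * (a⁻¹ * q * a) * v) := by
    calc a⁻¹ * t * a = a⁻¹ * q⁻¹ * (v⁻¹ * q * v) * a := by rw [ht, vt, ← hv]; group
      _ = (a⁻¹ * q⁻¹ * a) * ((v * a)⁻¹ * q * (v * a)) := by group
      _ = (a⁻¹ * q⁻¹ * a) * (v⁻¹ * (a⁻¹ * q * a) * v) := by rw [← hav]; group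
  have e4 : α⁻¹ * (t⁻¹ * α * t) = v⁻¹ := by
    have h : q * (a⁻¹ * t * a) * q⁻¹ = α⁻¹ * (q * v⁻¹ * q⁻¹) * α * (q * v * q⁻¹) := by
      rw [e3, hα']; group
    rw [e1, e2, e2'] at h
    have hl : q * (t * v⁻¹) * q⁻¹ = v⁻¹ := by
      calc q * (t * v⁻¹) * q⁻¹ = (q * t) * q⁻¹ * (q * v⁻¹ * q⁻¹) := by group
        _ = v⁻¹ := by rw [← hqt, e2']; group
    rw [hl] at h
    rw [h]
    calc α⁻¹ * (t⁻¹ * α * t) = α⁻¹ * t⁻¹ * v⁻¹ * (v * α) * t := by group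
      _ = α⁻¹ * t⁻¹ * v⁻¹ * (α * v) * t := by rw [hαv]
      _ = α⁻¹ * (t⁻¹ * v⁻¹) * α * (v * t) := by group
  have hmem : t⁻¹ * α * t * c = α * a := by
    calc t⁻¹ * α * t * c = α * (α⁻¹ * (t⁻¹ * α * t)) * c := by group
      _ = α * (a * c⁻¹) * c := by rw [e4, hv, L.inv_v]
      _ = α * a := by group
  have hC' : t⁻¹ * α * t ∈ C := by
    rw [← L.conjBy_vt_A, ← ht]; simpa using conj_mem_conjBy hα t⁻¹
  have hz : α * a = 1 := by
    by_contra h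
    exact L.hne (root_TI L.hS L.hA ⟨L.hQ, L.hAQ⟩ L.hC (mul_mem hα L.ha)
      (hmem ▸ mul_mem hC' L.hc) h).symm
  rw [hα'] at hz
  have h5 : a⁻¹ * q * a = q⁻¹ * a⁻¹ * q := by
    calc a⁻¹ * q * a = q⁻¹ * (q * (a⁻¹ * q * a) * q⁻¹ * a) * a⁻¹ * q := by group
      _ = q⁻¹ * a⁻¹ * q := by rw [hz, mul_one]
  calc q⁻¹ * a * q = (q⁻¹ * a⁻¹ * q)⁻¹ := by group
    _ = a⁻¹ * q⁻¹ * a := by rw [← h5]; group

/-- The members `A^(vt q')` commute with `A` and differ from it. -/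
lemma family {x : G} (hx : x ∈ Q) (hx1 : x ≠ 1) :
    conjBy A (vt a c x)⁻¹ ∈ S ∧ ⁅conjBy A (vt a c x)⁻¹, A⁆ = ⊥ ∧ conjBy A (vt a c x)⁻¹ ≠ A := by
  refine ⟨L.hS.conj_mem A L.hA _, ?_⟩
  obtain ⟨α, hα, -, eα⟩ := L.hAQ.cond_right x hx hx1
  set v := a⁻¹ * c with hv
  have hvA : conjBy A v = A :=
    centralizer_conjBy (H := A) (Subgroup.mem_centralizer_iff.2 fun y hy => (L.comm_a hy).symm) le_rfl
  have e : (vt a c x)⁻¹ = x * (v⁻¹ * x⁻¹ * v) := by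
    rw [hv, L.qD hx (inv_mem hx)]
    simp only [vt]; group
  have eM : conjBy A (vt a c x)⁻¹ = conjBy (conjBy (conjBy Q α⁻¹) v⁻¹) x := by
    rw [e, ← conjBy_conjBy, ← conjBy_conjBy, hvA, ← conjBy_conjBy, eα]
  have eA : A = conjBy (conjBy Q α⁻¹) x := by
    rw [eα, conjBy_conjBy, mul_inv_cancel, conjBy_one]
  have hav : v⁻¹ * α⁻¹ = α⁻¹ * v⁻¹ := by
    rw [← mul_inv_rev, ← mul_inv_rev, (L.comm_a hα)]
  have eM' : conjBy A (vt a c x)⁻¹ = conjBy (conjBy (conjBy Q v⁻¹) α⁻¹) x := by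
    rw [eM, conjBy_conjBy Q, hav, ← conjBy_conjBy Q]
  refine ⟨?_, fun h => ?_⟩
  · rw [eM']
    nth_rewrite 1 [eA]
    rw [← conjBy_commutator, ← conjBy_commutator, Subgroup.commutator_comm, L.bot_D, conjBy_bot,
      conjBy_bot]
  · rw [eM'] at h
    have h' := conjBy_injective (conjBy_injective (h.trans eA))
    rw [hv, L.inv_v] at h'
    have h2 := congrArg (fun H => conjBy H a⁻¹) h'
    simp only [conjBy_conjBy, inv_mul_cancel_left] at h2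
    rw [← L.ec, ← L.ea] at h2
    exact L.hne (conjBy_injective h2).symm

/-- If everything commuting with `A` commutes with `B`, the diagonal of `⟨A, Q⟩` fixes `a`. -/
lemma fixed {x : G} (hx : x ∈ Q) (hx1 : x ≠ 1) (hqx : q * x ≠ 1) (hq1 : q ≠ 1) (hB : B ∈ S)
    (hAB : IsRankOnePair A B)
    (H0 : ∀ E ∈ S, E ≠ A → ⁅E, A⁆ = ⊥ → ⁅E, B⁆ = ⊥)
    {h : G} (hh : h ∈ A ⊔ Q) (hhA : conjBy A h = A) : h * a * h⁻¹ = a := by
  set v := a⁻¹ * c with hv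
  set t := vt a c q with ht
  set s := vt a c x with hs
  set w := v * (s⁻¹ * v * s)⁻¹ with hw
  have hst : t * s = s * t := by
    rw [ht, hs, L.vt_mul L.hq hx, L.vt_mul hx L.hq, root_comm L.hS L.hQ L.hq hx]
  have hqt : t * q = q * t := L.vt_comm L.hq L.hq
  have hqs : s * q = q * s := L.vt_comm L.hq hx
  have e2 : q⁻¹ * v * q = v * t⁻¹ := by
    calc q⁻¹ * v * q = v * (v⁻¹ * q⁻¹ * v * q) := by group
      _ = v * t⁻¹ := by rw [ht, vt, ← hv]; group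
  have hwq : q⁻¹ * w * q = w := by
    calc q⁻¹ * w * q = (q⁻¹ * v * q) * (q⁻¹ * (s⁻¹ * v * s) * q)⁻¹ := by rw [hw]; group
      _ = (v * t⁻¹) * ((s * q)⁻¹ * v * (s * q))⁻¹ := by rw [e2]; group
      _ = (v * t⁻¹) * (s⁻¹ * (q⁻¹ * v * q) * s)⁻¹ := by rw [hqs]; group
      _ = (v * t⁻¹) * (s⁻¹ * v * (t⁻¹ * s))⁻¹ := by rw [e2]; group
      _ = (v * t⁻¹) * (s⁻¹ * v * (s * t⁻¹))⁻¹ := by
        rw [((show Commute t s from hst).inv_left).eq]
      _ = w := by rw [hw]; group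
  obtain ⟨hM1, hM1A, hM1ne⟩ := L.family hx hx1
  obtain ⟨hM2, hM2A, hM2ne⟩ := L.family (mul_mem L.hq hx) hqx
  have hm1 : s⁻¹ * a * s ∈ conjBy A (vt a c x)⁻¹ := by
    rw [← hs]; simpa using conj_mem_conjBy L.ha s⁻¹
  have hm2 : s⁻¹ * c⁻¹ * s ∈ conjBy A (vt a c (q * x))⁻¹ := by
    rw [← L.vt_mul L.hq hx, ← ht, ← hs, mul_inv_rev, ← conjBy_conjBy, ht, L.conjBy_vt_A]
    simpa using conj_mem_conjBy (inv_mem L.hc) s⁻¹
  have hw' : w = a⁻¹ * (c * (s⁻¹ * c⁻¹ * s) * (s⁻¹ * a * s)) := by rw [hw, hv]; group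
  have hr : ∀ y : G, (∀ E ∈ S, E ≠ A → ⁅E, A⁆ = ⊥ → ∀ e ∈ E, e * y = y * e) →
      c * (s⁻¹ * c⁻¹ * s) * (s⁻¹ * a * s) * y = y * (c * (s⁻¹ * c⁻¹ * s) * (s⁻¹ * a * s)) := by
    intro y hy
    exact ((show Commute c y from hy C L.hC L.hne.symm (by rw [Subgroup.commutator_comm]; exact L.hAC) c L.hc).mul_left
      (show Commute _ y from hy _ hM2 hM2ne hM2A _ hm2)).mul_left
        (show Commute _ y from hy _ hM1 hM1ne hM1A _ hm1) |>.eq
  have hwA : ∀ y ∈ A, w * y = y * w := by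
    intro y hy
    have h1 := hr y fun E _ _ hE e he => commute_of_commutator_eq_bot hE he hy
    have h2 : Commute a⁻¹ y := root_comm L.hS L.hA (inv_mem L.ha) hy
    rw [hw']
    exact (h2.mul_left h1).eq
  have hwB : ∀ y ∈ B, w * y * w⁻¹ = a⁻¹ * y * a := by
    intro y hy
    have h1 := hr y fun E hE hne hEA e he => commute_of_commutator_eq_bot (H0 E hE hne hEA) he hy
    rw [hw']
    calc a⁻¹ * _ * y * (a⁻¹ * _)⁻¹ = a⁻¹ * (c * (s⁻¹ * c⁻¹ * s) * (s⁻¹ * a * s) * y) *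
          (c * (s⁻¹ * c⁻¹ * s) * (s⁻¹ * a * s))⁻¹ * a := by group
      _ = a⁻¹ * y * a := by rw [h1]; group
  have hY : A ⊔ Q ≤ Subgroup.centralizer {w} := by
    have hU : conjBy A q⁻¹ ∈ unipotentSubgroups A Q :=
      conjBy_mem_unipotent (left_mem_unipotent A Q) (inv_mem (Subgroup.mem_sup_right L.hq))
    have hUne : conjBy A q⁻¹ ≠ A := fun e => by
      have : q⁻¹ ∈ Q ⊓ Subgroup.normalizer (A : Set G) :=
        Subgroup.mem_inf.2 ⟨inv_mem L.hq, mem_normalizer_iff_conjBy.2 e⟩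
      rw [rankOne_inf_normalizer' L.hAQ, Subgroup.mem_bot, inv_eq_one] at this
      exact hq1 this
    rw [← unipotent_pair L.hAQ (left_mem_unipotent A Q) hU hUne.symm]
    have hAw : A ≤ Subgroup.centralizer {w} := fun y hy =>
      Subgroup.mem_centralizer_singleton_iff.2 (hwA y hy).symm
    refine sup_le hAw fun y hy => ?_
    rw [mem_conjBy, inv_inv] at hy
    have hqw : q ∈ Subgroup.centralizer {w} := by
      rw [Subgroup.mem_centralizer_singleton_iff]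
      calc q * w = q * (q⁻¹ * w * q) := by rw [hwq]
        _ = w * q := by group
    have := mul_mem (mul_mem (inv_mem hqw) (hAw hy)) hqw
    simpa [mul_assoc] using this
  have hwh : h * w = w * h := Subgroup.mem_centralizer_singleton_iff.1 (hY hh)
  have hpair : IsRankOnePair A (conjBy B h) := by
    have := rankOnePair_conjBy hAB h; rwa [hhA] at this
  have hah : h * a * h⁻¹ ∈ A := by
    have := conj_mem_conjBy L.ha h
    rwa [hhA] at this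
  have H0' : ∀ y ∈ conjBy B h, w * y * w⁻¹ = a⁻¹ * y * a := by
    intro y hy
    have h1 := hr y fun E hE hne hEA e he => by
      have hne' : conjBy E h⁻¹ ≠ A := fun e' => hne (by
        have := congrArg (fun H => conjBy H h) e'
        simpa [conjBy_conjBy, conjBy_one, hhA] using this)
      have hA' : conjBy A h⁻¹ = A := by
        conv_lhs => rw [← hhA]
        rw [conjBy_conjBy, inv_mul_cancel, conjBy_one]
      have hEA' : ⁅conjBy E h⁻¹, A⁆ = ⊥ := by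
        rw [← hA', ← conjBy_commutator, hEA, conjBy_bot]
      have := congrArg (fun H => conjBy H h) (H0 _ (L.hS.conj_mem E hE _) hne' hEA')
      simp only [conjBy_commutator, conjBy_bot, conjBy_conjBy, mul_inv_cancel, conjBy_one] at this
      exact commute_of_commutator_eq_bot this he hy
    rw [hw']
    calc a⁻¹ * _ * y * (a⁻¹ * _)⁻¹ = a⁻¹ * (c * (s⁻¹ * c⁻¹ * s) * (s⁻¹ * a * s) * y) *
          (c * (s⁻¹ * c⁻¹ * s) * (s⁻¹ * a * s))⁻¹ * a := by group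
      _ = a⁻¹ * y * a := by rw [h1]; group
  have hcen : h * a * h⁻¹ * a⁻¹ ∈ Subgroup.normalizer ((conjBy B h : Subgroup G) : Set G) := by
    refine Subgroup.centralizer_le_normalizer _ (Subgroup.mem_centralizer_iff.2 fun y hy => ?_)
    have hy' := mem_conjBy.1 hy
    have h1 : w * y * w⁻¹ = h * (w * (h⁻¹ * y * h) * w⁻¹) * h⁻¹ := by
      calc w * y * w⁻¹ = (w * h) * (h⁻¹ * y * h) * (w * h)⁻¹ := by group
        _ = (h * w) * (h⁻¹ * y * h) * (h * w)⁻¹ := by rw [hwh]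
        _ = _ := by group
    rw [H0' y hy, hwB _ hy'] at h1
    calc y * (h * a * h⁻¹ * a⁻¹) = (h * a * h⁻¹) * (h * (a⁻¹ * (h⁻¹ * y * h) * a) * h⁻¹) * a⁻¹ := by group
      _ = (h * a * h⁻¹) * (a⁻¹ * y * a) * a⁻¹ := by rw [← h1]
      _ = h * a * h⁻¹ * a⁻¹ * y := by group
  have hfin : h * a * h⁻¹ * a⁻¹ ∈ A ⊓ Subgroup.normalizer ((conjBy B h : Subgroup G) : Set G) :=
    Subgroup.mem_inf.2 ⟨mul_mem hah (inv_mem L.ha), hcen⟩
  rw [rankOne_inf_normalizer hpair, Subgroup.mem_bot, mul_inv_eq_one] at hfin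
  exact hfin

end Tr

lemma tr_exists (hS : IsRootSubgroupSet S) (hA : A ∈ S) (hC : C ∈ S) (hQ : Q ∈ S) (hAC : ⁅A, C⁆ = ⊥)
    (hne : A ≠ C) (hAQ : IsRankOnePair A Q) (hCQ : IsRankOnePair C Q) {a q : G} (ha : a ∈ A)
    (hq : q ∈ Q) (hq1 : q ≠ 1) (ea : conjBy A q⁻¹ = conjBy Q a⁻¹) :
    ∃ c, Tr S A C Q a c q := by
  obtain ⟨c, hc, -, ec⟩ := hCQ.cond_right q hq hq1
  exact ⟨c, hS, hA, hC, hQ, hAC, hne, hAQ, hCQ, ha, hc, hq, ea, ec.symm⟩

lemma special_of_transfer (hS : IsRootSubgroupSet S) (hA : A ∈ S) (hC : C ∈ S) (hQ : Q ∈ S)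
    (hAC : ⁅A, C⁆ = ⊥) (hne : A ≠ C) (hAQ : IsRankOnePair A Q) (hCQ : IsRankOnePair C Q) :
    IsSpecialRankOnePair A Q :=
  ⟨hAQ, fun a ha _ q hq hq1 e =>
    have ⟨_, L⟩ := tr_exists hS hA hC hQ hAC hne hAQ hCQ ha hq hq1 e
    L.identity⟩

lemma not_comm_of_pair (h : IsRankOnePair A B) : ⁅A, B⁆ ≠ ⊥ := by
  intro hb
  apply rankOne_left_ne_bot h
  rw [← le_bot_iff, ← rankOne_inf_normalizer h]
  refine le_inf le_rfl fun p hp => mem_normalizer_iff_conjBy.2 ?_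
  exact centralizer_conjBy (H := B)
    (Subgroup.mem_centralizer_iff.2 fun q hq => (commute_of_commutator_eq_bot hb hp hq).symm) le_rfl

lemma deg_opp (hS : IsRootSubgroupSet S) (hdeg : IsDegenerateRootSet S) (hA : A ∈ S) (hB : B ∈ S)
    (h : ⁅A, B⁆ ≠ ⊥) : IsRankOnePair A B := by
  rcases hS.pair A hA B hB with h' | h' | h'
  · exact absurd h' h
  · exact h'
  · exact absurd h' (hdeg A hA B hB)

/-- some member commuting with `A` has a common partner with it -/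
lemma exists_config (hS : IsRootSubgroupClass S) (hdeg : IsDegenerateRootSet S) (hA : A ∈ S)
    (hB : B ∈ rankOnePartners S A) (hC : C ∈ S) (hne : A ≠ C) (hAC : ⁅A, C⁆ = ⊥) :
    ∃ C' ∈ S, ∃ Q ∈ S, A ≠ C' ∧ ⁅A, C'⁆ = ⊥ ∧ IsRankOnePair A Q ∧ IsRankOnePair C' Q := by
  have hreach : Relation.ReflTransGen (FAdj S) A C := by
    obtain ⟨g, rfl⟩ := hS.2.2 A hA C hC
    exact fReach_conj hS.1 hA hB g
  have key : ∀ Y, Relation.ReflTransGen (FAdj S) Y A → Y ∈ S → A ≠ Y → ⁅A, Y⁆ = ⊥ →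
      ∃ C' ∈ S, ∃ Q ∈ S, A ≠ C' ∧ ⁅A, C'⁆ = ⊥ ∧ IsRankOnePair A Q ∧ IsRankOnePair C' Q := by
    intro Y hY
    induction hY using Relation.ReflTransGen.head_induction_on with
    | refl => exact fun _ h _ => absurd rfl h
    | head hstep _ ih =>
      rename_i Y Q _
      intro hYS hne' hcomm
      by_cases h : ⁅A, Q⁆ = ⊥
      · refine ih hstep.2.1 (fun e => ?_) h
        subst e
        exact not_comm_of_pair hstep.2.2 (by rw [Subgroup.commutator_comm]; exact hcomm)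
      · exact ⟨Y, hYS, Q, hstep.2.1, hne', hcomm, deg_opp hS.1 hdeg hA hstep.2.1 h, hstep.2.2⟩
  exact key C (fReach_symm hreach) hC hne hAC

lemma no_H0_of_torus (hS : IsRootSubgroupSet S) {a q h : G}
    (hA : A ∈ S) (hC : C ∈ S) (hQ : Q ∈ S) (hAC : ⁅A, C⁆ = ⊥) (hne : A ≠ C)
    (hAQ : IsRankOnePair A Q) (hCQ : IsRankOnePair C Q) (hB : B ∈ rankOnePartners S A)
    (H0 : ∀ E ∈ S, E ≠ A → ⁅E, A⁆ = ⊥ → ⁅E, B⁆ = ⊥)
    (ha : a ∈ A) (hq : q ∈ Q) (hq1 : q ≠ 1) (ea : conjBy A q⁻¹ = conjBy Q a⁻¹)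
    (hx : ∃ x ∈ Q, x ≠ 1 ∧ q * x ≠ 1) (hh : h ∈ A ⊔ Q) (hhA : conjBy A h = A) :
    h * a * h⁻¹ = a := by
  obtain ⟨c, L⟩ := tr_exists hS hA hC hQ hAC hne hAQ hCQ ha hq hq1 ea
  obtain ⟨x, hx, hx1, hqx⟩ := hx
  exact L.fixed hx hx1 hqx hq1 hB.1 hB.2 H0 hh hhA

/-- exponent larger than three -/
lemma no_H0_of_big (hS : IsRootSubgroupSet S) (hA : A ∈ S) (hC : C ∈ S) (hQ : Q ∈ S) (hAC : ⁅A, C⁆ = ⊥)
    (hne : A ≠ C) (hAQ : IsRankOnePair A Q) (hCQ : IsRankOnePair C Q) (hB : B ∈ rankOnePartners S A)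
    (H0 : ∀ E ∈ S, E ≠ A → ⁅E, A⁆ = ⊥ → ⁅E, B⁆ = ⊥)
    {a : G} (ha : a ∈ A) (h3 : ∀ k : ℕ, 1 ≤ k → k ≤ 3 → a ^ k ≠ 1) : False := by
  have ha1 : a ≠ 1 := by simpa using h3 1 le_rfl (by omega)
  have hs := special_of_transfer hS hA hC hQ hAC hne hAQ hCQ
  have hAc : ∀ x ∈ A, ∀ y ∈ A, x * y = y * x := fun x hx y hy => root_comm hS hA hx hy
  have hQc : ∀ x ∈ Q, ∀ y ∈ Q, x * y = y * x := fun x hx y hy => root_comm hS hQ hx hy
  obtain ⟨d, p⟩ := Partner.exists_left hAQ ha ha1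
  have hd2 : d ^ 2 ≠ 1 := fun e => h3 2 (by omega) (by omega) ((p.pow_eq_one_iff hs 2).1 e)
  obtain ⟨z, pz⟩ := Partner.exists_right hAQ (pow_mem p.hc 2) hd2
  have hz : z ^ 2 = a := rootLaw hs hAc hQc 2 (by norm_num) a d z p pz
  set n := a * d * a with hn
  set m := z * d ^ 2 * z with hm
  have hnm : n ∈ A ⊔ Q := mul_mem (mul_mem (Subgroup.mem_sup_left ha) (Subgroup.mem_sup_right p.hc))
    (Subgroup.mem_sup_left ha)
  have hmm : m ∈ A ⊔ Q := mul_mem (mul_mem (Subgroup.mem_sup_left pz.ha) (Subgroup.mem_sup_right pz.hc))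
    (Subgroup.mem_sup_left pz.ha)
  have hhA : conjBy A (m⁻¹ * n) = A := by
    rw [← conjBy_conjBy, p.conj_left, ← pz.conj_left, conjBy_conjBy, ← hm, inv_mul_cancel, conjBy_one]
  have hfix := no_H0_of_torus hS (a := a) (q := d⁻¹) hA hC hQ hAC hne hAQ hCQ hB H0 ha
    (inv_mem p.hc) (inv_ne_one.2 p.hc1) (by rw [inv_inv]; exact p.eq)
    ⟨d⁻¹, inv_mem p.hc, inv_ne_one.2 p.hc1, by rwa [← mul_inv_rev, inv_ne_one, ← pow_two]⟩
    (mul_mem (inv_mem hmm) hnm) hhA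
  have e1 : n * a * n⁻¹ = d := conj_fst_of_braid (p.braid hs)
  have e2 : m * z * m⁻¹ = d ^ 2 := conj_fst_of_braid (pz.braid hs)
  have e3 : m * a * m⁻¹ = d := by
    calc m * a * m⁻¹ = m * (m⁻¹ * n * a * (m⁻¹ * n)⁻¹) * m⁻¹ := by rw [hfix]
      _ = n * a * n⁻¹ := by group
      _ = d := e1
  have e4 : a ^ 2 = z := by
    have : m * a ^ 2 * m⁻¹ = m * z * m⁻¹ := by rw [← conj_pow, e3, e2]
    exact mul_left_cancel (mul_right_cancel this)
  rw [← e4, ← pow_mul] at hz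
  refine h3 3 (by omega) le_rfl ?_
  have h4 : a ^ (2 * 2) = a ^ 3 * a := pow_succ a 3
  rw [h4] at hz
  exact mul_eq_right.mp hz

lemma no_H0_of_psl (hS : IsRootSubgroupSet S) (hA : A ∈ S) (hC : C ∈ S) (hQ : Q ∈ S) (hAC : ⁅A, C⁆ = ⊥)
    (hne : A ≠ C) (hAQ : IsRankOnePair A Q) (hCQ : IsRankOnePair C Q) (hB : B ∈ rankOnePartners S A)
    (H0 : ∀ E ∈ S, E ≠ A → ⁅E, A⁆ = ⊥ → ⁅E, B⁆ = ⊥)
    {k : Type*} [Field k] (hk : 3 < ENat.card k) {A₀ Q₀ : Subgroup G} (hA₀ : A₀ ≤ A) (hQ₀ : Q₀ ≤ Q)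
    (hP : IsPSL2PairOver k A₀ Q₀) : False := by
  obtain ⟨φ, hrange, hker, hu, hl⟩ := hP
  have hxA : ∀ t : k, φ (sx t) ∈ A := fun t =>
    hA₀ (hu ▸ Subgroup.mem_map_of_mem φ (mem_upperUnipotentSL2.2 ⟨t, rfl⟩))
  have hyQ : ∀ t : k, φ (sy t) ∈ Q := fun t =>
    hQ₀ (hl ▸ Subgroup.mem_map_of_mem φ (mem_lowerUnipotentSL2.2 ⟨t, rfl⟩))
  have hx1 : ∀ t : k, φ (sx t) = 1 → t = 0 := by
    intro t ht
    have hc := Subgroup.mem_center_iff.1 (hker ht) (sy 1)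
    have := congrArg (fun M : SL(2, k) => M 0 0) hc
    simp only [sl2_mul_apply] at this
    simpa using this
  have hy1 : ∀ t : k, φ (sy t) = 1 → t = 0 := by
    intro t ht
    have hc := Subgroup.mem_center_iff.1 (hker ht) (sx 1)
    have := congrArg (fun M : SL(2, k) => M 0 0) hc
    simp only [sl2_mul_apply] at this
    simpa using this
  obtain ⟨s, hs0, hs2⟩ : ∃ s : k, s ≠ 0 ∧ s ^ 2 ≠ 1 := by
    by_contra hc
    push_neg at hc
    have hsub : (Set.univ : Set k) ⊆ {0, 1, -1} := fun s _ => by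
      by_cases h : s = 0
      · exact Or.inl h
      · rcases sq_eq_one_iff.1 (hc s h) with h' | h'
        · exact Or.inr (Or.inl h')
        · exact Or.inr (Or.inr h')
    have h1 := Set.encard_le_encard hsub
    rw [Set.encard_univ] at h1
    have h2 : ({0, 1, -1} : Set k).encard ≤ 3 := by
      refine (Set.encard_insert_le _ _).trans ?_
      have := (Set.encard_insert_le ({-1} : Set k) 1)
      rw [Set.encard_singleton] at this
      calc ({1, -1} : Set k).encard + 1 ≤ 1 + 1 + 1 := by gcongr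
        _ = 3 := rfl
    exact absurd (h1.trans h2) (not_le.2 hk)
  set a := φ (sx 1) with ha
  have ha1 : a ≠ 1 := fun e => one_ne_zero (hx1 1 e)
  obtain ⟨q, hq, hq1, ea⟩ := hAQ.cond_left a (hxA 1) ha1
  have hs1 : s ≠ 1 := fun e => hs2 (by rw [e, one_pow])
  have hyne : φ (sy 1) ≠ φ (sy s) := by
    intro e
    have h0 : φ (sy (s - 1)) = 1 := by
      have e1 : sy (s : k) = sy (s - 1) * sy 1 := by rw [← sy_add, sub_add_cancel]
      rw [e1, map_mul] at e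
      exact mul_eq_right.mp e.symm
    exact hs1 (sub_eq_zero.1 (hy1 _ h0))
  obtain ⟨x, hx, hxne, hqx⟩ : ∃ x ∈ Q, x ≠ 1 ∧ q * x ≠ 1 := by
    by_cases h : q * φ (sy 1) = 1
    · exact ⟨_, hyQ s, fun e => hs0 (hy1 s e), fun e => hyne (mul_left_cancel (h.trans e.symm))⟩
    · exact ⟨_, hyQ 1, fun e => one_ne_zero (hy1 1 e), h⟩
  let M : SL(2, k) := ⟨!![s, 0; 0, s⁻¹], by simp [Matrix.det_fin_two_of, mul_inv_cancel₀ hs0]⟩
  have hM : M * sx 1 * M⁻¹ = sx (s ^ 2) := by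
    rw [mul_inv_eq_iff_eq_mul]
    apply Subtype.ext
    show (!![s, 0; 0, s⁻¹] : Matrix (Fin 2) (Fin 2) k) * !![1, 1; 0, 1] =
      !![1, s ^ 2; 0, 1] * !![s, 0; 0, s⁻¹]
    have e : s ^ 2 * s⁻¹ = s := by field_simp
    rw [Matrix.mul_fin_two, Matrix.mul_fin_two]
    simp [e]
  set h := φ M with hh
  have hhm : h ∈ A ⊔ Q := by
    have : h ∈ φ.range := ⟨M, rfl⟩
    rw [hrange] at this
    exact sup_le (hA₀.trans le_sup_left) (hQ₀.trans le_sup_right) this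
  have hconj : h * a * h⁻¹ = φ (sx (s ^ 2)) := by rw [ha, hh, ← map_inv, ← map_mul, ← map_mul, hM]
  have hhA : conjBy A h = A := by
    refine root_TI hS hA ⟨hQ, hAQ⟩ (hS.conj_mem A hA h) (hxA (s ^ 2)) ?_
      (fun e => pow_ne_zero 2 hs0 (hx1 _ e))
    rw [← hconj]; exact conj_mem_conjBy (hxA 1) h
  have hfix := no_H0_of_torus hS hA hC hQ hAC hne hAQ hCQ hB H0 (hxA 1) hq hq1 ea ⟨x, hx, hxne, hqx⟩
    hhm hhA
  rw [hconj] at hfix
  have h0 : φ (sx (s ^ 2 - 1)) = 1 := by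
    have e1 : sx (s ^ 2 : k) = sx (s ^ 2 - 1) * sx 1 := by rw [← sx_add, sub_add_cancel]
    rw [e1, map_mul] at hfix
    exact mul_eq_right.mp hfix
  exact hs2 (sub_eq_zero.1 (hx1 _ h0))

universe u

theorem class_special {G : Type u} [Group G] {S : Set (Subgroup G)} (hS : IsRootSubgroupClass S)
    (hcomm : ∃ A ∈ S, ∃ C ∈ S, A ≠ C ∧ ⁅A, C⁆ = ⊥)
    (hH : IsDegenerateRootSet S → (∀ A ∈ S, ∀ a ∈ A, 0 < orderOf a ∧ orderOf a ≤ 3) →
      ∀ A ∈ S, ∀ B ∈ rankOnePartners S A, ∃ A₀ B₀ : Subgroup G, A₀ ≤ A ∧ B₀ ≤ B ∧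
        ∃ (k : Type u) (_ : Field k), 3 < ENat.card k ∧ IsPSL2PairOver k A₀ B₀)
    {A B : Subgroup G} (hA : A ∈ S) (hB : B ∈ rankOnePartners S A) : IsSpecialRankOnePair A B := by
  by_cases hdeg : IsDegenerateRootSet S
  swap
  · have hnd : IsNondegenerateRootSet S := by
      refine ⟨hcomm, ⟨A, hA, B, hB.1, hB.2⟩, ?_⟩
      simp only [IsDegenerateRootSet, not_forall, not_not] at hdeg
      obtain ⟨P, hP, R, hR, h⟩ := hdeg
      exact ⟨P, hP, R, hR, h⟩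
    obtain ⟨C, -, -, L⟩ := exists_lineData hS hnd hA hB
    exact L.special
  by_cases hex : ∃ C ∈ S, A ≠ C ∧ ⁅A, C⁆ = ⊥ ∧ IsRankOnePair C B
  · obtain ⟨C, hC, hne, hAC, hCB⟩ := hex
    exact special_of_transfer hS.1 hA hC hB.1 hAC hne hB.2 hCB
  exfalso
  have H0 : ∀ E ∈ S, E ≠ A → ⁅E, A⁆ = ⊥ → ⁅E, B⁆ = ⊥ := by
    intro E hE hne hEA
    by_contra h
    exact hex ⟨E, hE, hne.symm, by rw [Subgroup.commutator_comm]; exact hEA,
      deg_opp hS.1 hdeg hE hB.1 h⟩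
  obtain ⟨A₁, hA₁, C₁, hC₁, hne₁, hc₁⟩ := hcomm
  obtain ⟨g, rfl⟩ := hS.2.2 A₁ hA₁ A hA
  have hc : ⁅conjBy A₁ g, conjBy C₁ g⁆ = ⊥ := by rw [← conjBy_commutator, hc₁, conjBy_bot]
  obtain ⟨C, hC, Q, hQ, hne, hAC, hAQ, hCQ⟩ := exists_config hS hdeg hA hB (hS.1.conj_mem C₁ hC₁ g)
    (fun e => hne₁ (conjBy_injective e)) hc
  by_cases hexp : ∀ P ∈ S, ∀ x ∈ P, 0 < orderOf x ∧ orderOf x ≤ 3
  · obtain ⟨A₀, Q₀, h1, h2, k, hk, hcard, hP⟩ := hH hdeg hexp _ hA Q ⟨hQ, hAQ⟩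
    exact no_H0_of_psl hS.1 hA hC hQ hAC hne hAQ hCQ hB H0 hcard h1 h2 hP
  · simp only [not_forall, exists_prop] at hexp
    obtain ⟨P, hP, x, hx, hord⟩ := hexp
    obtain ⟨g', e⟩ := hS.2.2 P hP _ hA
    refine no_H0_of_big hS.1 hA hC hQ hAC hne hAQ hCQ hB H0
      (a := g' * x * g'⁻¹) (e ▸ conj_mem_conjBy hx g') fun j hj hj3 hpow => hord ?_
    rw [conj_pow, conj_eq_one_iff] at hpow
    exact ⟨(isOfFinOrder_iff_pow_eq_one.2 ⟨j, hj, hpow⟩).orderOf_pos,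
      (Nat.le_of_dvd hj (orderOf_dvd_of_pow_eq_one hpow)).trans hj3⟩

end Cfsg.Agent.H92.RS
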