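import Cfsg.Agent.H92.RootLine

/-! Two commutator cases `(A, B)`, `(B, C)` with `A`, `C` commuting: `⟨A, B, C⟩` is nilpotent. -/

set_option autoImplicit false

namespace Cfsg.Agent.H92.RT

open Cfsg
open scoped commutatorElement

variable {G : Type*} [Group G] {S : Set (Subgroup G)} {A B C H K R T U X Y Z : Subgroup G}

lemma bot_symm (h : ⁅X, Y⁆ = ⊥) : ⁅Y, X⁆ = ⊥ := by rwa [Subgroup.commutator_comm]

lemma bot_sup (h1 : ⁅X, Z⁆ = ⊥) (h2 : ⁅Y, Z⁆ = ⊥) : ⁅X ⊔ Y, Z⁆ = ⊥ := by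
  rw [Subgroup.commutator_eq_bot_iff_le_centralizer] at *
  exact sup_le h1 h2

lemma bot_mono (h : ⁅Y, Z⁆ = ⊥) (hX : X ≤ Y) : ⁅X, Z⁆ = ⊥ :=
  eq_bot_iff.mpr (le_trans (Subgroup.commutator_mono hX le_rfl) h.le)

lemma le_normalizer_of_bot (h : ⁅X, R⁆ = ⊥) : X ≤ Subgroup.normalizer (R : Set G) :=
  (Subgroup.commutator_eq_bot_iff_le_centralizer.mp h).trans
    (Subgroup.centralizer_le_normalizer (R : Set G))

lemma conjBy_eq_of_normalizes {x : G} (hx : x ∈ Subgroup.normalizer (X : Set G)) : conjBy X x = X :=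
  mem_normalizer_iff_conjBy.mp hx

lemma normalizer_sup_le (hX : H ≤ Subgroup.normalizer (X : Set G))
    (hY : H ≤ Subgroup.normalizer (Y : Set G)) :
    H ≤ Subgroup.normalizer ((X ⊔ Y : Subgroup G) : Set G) := fun x hx => by
  rw [mem_normalizer_iff_conjBy, conjBy_sup, mem_normalizer_iff_conjBy.mp (hX hx),
    mem_normalizer_iff_conjBy.mp (hY hx)]

lemma normalizer_commutator_le (hX : H ≤ Subgroup.normalizer (X : Set G))
    (hY : H ≤ Subgroup.normalizer (Y : Set G)) :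
    H ≤ Subgroup.normalizer ((⁅X, Y⁆ : Subgroup G) : Set G) := fun x hx => by
  rw [mem_normalizer_iff_conjBy, conjBy_commutator, mem_normalizer_iff_conjBy.mp (hX hx),
    mem_normalizer_iff_conjBy.mp (hY hx)]

lemma conj_mem_of_normalizes {x r : G} (hx : x ∈ Subgroup.normalizer (R : Set G)) (hr : r ∈ R) :
    x * r * x⁻¹ ∈ R := by
  rw [← mem_normalizer_iff_conjBy.mp hx]
  exact conj_mem_conjBy hr x

lemma commutator_sup_le (hX : X ≤ Subgroup.normalizer (R : Set G))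
    (hY : Y ≤ Subgroup.normalizer (R : Set G)) (h1 : ⁅X, Z⁆ ≤ R) (h2 : ⁅Y, Z⁆ ≤ R) :
    ⁅X ⊔ Y, Z⁆ ≤ R := by
  rw [Subgroup.commutator_le]
  intro x hx z hz
  rw [Subgroup.sup_eq_closure] at hx
  have key : x ∈ Subgroup.normalizer (R : Set G) ∧ ⁅x, z⁆ ∈ R := by
    induction hx using Subgroup.closure_induction with
    | mem x hx =>
      rcases hx with hx | hx
      · exact ⟨hX hx, h1 (Subgroup.commutator_mem_commutator hx hz)⟩
      · exact ⟨hY hx, h2 (Subgroup.commutator_mem_commutator hx hz)⟩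
    | one => exact ⟨one_mem _, by simp⟩
    | mul x y _ _ ihx ihy =>
      refine ⟨mul_mem ihx.1 ihy.1, ?_⟩
      have e : ⁅x * y, z⁆ = x * ⁅y, z⁆ * x⁻¹ * ⁅x, z⁆ := by
        simp only [commutatorElement_def]; group
      rw [e]
      exact mul_mem (conj_mem_of_normalizes ihx.1 ihy.2) ihx.2
    | inv x _ ihx =>
      refine ⟨inv_mem ihx.1, ?_⟩
      have e : ⁅x⁻¹, z⁆ = x⁻¹ * ⁅x, z⁆⁻¹ * x⁻¹⁻¹ := by
        simp only [commutatorElement_def]; group
      rw [e]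
      exact conj_mem_of_normalizes (inv_mem ihx.1) (inv_mem ihx.2)
  exact key.2

/-- `A ⊔ A^b = A ⊔ ⁅A, B⁆`. -/
lemma sup_conj_eq (h : RootCommutatorCase S A B) {b : G} (hb : b ∈ B) (hb1 : b ≠ 1) :
    A ⊔ conjBy A b⁻¹ = A ⊔ ⁅A, B⁆ := by
  apply le_antisymm <;> refine sup_le le_sup_left ?_
  · intro x hx
    rw [mem_conjBy, inv_inv] at hx
    have e : x = b * x * b⁻¹ * ⁅(b * x * b⁻¹)⁻¹, b⁻¹⁆ := by
      simp only [commutatorElement_def]; group
    rw [e]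
    exact mul_mem (Subgroup.mem_sup_left hx) (Subgroup.mem_sup_right
      (Subgroup.commutator_mem_commutator (inv_mem hx) (inv_mem hb)))
  · rw [← h.2.2.2 b⁻¹ (inv_mem hb) (inv_ne_one.mpr hb1), Subgroup.closure_le]
    rintro _ ⟨a, ha, rfl⟩
    have e : a * b⁻¹ * a⁻¹ * b⁻¹⁻¹ = a * (b⁻¹ * a⁻¹ * b⁻¹⁻¹) := by group
    show a * b⁻¹ * a⁻¹ * b⁻¹⁻¹ ∈ A ⊔ conjBy A b⁻¹
    rw [e]
    exact mul_mem (Subgroup.mem_sup_left ha)
      (Subgroup.mem_sup_right (conj_mem_conjBy (inv_mem ha) b⁻¹))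

lemma rcc_central_left (h : RootCommutatorCase S A B) : ⁅⁅A, B⁆, A⁆ = ⊥ :=
  commutator_eq_bot_of_commute fun c hc a ha => h.2.1 c hc a (Subgroup.mem_sup_left ha)

lemma rcc_central_right (h : RootCommutatorCase S A B) : ⁅⁅A, B⁆, B⁆ = ⊥ :=
  commutator_eq_bot_of_commute fun c hc a ha => h.2.1 c hc a (Subgroup.mem_sup_right ha)

lemma root_self_bot (hS : IsRootSubgroupSet S) (hA : A ∈ S) : ⁅A, A⁆ = ⊥ :=
  commutator_eq_bot_of_commute fun _ hx _ hy => root_comm hS hA hx hy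

/-- The hypotheses. -/
structure Triple (S : Set (Subgroup G)) (A B C : Subgroup G) : Prop where
  hS : IsRootSubgroupSet S
  hA : A ∈ S
  hB : B ∈ S
  hC : C ∈ S
  h1 : RootCommutatorCase S A B
  h2 : RootCommutatorCase S B C
  hAC : ⁅A, C⁆ = ⊥

namespace Triple

variable (L : Triple S A B C)
include L

lemma swap : Triple S C B A :=
  ⟨L.hS, L.hC, L.hB, L.hA, rcc_symm L.h2, rcc_symm L.h1, bot_symm L.hAC⟩

variable {b : G} (hb : b ∈ B) (hb1 : b ≠ 1)
include hb hb1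

lemma commA : ⁅conjBy A b⁻¹, A⁆ = ⊥ :=
  bot_mono (bot_sup (root_self_bot L.hS L.hA) (rcc_central_left L.h1))
    (le_sup_right.trans (sup_conj_eq L.h1 hb hb1).le)

lemma commMN : ⁅A ⊔ conjBy C b⁻¹, conjBy A b⁻¹ ⊔ C⁆ = ⊥ := by
  have hC' : ⁅conjBy C b⁻¹, conjBy A b⁻¹⁆ = ⊥ := by
    rw [← conjBy_commutator, bot_symm L.hAC, conjBy_bot]
  refine bot_sup (bot_symm (bot_sup (L.commA hb hb1) (bot_symm L.hAC)))
    (bot_symm (bot_sup (bot_symm hC') (bot_symm (L.swap.commA hb hb1))))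

lemma not_rankOne : ¬ IsRankOnePair A (conjBy C b⁻¹) := by
  intro hp
  obtain ⟨a, ha, ha1⟩ := ne_one_exists (L.hS.ne_bot A L.hA)
  have hz : b⁻¹ * a * b ∈ Subgroup.centralizer ((A ⊔ conjBy C b⁻¹ : Subgroup G) : Set G) := by
    have h := bot_symm (L.commMN hb hb1)
    rw [Subgroup.commutator_eq_bot_iff_le_centralizer] at h
    refine h (Subgroup.mem_sup_left ?_)
    rw [mem_conjBy]; simpa [mul_assoc] using ha
  have hP : b⁻¹ * a * b * a⁻¹ ∈ ⁅A, B⁆ := by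
    rw [Subgroup.commutator_comm]
    have := Subgroup.commutator_mem_commutator (inv_mem hb) ha
    simpa [commutatorElement_def] using this
  have := member_eq_of_mem L.hS L.hA ⟨L.hS.conj_mem C L.hC b⁻¹, hp⟩ L.h1.1 hz (inv_mem ha)
    (inv_ne_one.mpr ha1) hP
  have h0 := rcc_inf' L.hS L.h1
  rw [this, inf_idem] at h0
  exact L.hS.ne_bot A L.hA h0

lemma left_or : ⁅A, conjBy C b⁻¹⁆ = ⊥ ∨ RootCommutatorCase S A (conjBy C b⁻¹) := by
  rcases L.hS.pair A L.hA _ (L.hS.conj_mem C L.hC b⁻¹) with h | h | h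
  · exact Or.inl h
  · exact absurd h (L.not_rankOne hb hb1)
  · exact Or.inr h

lemma bot_iff : ⁅A, conjBy C b⁻¹⁆ = ⊥ ↔ ⁅A, ⁅B, C⁆⁆ = ⊥ := by
  have e := sup_conj_eq (rcc_symm L.h2) hb hb1
  rw [Subgroup.commutator_comm C B] at e
  constructor <;> intro h
  · exact bot_symm (bot_mono (bot_sup (bot_symm L.hAC) (bot_symm h))
      (le_sup_right.trans e.symm.le))
  · exact bot_symm (bot_mono (bot_sup (bot_symm L.hAC) (bot_symm h)) (le_sup_right.trans e.le))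

lemma both_iff : ⁅A, conjBy C b⁻¹⁆ = ⊥ ↔ ⁅C, conjBy A b⁻¹⁆ = ⊥ := by
  rw [L.bot_iff hb hb1, L.swap.bot_iff hb hb1]
  constructor <;> intro h
  · have := Subgroup.commutator_commutator_eq_bot_of_rotate (H₁ := A) (H₂ := B) (H₃ := C)
      (bot_symm h) (by rw [bot_symm L.hAC]; exact Subgroup.commutator_bot_left _)
    rw [Subgroup.commutator_comm B A]
    exact bot_symm this
  · rw [Subgroup.commutator_comm B A] at h
    have := Subgroup.commutator_commutator_eq_bot_of_rotate (H₁ := C) (H₂ := B) (H₃ := A)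
      (by rw [Subgroup.commutator_comm B A]; exact bot_symm h)
      (by rw [L.hAC]; exact Subgroup.commutator_bot_left _)
    rw [Subgroup.commutator_comm B C]
    exact bot_symm this

lemma class_two :
    ⁅⁅A ⊔ conjBy C b⁻¹, A ⊔ conjBy C b⁻¹⁆, A ⊔ conjBy C b⁻¹⁆ = ⊥ := by
  set C' := conjBy C b⁻¹ with hC'
  have hAA := root_self_bot L.hS L.hA
  have hCC := root_self_bot L.hS (L.hS.conj_mem C L.hC b⁻¹)
  rcases L.left_or hb hb1 with h | h
  · have hM : ⁅A ⊔ C', A ⊔ C'⁆ = ⊥ :=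
      bot_sup (bot_symm (bot_sup hAA (bot_symm h))) (bot_symm (bot_sup h hCC))
    rw [hM]; exact Subgroup.commutator_bot_left _
  · set R := ⁅A, C'⁆ with hR
    have hRA := rcc_central_left h
    have hRC := rcc_central_right h
    have hnA := le_normalizer_of_bot (bot_symm hRA)
    have hnC := le_normalizer_of_bot (bot_symm hRC)
    have hM : ⁅A ⊔ C', A ⊔ C'⁆ ≤ R := by
      refine commutator_sup_le hnA hnC ?_ ?_
      · rw [Subgroup.commutator_comm]
        refine commutator_sup_le hnA hnC (hAA.le.trans bot_le) ?_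
        rw [Subgroup.commutator_comm]
      · rw [Subgroup.commutator_comm]
        exact commutator_sup_le hnA hnC le_rfl (hCC.le.trans bot_le)
    exact bot_mono (bot_symm (bot_sup (bot_symm hRA) (bot_symm hRC))) hM

lemma abelian_of_bot (h : ⁅A, conjBy C b⁻¹⁆ = ⊥) :
    IsMulCommutative ↥(A ⊔ conjBy C b⁻¹) := by
  have hM : ⁅A ⊔ conjBy C b⁻¹, A ⊔ conjBy C b⁻¹⁆ = ⊥ :=
    bot_sup (bot_symm (bot_sup (root_self_bot L.hS L.hA) (bot_symm h)))
      (bot_symm (bot_sup h (root_self_bot L.hS (L.hS.conj_mem C L.hC b⁻¹))))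
  exact ⟨⟨fun x y => Subtype.ext (commute_of_commutator_eq_bot hM x.2 y.2)⟩⟩

omit L hb hb1 in
lemma bot_of_abelian (h : IsMulCommutative ↥(X ⊔ Y)) : ⁅X, Y⁆ = ⊥ :=
  commutator_eq_bot_of_commute fun x hx y hy => congrArg Subtype.val
    (h.is_comm.comm ⟨x, Subgroup.mem_sup_left hx⟩ ⟨y, Subgroup.mem_sup_right hy⟩)

lemma main_dichotomy :
    (IsMulCommutative ↥(A ⊔ conjBy C b⁻¹) ∧ IsMulCommutative ↥(conjBy A b⁻¹ ⊔ C)) ∨
      ((¬ IsMulCommutative ↥(A ⊔ conjBy C b⁻¹) ∧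
          ⁅⁅A ⊔ conjBy C b⁻¹, A ⊔ conjBy C b⁻¹⁆, A ⊔ conjBy C b⁻¹⁆ = ⊥) ∧
        (¬ IsMulCommutative ↥(conjBy A b⁻¹ ⊔ C) ∧
          ⁅⁅conjBy A b⁻¹ ⊔ C, conjBy A b⁻¹ ⊔ C⁆, conjBy A b⁻¹ ⊔ C⁆ = ⊥)) := by
  by_cases h : ⁅A, conjBy C b⁻¹⁆ = ⊥
  · refine Or.inl ⟨L.abelian_of_bot hb hb1 h, ?_⟩
    rw [sup_comm]
    exact L.swap.abelian_of_bot hb hb1 ((L.both_iff hb hb1).mp h)
  · refine Or.inr ⟨⟨fun h' => h (bot_of_abelian h'), L.class_two hb hb1⟩, fun h' => h ?_, ?_⟩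
    · rw [sup_comm] at h'
      exact (L.both_iff hb hb1).mpr (bot_of_abelian h')
    · rw [sup_comm]; exact L.swap.class_two hb hb1

lemma U_eq : (A ⊔ conjBy C b⁻¹) ⊔ (conjBy A b⁻¹ ⊔ C) = (A ⊔ ⁅A, B⁆) ⊔ (C ⊔ ⁅B, C⁆) := by
  rw [← sup_conj_eq L.h1 hb hb1, Subgroup.commutator_comm B C,
    ← sup_conj_eq (rcc_symm L.h2) hb hb1]
  ac_rfl

lemma B_normalizes_AP : B ≤ Subgroup.normalizer ((A ⊔ ⁅A, B⁆ : Subgroup G) : Set G) := by
  have key : ∀ y ∈ B, conjBy (A ⊔ ⁅A, B⁆) y ≤ A ⊔ ⁅A, B⁆ := by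
    intro y hy
    rw [conjBy_sup, conjBy_eq_of_normalizes
      (le_normalizer_of_bot (bot_symm (rcc_central_right L.h1)) hy)]
    refine sup_le ?_ le_sup_right
    by_cases hy1 : y = 1
    · rw [hy1, conjBy_one]; exact le_sup_left
    · rw [← inv_inv y]
      exact le_sup_right.trans (sup_conj_eq L.h1 (inv_mem hy) (inv_ne_one.mpr hy1)).le
  intro x hx
  rw [mem_normalizer_iff_conjBy]
  refine le_antisymm (key x hx) ?_
  have := conjBy_mono (key x⁻¹ (inv_mem hx)) x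
  rwa [conjBy_conjBy, mul_inv_cancel, conjBy_one] at this

lemma normalizes_U : A ⊔ B ⊔ C ≤
    Subgroup.normalizer (((A ⊔ conjBy C b⁻¹) ⊔ (conjBy A b⁻¹ ⊔ C) : Subgroup G) : Set G) := by
  refine sup_le (sup_le ?_ ?_) ?_
  · exact (le_sup_left.trans le_sup_left).trans Subgroup.le_normalizer
  · rw [L.U_eq hb hb1, Subgroup.commutator_comm B C]
    exact normalizer_sup_le (L.B_normalizes_AP hb hb1) (L.swap.B_normalizes_AP hb hb1)
  · exact (le_sup_right.trans le_sup_right).trans Subgroup.le_normalizer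

lemma U_sup : (A ⊔ conjBy C b⁻¹) ⊔ (conjBy A b⁻¹ ⊔ C) ⊔ B = A ⊔ B ⊔ C := by
  rw [L.U_eq hb hb1]
  have hA : A ≤ A ⊔ B ⊔ C := le_sup_left.trans le_sup_left
  have hB : B ≤ A ⊔ B ⊔ C := le_sup_right.trans le_sup_left
  have hC : C ≤ A ⊔ B ⊔ C := le_sup_right
  apply le_antisymm
  · refine sup_le (sup_le (sup_le hA ?_) (sup_le hC ?_)) hB
    · exact (Subgroup.commutator_mono hA hB).trans (Subgroup.commutator_le_self _)
    · exact (Subgroup.commutator_mono hB hC).trans (Subgroup.commutator_le_self _)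
  · exact sup_le (sup_le (le_sup_left.trans (le_sup_left.trans le_sup_left)) le_sup_right)
      (le_sup_left.trans (le_sup_right.trans le_sup_left))

end Triple

/-- conjugating a commutator moves it inside `T` when both arguments move little -/
lemma central_step {H1 K1 : Subgroup G} (hH : H ≤ U) (hK : K ≤ U) (hH1 : H1 ≤ H) (hK1 : K1 ≤ K)
    (hc : ⁅⁅U, U⁆, U⁆ = ⊥) (hT : T ≤ ⁅U, U⁆) (hB : B ≤ Subgroup.normalizer (T : Set G))
    (mH : ⁅B, H⁆ ≤ H1) (mK : ⁅B, K⁆ ≤ K1) (t1 : ⁅H1, K⁆ ≤ T) (t2 : ⁅H, K1⁆ ≤ T) :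
    ⁅⁅H, K⁆, B⁆ ≤ T := by
  have cen : ∀ {t u : G}, t ∈ ⁅U, U⁆ → u ∈ U → u * t = t * u := fun ht hu =>
    (commute_of_commutator_eq_bot hc ht hu).symm
  have hTn : ⁅U, U⁆ ≤ Subgroup.normalizer (T : Set G) :=
    le_normalizer_of_bot (bot_symm (bot_mono (bot_symm
      (bot_symm (bot_mono (bot_symm hc) (Subgroup.commutator_le_self U)))) hT))
  rw [Subgroup.commutator_le]
  intro x hx b hb
  have key : x ∈ ⁅U, U⁆ ∧ b * x * b⁻¹ * x⁻¹ ∈ T := by
    rw [Subgroup.commutator_def] at hx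
    induction hx using Subgroup.closure_induction with
    | mem x hx =>
      obtain ⟨u, hu, v, hv, rfl⟩ := hx
      refine ⟨Subgroup.commutator_mem_commutator (hH hu) (hK hv), ?_⟩
      have hw : ⁅b, u⁆ ∈ H1 := mH (Subgroup.commutator_mem_commutator hb hu)
      have hw' : ⁅b, v⁆ ∈ K1 := mK (Subgroup.commutator_mem_commutator hb hv)
      have hkv : ⁅b, v⁆ * v ∈ K := mul_mem (hK1 hw') hv
      have e0 : b * ⁅u, v⁆ * b⁻¹ = ⁅⁅b, u⁆ * u, ⁅b, v⁆ * v⁆ := by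
        simp only [commutatorElement_def]; group
      generalize hgw : ⁅b, u⁆ = w at e0 hw
      generalize hgw' : ⁅b, v⁆ = w' at e0 hw' hkv
      have e1 : ⁅w * u, w' * v⁆ = w * ⁅u, w' * v⁆ * w⁻¹ * ⁅w, w' * v⁆ := by
        simp only [commutatorElement_def]; group
      have e2 : ⁅u, w' * v⁆ = ⁅u, w'⁆ * (w' * ⁅u, v⁆ * w'⁻¹) := by
        simp only [commutatorElement_def]; group
      have hm1 : ⁅u, w' * v⁆ ∈ ⁅U, U⁆ := Subgroup.commutator_mem_commutator (hH hu) (hK hkv)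
      have hm2 : ⁅u, v⁆ ∈ ⁅U, U⁆ := Subgroup.commutator_mem_commutator (hH hu) (hK hv)
      have ht1 : ⁅w, w' * v⁆ ∈ T := t1 (Subgroup.commutator_mem_commutator hw hkv)
      rw [e0, e1, cen hm1 (hH (hH1 hw)), mul_inv_cancel_right, e2, cen hm2 (hK (hK1 hw')),
        mul_inv_cancel_right]
      have e3 : ⁅u, w'⁆ * ⁅u, v⁆ * ⁅w, w' * v⁆ * ⁅u, v⁆⁻¹ =
          ⁅u, w'⁆ * (⁅u, v⁆ * ⁅w, w' * v⁆ * ⁅u, v⁆⁻¹) := by group
      rw [e3]
      exact mul_mem (t2 (Subgroup.commutator_mem_commutator hu hw'))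
        (conj_mem_of_normalizes (hTn hm2) ht1)
    | one => exact ⟨one_mem _, by simp⟩
    | mul x y _ _ ihx ihy =>
      refine ⟨mul_mem ihx.1 ihy.1, ?_⟩
      have e : b * (x * y) * b⁻¹ * (x * y)⁻¹ =
          b * x * b⁻¹ * x⁻¹ * (x * (b * y * b⁻¹ * y⁻¹) * x⁻¹) := by group
      rw [e]
      exact mul_mem ihx.2 (conj_mem_of_normalizes (hTn ihx.1) ihy.2)
    | inv x _ ihx =>
      refine ⟨inv_mem ihx.1, ?_⟩
      have e : b * x⁻¹ * b⁻¹ * x⁻¹⁻¹ = x⁻¹ * (b * x * b⁻¹ * x⁻¹)⁻¹ * x⁻¹⁻¹ := by group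
      rw [e]
      exact conj_mem_of_normalizes (hTn (inv_mem ihx.1)) (inv_mem ihx.2)
  have e : ⁅x, b⁆ = (b * x * b⁻¹ * x⁻¹)⁻¹ := by simp only [commutatorElement_def]; group
  rw [e]
  exact inv_mem key.2

lemma Triple.nilpotent (L : Triple S A B C) {b : G} (hb : b ∈ B) (hb1 : b ≠ 1) :
    Group.IsNilpotent ↥(A ⊔ B ⊔ C) := by
  set U := (A ⊔ conjBy C b⁻¹) ⊔ (conjBy A b⁻¹ ⊔ C) with hU
  set D := A ⊔ B ⊔ C with hD
  have hDU : D = U ⊔ B := (L.U_sup hb hb1).symm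
  have hUD : U ≤ D := hDU ▸ le_sup_left
  have hBD : B ≤ D := hDU ▸ le_sup_right
  have nU : D ≤ Subgroup.normalizer (U : Set G) := L.normalizes_U hb hb1
  have hMN := L.commMN hb hb1
  have cM := L.class_two hb hb1
  have cN : ⁅⁅conjBy A b⁻¹ ⊔ C, conjBy A b⁻¹ ⊔ C⁆, conjBy A b⁻¹ ⊔ C⁆ = ⊥ := by
    rw [sup_comm]; exact L.swap.class_two hb hb1
  -- the derived group of `U` is central in `U`
  have hc : ⁅⁅U, U⁆, U⁆ = ⊥ := by
    set M := A ⊔ conjBy C b⁻¹
    set N := conjBy A b⁻¹ ⊔ C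
    have r1 : ⁅⁅M, M⁆, U⁆ = ⊥ := bot_symm (bot_sup (bot_symm cM)
      (bot_symm (bot_mono hMN (Subgroup.commutator_le_self M))))
    have r2 : ⁅⁅N, N⁆, U⁆ = ⊥ := bot_symm (bot_sup
      (bot_symm (bot_mono (bot_symm hMN) (Subgroup.commutator_le_self N))) (bot_symm cN))
    have r : ⁅⁅M, M⁆ ⊔ ⁅N, N⁆, U⁆ = ⊥ := bot_sup r1 r2
    have hn := le_normalizer_of_bot (bot_symm r)
    have hnM : M ≤ _ := (le_sup_left : M ≤ U).trans hn
    have hnN : N ≤ _ := (le_sup_right : N ≤ U).trans hn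
    refine bot_mono r (commutator_sup_le hnM hnN ?_ ?_)
    · rw [Subgroup.commutator_comm]
      exact commutator_sup_le hnM hnN le_sup_left ((bot_symm hMN).le.trans bot_le)
    · rw [Subgroup.commutator_comm]
      exact commutator_sup_le hnM hnN (hMN.le.trans bot_le) le_sup_right
  set W := ⁅A, B⁆ ⊔ ⁅B, C⁆ ⊔ ⁅U, U⁆ with hW
  have hPU : ⁅A, B⁆ ≤ U := by
    rw [L.U_eq hb hb1] at hU
    rw [hU]; exact le_sup_right.trans le_sup_left
  have hQU : ⁅B, C⁆ ≤ U := by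
    rw [L.U_eq hb hb1] at hU
    rw [hU]; exact le_sup_right.trans le_sup_right
  have hWU : W ≤ U := sup_le (sup_le hPU hQU) (Subgroup.commutator_le_self U)
  have hU'W : ⁅U, U⁆ ≤ W := le_sup_right
  have hPB : ⁅⁅A, B⁆, B⁆ = ⊥ := rcc_central_right L.h1
  have hQB : ⁅⁅B, C⁆, B⁆ = ⊥ := rcc_central_left L.h2
  have nU' : D ≤ Subgroup.normalizer ((⁅U, U⁆ : Subgroup G) : Set G) := normalizer_commutator_le nU nU
  have nW : D ≤ Subgroup.normalizer (W : Set G) := by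
    rw [hDU]
    refine sup_le (fun u hu => ?_) ?_
    · have key : ∀ y ∈ U, conjBy W y ≤ W := fun y hy z hz => by
        rw [mem_conjBy] at hz
        have e : z = ⁅y, y⁻¹ * z * y⁆ * (y⁻¹ * z * y) := by simp only [commutatorElement_def]; group
        rw [e]
        exact mul_mem (hU'W (Subgroup.commutator_mem_commutator hy (hWU hz))) hz
      rw [mem_normalizer_iff_conjBy]
      refine le_antisymm (key u hu) ?_
      have := conjBy_mono (key u⁻¹ (inv_mem hu)) u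
      rwa [conjBy_conjBy, mul_inv_cancel, conjBy_one] at this
    · exact normalizer_sup_le (normalizer_sup_le (le_normalizer_of_bot (bot_symm hPB))
        (le_normalizer_of_bot (bot_symm hQB))) (hBD.trans nU')
  set X4 := ⁅U, W⁆ with hX4
  set X5 := ⁅W, W⁆ with hX5
  have n4 : D ≤ Subgroup.normalizer (X4 : Set G) := normalizer_commutator_le nU nW
  have n5 : D ≤ Subgroup.normalizer (X5 : Set G) := normalizer_commutator_le nW nW
  have hX4U : X4 ≤ ⁅U, U⁆ := Subgroup.commutator_mono le_rfl hWU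
  have hX5U : X5 ≤ ⁅U, U⁆ := Subgroup.commutator_mono hWU hWU
  have step : ∀ {X T : Subgroup G}, D ≤ Subgroup.normalizer (T : Set G) → ⁅U, X⁆ ≤ T →
      ⁅B, X⁆ ≤ T → ⁅X, D⁆ ≤ T := by
    intro X T hT h1 h2
    rw [hDU, Subgroup.commutator_comm]
    exact commutator_sup_le (hUD.trans hT) (hBD.trans hT) h1 h2
  have hBW : ⁅B, W⁆ ≤ ⁅U, U⁆ := by
    rw [Subgroup.commutator_comm]
    refine commutator_sup_le (sup_le (hPU.trans (hUD.trans nU')) (hQU.trans (hUD.trans nU')))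
      Subgroup.le_normalizer ?_ ?_
    · exact commutator_sup_le (hPU.trans (hUD.trans nU')) (hQU.trans (hUD.trans nU'))
        (hPB.le.trans bot_le) (hQB.le.trans bot_le)
    · rw [Subgroup.commutator_le]
      intro x hx y hy
      have e : ⁅x, y⁆ = x * (y * x⁻¹ * y⁻¹) := by simp only [commutatorElement_def]; group
      rw [e]
      exact mul_mem hx (conj_mem_of_normalizes (nU' (hBD hy)) (inv_mem hx))
  have s1 : ⁅U, D⁆ ≤ W := by
    refine step nW hU'W ?_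
    rw [Subgroup.commutator_comm]
    have nWU : ∀ {X : Subgroup G}, X ≤ U → X ≤ Subgroup.normalizer (W : Set G) :=
      fun h => h.trans (hUD.trans nW)
    rw [L.U_eq hb hb1] at hU
    rw [hU]
    have aU : A ≤ U := by rw [hU]; exact le_sup_left.trans le_sup_left
    have cU : C ≤ U := by rw [hU]; exact le_sup_left.trans le_sup_right
    refine commutator_sup_le (sup_le (nWU aU) (nWU hPU)) (sup_le (nWU cU) (nWU hQU)) ?_ ?_
    · exact commutator_sup_le (nWU aU) (nWU hPU) (le_sup_left.trans le_sup_left)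
        (hPB.le.trans bot_le)
    · refine commutator_sup_le (nWU cU) (nWU hQU) ?_ (hQB.le.trans bot_le)
      rw [Subgroup.commutator_comm]
      exact le_sup_right.trans le_sup_left
  have s2 : ⁅W, D⁆ ≤ ⁅U, U⁆ := step nU' (Subgroup.commutator_mono le_rfl hWU) hBW
  have mU : ⁅B, U⁆ ≤ W := by
    rw [Subgroup.commutator_comm]
    exact (Subgroup.commutator_mono le_rfl hBD).trans s1
  have s3 : ⁅⁅U, U⁆, D⁆ ≤ X4 := by
    refine step n4 ((bot_symm hc).le.trans bot_le) ?_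
    rw [Subgroup.commutator_comm]
    exact central_step le_rfl le_rfl hWU hWU hc hX4U (hBD.trans n4) mU mU
      (Subgroup.commutator_comm W U).le le_rfl
  have s4 : ⁅X4, D⁆ ≤ X5 := by
    refine step n5 ((bot_symm (bot_mono hc hX4U)).le.trans bot_le) ?_
    rw [Subgroup.commutator_comm]
    exact central_step le_rfl hWU hWU hU'W hc hX5U (hBD.trans n5) mU hBW le_rfl
      ((bot_symm hc).le.trans bot_le)
  have s5 : ⁅X5, D⁆ ≤ ⊥ := by
    have nb : D ≤ Subgroup.normalizer ((⊥ : Subgroup G) : Set G) := fun x _ => by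
      rw [mem_normalizer_iff_conjBy, conjBy_bot]
    refine step nb (bot_symm (bot_mono hc hX5U)).le ?_
    rw [Subgroup.commutator_comm]
    exact central_step hWU hWU hU'W hU'W hc bot_le (hBD.trans nb) hBW hBW
      (bot_symm (bot_mono (bot_symm hc) hWU)).le
      (bot_mono (bot_symm hc) hWU).le
  have s0 : ⁅D, D⁆ ≤ U := by
    refine step nU ?_ ?_
    · rw [hDU, Subgroup.commutator_comm]
      refine commutator_sup_le (hUD.trans nU) (hBD.trans nU) (Subgroup.commutator_le_self U) ?_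
      exact mU.trans hWU
    · rw [hDU, Subgroup.commutator_comm]
      refine commutator_sup_le (hUD.trans nU) (hBD.trans nU) ?_ ?_
      · rw [Subgroup.commutator_comm]; exact mU.trans hWU
      · rw [root_self_bot L.hS L.hB]; exact bot_le
  refine Subgroup.isNilpotent_of_lowerCentralSeries_eq_bot (n := 6) (le_bot_iff.mp ?_)
  simp only [Subgroup.lowerCentralSeries_succ, Subgroup.lowerCentralSeries_zero]
  have l2 := (Subgroup.commutator_mono s0 (le_refl D)).trans s1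
  have l3 := (Subgroup.commutator_mono l2 (le_refl D)).trans s2
  have l4 := (Subgroup.commutator_mono l3 (le_refl D)).trans s3
  have l5 := (Subgroup.commutator_mono l4 (le_refl D)).trans s4
  exact (Subgroup.commutator_mono l5 (le_refl D)).trans s5

end Cfsg.Agent.H92.RT
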