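import Cfsg.Agent.H92.Special

/-! Special rank one groups with abelian unipotent subgroups of order > 3 are perfect. -/

set_option autoImplicit false

namespace Cfsg.Agent.H92

open Cfsg
open scoped commutatorElement

variable {G : Type*} [Group G] {A B : Subgroup G}

/-- The conjugating element of a partner pair lies in the rank one group. -/
lemma Partner.n_mem {a c : G} (p : Partner A B a c) : a * c * a ∈ A ⊔ B :=
  mul_mem (mul_mem (Subgroup.mem_sup_left p.ha) (Subgroup.mem_sup_right p.hc)) (Subgroup.mem_sup_left p.ha)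

/-- The diagonal elements `n_t⁻¹ n_a`. -/
lemma Partner.ratio_mem_diagonal (h : IsSpecialRankOnePair A B) {a c t d : G} (p : Partner A B a c)
    (q : Partner A B t d) : (t * d * t)⁻¹ * (a * c * a) ∈ rankOneDiagonal A B := by
  have q1 : conjBy B (t * d * t)⁻¹ = A := by
    conv_lhs => rw [← q.conj_left, conjBy_conjBy, inv_mul_cancel, conjBy_one]
  have q2 : conjBy A (t * d * t)⁻¹ = B := by
    conv_lhs => rw [← q.conj_right h, conjBy_conjBy, inv_mul_cancel, conjBy_one]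
  refine Subgroup.mem_inf.2 ⟨Subgroup.mem_inf.2 ⟨mul_mem (inv_mem q.n_mem) p.n_mem,
    mem_normalizer_iff_conjBy.2 ?_⟩, mem_normalizer_iff_conjBy.2 ?_⟩
  · rw [← conjBy_conjBy, p.conj_left, q1]
  · rw [← conjBy_conjBy, p.conj_right h, q2]

/-- `⁅A, H⁆ ≤ A`. -/
lemma commutator_diagonal_le (A B : Subgroup G) : ⁅A, rankOneDiagonal A B⁆ ≤ A :=
  Subgroup.le_normalizer_iff_commutator_le_left.1 (inf_le_left.trans inf_le_right)

/-- For `#A > 3` the diagonal subgroup moves all of `A`: `⁅A, H⁆ = A`. -/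
lemma special_commutator_diagonal (h : IsSpecialRankOnePair A B)
    (hA : ∀ x ∈ A, ∀ y ∈ A, x * y = y * x) (h4 : 3 < ENat.card A) :
    ⁅A, rankOneDiagonal A B⁆ = A := by
  refine le_antisymm (commutator_diagonal_le A B) ?_
  set T := ⁅A, rankOneDiagonal A B⁆ with hT
  -- a base point
  obtain ⟨⟨t, ht⟩, ht1⟩ := Subgroup.ne_bot_iff_exists_ne_one.1 (rankOne_left_ne_bot h.1)
  replace ht1 : t ≠ 1 := fun e => ht1 (Subtype.ext e)
  obtain ⟨d, q⟩ := Partner.exists_left h.1 ht ht1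
  set n := t * d * t with hn
  -- `n⁻¹` carries every partner back into the coset of the element
  have back : ∀ a c, Partner A B a c → ∀ x ∈ A,
      x⁻¹ * (n⁻¹ * ((a * c * a) * x * (a * c * a)⁻¹) * n) ∈ T := by
    intro a c p x hx
    have hm := Subgroup.commutator_mem_commutator (inv_mem hx) (p.ratio_mem_diagonal h q)
    rw [commutatorElement_def] at hm
    simpa [hn, mul_assoc] using hm
  have back' : ∀ a c, Partner A B a c → a⁻¹ * (n⁻¹ * c * n) ∈ T := by
    intro a c p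
    have := back a c p a p.ha
    rwa [conj_fst_of_braid (p.braid h)] at this
  have inA : ∀ z ∈ B, n⁻¹ * z * n ∈ A := by
    intro z hz
    rw [← q.conj_left] at hz
    exact mem_conjBy.1 hz
  have rel : ∀ y ∈ A, ∀ x ∈ A, y ≠ 1 → x ≠ 1 → y * x ≠ 1 → y * (x * x) ∈ T := by
    intro y hy x hx hy1 hx1 hyx1
    obtain ⟨c, p⟩ := Partner.exists_left h.1 hy hy1
    obtain ⟨d', p'⟩ := Partner.exists_left h.1 (mul_mem hy hx) hyx1
    set m := y * c * y with hm
    have hz : m * x * m⁻¹ ∈ B := by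
      have := conj_mem_conjBy hx m
      rwa [p.conj_left] at this
    have hz1 : m * x * m⁻¹ ≠ 1 := fun e => hx1 (conj_eq_one_iff.1 e)
    obtain ⟨z, pz⟩ := Partner.exists_right h.1 hz hz1
    have hv1 : c * d'⁻¹ ≠ 1 := fun e => hx1 (by
      rw [mul_inv_eq_one] at e
      subst e
      exact mul_left_cancel (a := y) (by rw [mul_one]; exact (p.left_unique h.1 p').symm))
    obtain ⟨v, pv⟩ := Partner.exists_right h.1 (mul_mem p.hc (inv_mem p'.hc)) hv1
    have hAm : conjBy A m⁻¹ = B := by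
      conv_lhs => rw [← p.conj_right h, ← hm, conjBy_conjBy, inv_mul_cancel, conjBy_one]
    have e1 : conjBy B (m * x) = conjBy B z⁻¹ := by
      rw [← hAm, conjBy_conjBy, pz.eq, hAm]
    have e2 : conjBy B (m * x) = conjBy B (y * v⁻¹) := by
      have h2 : conjBy A d'⁻¹ = conjBy B (y * x) := by simpa using (p'.inv h).eq
      rw [← conjBy_conjBy B v⁻¹ y, ← pv.eq, ← conjBy_conjBy A d'⁻¹ c, h2, conjBy_conjBy,
        conjBy_conjBy]
      congr 1
      simp [hm, mul_assoc]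
    have hvz : z⁻¹ = y * v⁻¹ :=
      rankOne_conjBy_injOn (RankOnePair_symm h.1) (inv_mem pz.ha) (mul_mem hy (inv_mem pv.ha))
        (e1.symm.trans e2)
    have t1 := back y c p x hx
    rw [← hm] at t1
    have t2 := back' _ _ pz
    have t3 := back' _ _ pv
    have t4 := back' _ _ p
    have t5 := back' _ _ p'
    set Z := n⁻¹ * (m * x * m⁻¹) * n with hZ
    set P := n⁻¹ * c * n with hP
    set Q := n⁻¹ * d' * n with hQ
    have hV : n⁻¹ * (c * d'⁻¹) * n = P * Q⁻¹ := by simp [hP, hQ, mul_assoc]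
    rw [hV] at t3
    have hPA : P ∈ A := inA _ p.hc
    have hQA : Q ∈ A := inA _ p'.hc
    have hZA : Z ∈ A := inA _ hz
    letI : CommGroup A := { (inferInstance : Group A) with mul_comm := fun a b => Subtype.ext (hA _ a.2 _ b.2) }
    let T' : Subgroup A := T.subgroupOf A
    have key : (⟨y, hy⟩ : A) * (⟨x, hx⟩ * ⟨x, hx⟩) ∈ T' := by
      have a1 : (⟨x, hx⟩ : A)⁻¹ * ⟨Z, hZA⟩ ∈ T' := t1
      have a2 : (⟨z, pz.ha⟩ : A)⁻¹ * ⟨Z, hZA⟩ ∈ T' := t2
      have a3 : (⟨v, pv.ha⟩ : A)⁻¹ * (⟨P, hPA⟩ * (⟨Q, hQA⟩ : A)⁻¹) ∈ T' := t3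
      have a4 : (⟨y, hy⟩ : A)⁻¹ * ⟨P, hPA⟩ ∈ T' := t4
      have a5 : ((⟨y, hy⟩ : A) * ⟨x, hx⟩)⁻¹ * ⟨Q, hQA⟩ ∈ T' := t5
      have e : (⟨z, pz.ha⟩ : A)⁻¹ = ⟨y, hy⟩ * (⟨v, pv.ha⟩ : A)⁻¹ := Subtype.ext hvz
      rw [e] at a2
      have := mul_mem (mul_mem (mul_mem a2 (inv_mem a1)) (inv_mem a3)) (mul_mem a4 (inv_mem a5))
      generalize (⟨y, hy⟩ : A) = Y at *
      generalize (⟨x, hx⟩ : A) = W at *
      generalize (⟨Z, hZA⟩ : A) = Z' at *
      generalize (⟨P, hPA⟩ : A) = P' at *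
      generalize (⟨Q, hQA⟩ : A) = Q' at *
      generalize (⟨v, pv.ha⟩ : A) = V at *
      convert this using 1
      simp only [_root_.mul_inv_rev, inv_inv]
      apply Additive.ofMul.injective
      simp only [ofMul_mul, ofMul_inv]
      abel
    exact key
  intro y hy
  by_cases hy1 : y = 1
  · rw [hy1]; exact one_mem _
  obtain ⟨x, hx, hx1, hxy, hxy'⟩ : ∃ x ∈ A, x ≠ 1 ∧ x ≠ y⁻¹ ∧ x ≠ y := by
    by_contra hcon
    push Not at hcon
    have hsub : (A : Set G) ⊆ {1, y⁻¹, y} := by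
      intro x hx
      by_cases h1 : x = 1
      · exact Or.inl h1
      by_cases h2 : x = y⁻¹
      · exact Or.inr (Or.inl h2)
      exact Or.inr (Or.inr (hcon x hx h1 h2))
    have h3 : (A : Set G).encard ≤ 3 := by
      refine (Set.encard_le_encard hsub).trans ?_
      refine (Set.encard_insert_le _ _).trans ?_
      refine (add_le_add (Set.encard_insert_le _ _) le_rfl).trans ?_
      rw [Set.encard_singleton]
      norm_num
    exact absurd (lt_of_lt_of_le h4 h3) (lt_irrefl _)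
  have hyx : y * x ≠ 1 := fun e => hxy (eq_inv_of_mul_eq_one_right e)
  have hw : x * y⁻¹ ∈ A := mul_mem hx (inv_mem hy)
  have hw1 : x * y⁻¹ ≠ 1 := fun e => hxy' (mul_inv_eq_one.1 e)
  have cxy : Commute x y := hA x hx y hy
  have hwy : x * y⁻¹ * y ≠ 1 := by rwa [inv_mul_cancel_right]
  have r1 := rel x hx y hy hx1 hy1 (by rwa [cxy.eq])
  have r2 := rel (x * y⁻¹) hw y hy hw1 hy1 hwy
  have : y = (x * (y * y)) * ((x * y⁻¹) * (y * y))⁻¹ := by
    simp only [_root_.mul_inv_rev, inv_inv]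
    have c1 : Commute x (y⁻¹ * y⁻¹) := cxy.inv_right.mul_right cxy.inv_right
    calc y = x * (y * y) * (y⁻¹ * y⁻¹) * y * x⁻¹ := by
          rw [mul_assoc x, ← _root_.mul_inv_rev, mul_inv_cancel, mul_one, mul_assoc, cxy.inv_left.symm.eq,
            mul_inv_cancel_left]
      _ = x * (y * y) * (y⁻¹ * y⁻¹ * (y * x⁻¹)) := by simp [mul_assoc]
  rw [this]
  exact mul_mem r1 (inv_mem r2)

/-- A special rank one group with abelian unipotent subgroups of order > 3 is perfect. -/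
lemma special_le_commutator (h : IsSpecialRankOnePair A B)
    (hA : ∀ x ∈ A, ∀ y ∈ A, x * y = y * x) (h4 : 3 < ENat.card A) :
    A ⊔ B ≤ ⁅A ⊔ B, A ⊔ B⁆ := by
  have hAle : A ≤ ⁅A ⊔ B, A ⊔ B⁆ := by
    conv_lhs => rw [← special_commutator_diagonal h hA h4]
    exact Subgroup.commutator_mono le_sup_left (inf_le_left.trans inf_le_left)
  refine sup_le hAle ?_
  obtain ⟨g, hg, e⟩ := right_mem_unipotent h.1
  refine e.le.trans ((conjBy_mono hAle g).trans ?_)
  rw [conjBy_commutator, mem_normalizer_iff_conjBy.1 (Subgroup.le_normalizer hg)]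

end Cfsg.Agent.H92
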